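import Mathlib

set_option autoImplicit false

namespace Cfsg.Agent.Lib.Helper1

/-- a simple group with a subgroup of index `n` and order `n!/2` is the alternating group -/
theorem mulEquiv_alternatingGroup_of_index {G : Type*} [Group G] [Finite G] [IsSimpleGroup G]
    (H : Subgroup G) (n : ℕ) (hidx : H.index = n) (hcard : 2 * Nat.card G = n.factorial)
    (hn : 2 ≤ n) : Nonempty (G ≃* alternatingGroup (Fin n)) := by
  classical
  let φ : G →* Equiv.Perm (G ⧸ H) := MulAction.toPermHom G (G ⧸ H)
  have hker : φ.ker = ⊥ := by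
    rcases Subgroup.Normal.eq_bot_or_eq_top (inferInstance : φ.ker.Normal) with h | h
    · exact h
    · exfalso
      have h1 : H.normalCore = ⊤ := by rw [Subgroup.normalCore_eq_ker]; exact h
      have h2 : H = ⊤ := top_le_iff.mp (h1 ▸ Subgroup.normalCore_le H)
      rw [h2, Subgroup.index_top] at hidx
      omega
  have hφinj : Function.Injective φ := (MonoidHom.ker_eq_bot_iff φ).mp hker
  have hcardq : Nat.card (G ⧸ H) = n := hidx
  let e : (G ⧸ H) ≃ Fin n := (Finite.equivFin (G ⧸ H)).trans (finCongr hcardq)
  let ψ : G →* Equiv.Perm (Fin n) := (e.permCongrHom).toMonoidHom.comp φ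
  have hψinj : Function.Injective ψ := by
    intro a b hab
    apply hφinj
    exact e.permCongrHom.injective hab
  have hRcard : Nat.card ψ.range = Nat.card G :=
    (Nat.card_congr (MonoidHom.ofInjective hψinj).toEquiv).symm
  have hperm : Nat.card (Equiv.Perm (Fin n)) = n.factorial := by
    rw [Nat.card_perm, Nat.card_fin]
  have hRidx : ψ.range.index = 2 := by
    have h1 := Subgroup.card_mul_index ψ.range
    rw [hRcard, hperm, ← hcard, mul_comm] at h1
    exact Nat.eq_of_mul_eq_mul_right Nat.card_pos h1
  have hR : ψ.range = alternatingGroup (Fin n) :=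
    Equiv.Perm.eq_alternatingGroup_of_index_eq_two hRidx
  exact ⟨(MonoidHom.ofInjective hψinj).trans (MulEquiv.subgroupCongr hR)⟩

/-- the order of a simple group divides the factorial of the index of any proper subgroup -/
theorem card_dvd_factorial_index {G : Type*} [Group G] [Finite G] [IsSimpleGroup G]
    (H : Subgroup G) (hH : H ≠ ⊤) : Nat.card G ∣ H.index.factorial := by
  classical
  let φ : G →* Equiv.Perm (G ⧸ H) := MulAction.toPermHom G (G ⧸ H)
  have hker : φ.ker = ⊥ := by
    rcases Subgroup.Normal.eq_bot_or_eq_top (inferInstance : φ.ker.Normal) with h | h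
    · exact h
    · exfalso
      have h1 : H.normalCore = ⊤ := by rw [Subgroup.normalCore_eq_ker]; exact h
      exact hH (top_le_iff.mp (h1 ▸ Subgroup.normalCore_le H))
  have hφinj : Function.Injective φ := (MonoidHom.ker_eq_bot_iff φ).mp hker
  have h1 : Nat.card G ∣ Nat.card (Equiv.Perm (G ⧸ H)) := Subgroup.card_dvd_of_injective φ hφinj
  rwa [Nat.card_perm] at h1

end Cfsg.Agent.Lib.Helper1
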