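import Mathlib
import Cfsg.Agent.Lib.Lead.Coprime
import Cfsg.Agent.Lib.Lead.Charac
import Cfsg.Agent.Lib.Helper6.Comm
import Cfsg.Agent.Lib.Helper4.CoprimeGen
import Cfsg.Agent.Lib.Helper1.Abel

set_option autoImplicit false

namespace Cfsg.Agent.Lib.Helper1

theorem cg_conj_pow {X : Type*} [Group X] (G : Subgroup X) (a : X)
    (ha : a ∈ Subgroup.normalizer (G : Set X)) (n : ℕ) (x : G) :
    ((((Cfsg.Agent.Lib.Lead.conjNormalizer G a ha).toEquiv : Equiv.Perm G) ^ n) x : X) =
      a ^ n * x * (a ^ n)⁻¹ := by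
  induction n generalizing x with
  | zero => simp
  | succ n ih =>
    rw [pow_succ, Equiv.Perm.mul_apply, ih]
    show a ^ n * (a * x * a⁻¹) * (a ^ n)⁻¹ = a ^ (n + 1) * x * (a ^ (n + 1))⁻¹
    rw [pow_succ]; group

/-- rank two coprime generation, where only the `r`-th powers are required to act trivially -/
theorem cg_rank2 {X : Type*} [Group X] [Finite X] (G : Subgroup X) {r : ℕ} [Fact r.Prime]
    (a b : X)
    (ha : a ∈ Subgroup.normalizer (G : Set X)) (hb : b ∈ Subgroup.normalizer (G : Set X))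
    (hab : a * b = b * a)
    (har : ∀ g ∈ G, a ^ r * g = g * a ^ r) (hbr : ∀ g ∈ G, b ^ r * g = g * b ^ r)
    (hcop : (Nat.card G).Coprime r) (R₁ : Subgroup X)
    (h0 : ∀ g ∈ G, b * g = g * b → g ∈ R₁)
    (h1 : ∀ i : ℕ, ∀ g ∈ G, (a * b ^ i) * g = g * (a * b ^ i) → g ∈ R₁) : G ≤ R₁ := by
  obtain ⟨ca, hca⟩ : ∃ ca : Equiv.Perm G,
    ca = (Cfsg.Agent.Lib.Lead.conjNormalizer G a ha).toEquiv := ⟨_, rfl⟩
  obtain ⟨cb, hcb⟩ : ∃ cb : Equiv.Perm G,
    cb = (Cfsg.Agent.Lib.Lead.conjNormalizer G b hb).toEquiv := ⟨_, rfl⟩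
  have hca_pow : ∀ (n : ℕ) (x : G), (((ca ^ n) x : G) : X) = a ^ n * x * (a ^ n)⁻¹ := by
    intro n x; rw [hca]; exact cg_conj_pow G a ha n x
  have hcb_pow : ∀ (n : ℕ) (x : G), (((cb ^ n) x : G) : X) = b ^ n * x * (b ^ n)⁻¹ := by
    intro n x; rw [hcb]; exact cg_conj_pow G b hb n x
  have hca1 : ∀ x : G, ((ca x : G) : X) = a * x * a⁻¹ := by intro x; rw [hca]; rfl
  have hcb1 : ∀ x : G, ((cb x : G) : X) = b * x * b⁻¹ := by intro x; rw [hcb]; rfl
  obtain ⟨lam, hlam⟩ : ∃ lam : G →* Equiv.Perm G, ∀ g x : G, lam g x = g * x :=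
    ⟨MulAction.toPermHom G G, fun g x => rfl⟩
  have hlam_inj : Function.Injective lam := by
    intro g g' h
    have h2 : lam g 1 = lam g' 1 := by rw [h]
    rw [hlam, hlam, mul_one, mul_one] at h2
    exact h2
  have hcar : ca ^ r = 1 := by
    apply Equiv.ext; intro x; apply Subtype.ext
    rw [hca_pow, Equiv.Perm.one_apply, har x x.2]; group
  have hcbr : cb ^ r = 1 := by
    apply Equiv.ext; intro x; apply Subtype.ext
    rw [hcb_pow, Equiv.Perm.one_apply, hbr x x.2]; group
  have hcab : ca * cb = cb * ca := by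
    apply Equiv.ext; intro x; apply Subtype.ext
    rw [Equiv.Perm.mul_apply, Equiv.Perm.mul_apply, hca1, hcb1, hcb1, hca1]
    calc a * (b * ↑x * b⁻¹) * a⁻¹ = (a * b) * ↑x * (a * b)⁻¹ := by group
      _ = (b * a) * ↑x * (b * a)⁻¹ := by rw [hab]
      _ = _ := by group
  have hnorm : ∀ (c : Equiv.Perm G) (e : X), (∀ x : G, ((c x : G) : X) = e * x * e⁻¹) →
      c ∈ Subgroup.normalizer ((lam.range : Subgroup (Equiv.Perm G)) : Set (Equiv.Perm G)) := by
    intro c e hc
    apply Cfsg.Agent.Lib.Helper6.mem_normalizer_of_conj_mem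
    rintro _ ⟨g, rfl⟩
    refine ⟨c g, ?_⟩
    rw [eq_mul_inv_iff_mul_eq]
    apply Equiv.ext; intro x; apply Subtype.ext
    rw [Equiv.Perm.mul_apply, Equiv.Perm.mul_apply, hlam, hlam]
    simp only [Subgroup.coe_mul, hc]
    group
  have hcard : Nat.card (lam.range : Subgroup (Equiv.Perm G)) = Nat.card G :=
    (Nat.card_congr (MonoidHom.ofInjective hlam_inj).toEquiv).symm
  have hcent : ∀ (c : Equiv.Perm G) (e : X), (∀ x : G, ((c x : G) : X) = e * x * e⁻¹) →
      (∀ g ∈ G, e * g = g * e → g ∈ R₁) →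
      (lam.range : Subgroup (Equiv.Perm G)) ⊓ Subgroup.centralizer ({c} : Set (Equiv.Perm G)) ≤
        (R₁.subgroupOf G).map lam := by
    intro c e hc hR σ hσ
    obtain ⟨⟨g, rfl⟩, hσc⟩ := Subgroup.mem_inf.mp hσ
    rw [Subgroup.mem_centralizer_iff] at hσc
    have h2 := hσc c (Set.mem_singleton c)
    have h3 : c (lam g 1) = lam g (c 1) := by
      have := congrArg (fun τ : Equiv.Perm G => τ 1) h2
      exact this
    have h4 : lam g 1 = g := by rw [hlam, mul_one]
    have h5 : ((c g : G) : X) = (g : X) * ((c 1 : G) : X) := by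
      rw [h4] at h3; rw [h3, hlam]; rfl
    rw [hc, hc] at h5
    have h6 : e * (g : X) = (g : X) * e := by
      have : e * (g : X) = (e * ↑g * e⁻¹) * e := by group
      rw [this, h5]; simp
    exact ⟨g, Subgroup.mem_subgroupOf.mpr (hR g g.2 h6), rfl⟩
  have hmain := Cfsg.Agent.Lib.Helper4.coprime_generation (p := r) ca cb hcar hcbr hcab lam.range
    (hnorm ca a hca1) (hnorm cb b hcb1) (by rw [hcard]; exact hcop) ((R₁.subgroupOf G).map lam)
    (hcent cb b hcb1 h0)
    (fun i => hcent (ca * cb ^ i) (a * b ^ i) (fun x => by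
      rw [Equiv.Perm.mul_apply, hca1, hcb_pow]; group) (h1 i))
  intro g hg
  have h2 : lam ⟨g, hg⟩ ∈ (R₁.subgroupOf G).map lam := hmain ⟨⟨g, hg⟩, rfl⟩
  obtain ⟨y, hy, hy2⟩ := h2
  have h3 := hlam_inj hy2
  rw [h3] at hy
  exact Subgroup.mem_subgroupOf.mp hy

theorem cg_torsion_card {Q : Type*} [CommGroup Q] [Finite Q]
    (h : ∀ r : ℕ, r.Prime → Nat.card (powMonoidHom r : Q →* Q).ker ≤ r) :
    ∀ n : ℕ, 0 < n → Nat.card (powMonoidHom n : Q →* Q).ker ≤ n := by
  intro n
  induction n using Nat.strong_induction_on with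
  | _ n ih =>
    intro hn
    by_cases hn1 : n = 1
    · subst hn1
      have : (powMonoidHom 1 : Q →* Q).ker = ⊥ := by
        rw [eq_bot_iff]
        intro x hx
        rw [MonoidHom.mem_ker, powMonoidHom_apply, pow_one] at hx
        rw [Subgroup.mem_bot]; exact hx
      rw [this, Subgroup.card_bot]
    · obtain ⟨r, hrdef⟩ : ∃ r, r = n.minFac := ⟨_, rfl⟩
      have hr : r.Prime := by rw [hrdef]; exact Nat.minFac_prime hn1
      have hrn : r ∣ n := by rw [hrdef]; exact Nat.minFac_dvd n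
      obtain ⟨m, hm⟩ := hrn
      have hmpos : 0 < m := by
        rcases Nat.eq_zero_or_pos m with h0 | h0
        · rw [h0, mul_zero] at hm; omega
        · exact h0
      have hmlt : m < n := by
        rw [hm]
        have := hr.two_le
        nlinarith
      have ihm := ih m hmlt hmpos
      have hrr := h r hr
      let ψ : (powMonoidHom n : Q →* Q).ker →* (powMonoidHom m : Q →* Q).ker :=
        ((powMonoidHom r : Q →* Q).comp (Subgroup.subtype _)).codRestrict _ (by
          intro x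
          have hx := x.2
          rw [MonoidHom.mem_ker, powMonoidHom_apply] at hx ⊢
          show ((x : Q) ^ r) ^ m = 1
          rw [← pow_mul, ← hm]; exact hx)
      have h1 := Subgroup.card_eq_card_quotient_mul_card_subgroup ψ.ker
      have h2 : Nat.card ((powMonoidHom n : Q →* Q).ker ⧸ ψ.ker) = Nat.card ψ.range :=
        Nat.card_congr (QuotientGroup.quotientKerEquivRange ψ).toEquiv
      have h3 : Nat.card ψ.range ≤ m := (Subgroup.card_le_card_group (H := ψ.range)).trans ihm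
      have h4 : Nat.card ψ.ker ≤ r := by
        refine le_trans ?_ hrr
        let f : ψ.ker → (powMonoidHom r : Q →* Q).ker := fun y =>
          ⟨((y : (powMonoidHom n : Q →* Q).ker) : Q), by
            have hy := y.2
            rw [MonoidHom.mem_ker] at hy
            have hy2 := congrArg Subtype.val hy
            rw [MonoidHom.mem_ker, powMonoidHom_apply]
            exact hy2⟩
        apply Nat.card_le_card_of_injective f
        intro y y' hyy
        have := congrArg Subtype.val hyy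
        exact Subtype.ext (Subtype.ext this)
      rw [h1, h2]
      calc Nat.card ψ.range * Nat.card ψ.ker ≤ m * r := Nat.mul_le_mul h3 h4
        _ = n := by rw [hm, mul_comm]

theorem cg_exists_rank2 {Q : Type*} [CommGroup Q] [Finite Q] (hQ : ¬ IsCyclic Q) :
    ∃ r : ℕ, r.Prime ∧ r ∣ Nat.card Q ∧ ∃ a b : Q, a ^ r = 1 ∧ b ^ r = 1 ∧ b ≠ 1 ∧
      ∀ i : ℕ, a * b ^ i ≠ 1 := by
  classical
  by_contra hcon
  apply hQ
  haveI : Fintype Q := Fintype.ofFinite Q
  apply isCyclic_of_card_pow_eq_one_le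
  intro n hn
  rw [← Fintype.card_subtype, ← Nat.card_eq_fintype_card]
  have e2 : Nat.card {x : Q // x ^ n = 1} = Nat.card (powMonoidHom n : Q →* Q).ker :=
    Nat.card_congr (Equiv.subtypeEquivRight (fun a => by
      rw [MonoidHom.mem_ker, powMonoidHom_apply]))
  rw [e2]
  apply cg_torsion_card _ n hn
  intro r hr
  by_contra hgt
  push Not at hgt
  apply hcon
  haveI : Fact r.Prime := ⟨hr⟩
  obtain ⟨K, hK⟩ : ∃ K : Subgroup Q, K = (powMonoidHom r : Q →* Q).ker := ⟨_, rfl⟩
  rw [← hK] at hgt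
  have hKmem : ∀ x, x ∈ K ↔ x ^ r = 1 := by
    intro x; rw [hK, MonoidHom.mem_ker, powMonoidHom_apply]
  have hK1 : K ≠ ⊥ := by
    rw [← K.one_lt_card_iff_ne_bot]
    have := hr.two_le
    omega
  obtain ⟨⟨b, hb⟩, hb1⟩ := Subgroup.ne_bot_iff_exists_ne_one.mp hK1
  have hb1' : b ≠ 1 := fun h => hb1 (Subtype.ext h)
  have hbr : b ^ r = 1 := (hKmem b).mp hb
  have hob : orderOf b = r := orderOf_eq_prime hbr hb1'
  have hnle : ¬ K ≤ Subgroup.zpowers b := by
    intro hle
    have := Subgroup.card_le_of_le hle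
    rw [Nat.card_zpowers, hob] at this
    omega
  obtain ⟨a, haK, haz⟩ := SetLike.not_le_iff_exists.mp hnle
  refine ⟨r, hr, ?_, a, b, (hKmem a).mp haK, hbr, hb1', ?_⟩
  · rw [← hob]; exact orderOf_dvd_natCard b
  · intro i hi
    apply haz
    have : a = (b ^ i)⁻¹ := eq_inv_of_mul_eq_one_left hi
    rw [this]
    exact Subgroup.inv_mem _ (Subgroup.pow_mem _ (Subgroup.mem_zpowers b) i)

theorem cg_not_cyclic {X : Type*} [Group X] [Finite X] (A D : Subgroup X)
    (hAc : ∀ x ∈ A, ∀ y ∈ A, x * y = y * x) (hDA : D ≤ A)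
    (h : ¬ ∃ a ∈ A, D ⊔ Subgroup.zpowers a = A) :
    ∃ r : ℕ, r.Prime ∧ r ∣ Nat.card A ∧ ∃ a ∈ A, ∃ b ∈ A, a ^ r ∈ D ∧ b ^ r ∈ D ∧ b ∉ D ∧
      ∀ i : ℕ, a * b ^ i ∉ D := by
  letI : CommGroup A := { (inferInstance : Group A) with
    mul_comm := fun x y => Subtype.ext (hAc x x.2 y y.2) }
  have hnc : ¬ IsCyclic (A ⧸ D.subgroupOf A) := by
    intro hc
    obtain ⟨q, hq⟩ := hc.exists_generator
    obtain ⟨a, rfl⟩ := QuotientGroup.mk_surjective q
    apply h
    refine ⟨a, a.2, le_antisymm (sup_le hDA ((Subgroup.zpowers_le).mpr a.2)) ?_⟩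
    intro x hx
    obtain ⟨k, hk⟩ := Subgroup.mem_zpowers_iff.mp (hq (QuotientGroup.mk ⟨x, hx⟩))
    rw [← QuotientGroup.mk_zpow] at hk
    have h2 := QuotientGroup.eq.mp hk
    rw [Subgroup.mem_subgroupOf] at h2
    have e : x = (a : X) ^ k * (((a : X) ^ k)⁻¹ * x) := by group
    rw [e]
    refine Subgroup.mul_mem _ (Subgroup.mem_sup_right (Subgroup.zpow_mem_zpowers _ k))
      (Subgroup.mem_sup_left ?_)
    simpa using h2
  obtain ⟨r, hr, hrd, qa, qb, hqa, hqb, hqb1, hqab⟩ := cg_exists_rank2 hnc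
  obtain ⟨a, rfl⟩ := QuotientGroup.mk_surjective qa
  obtain ⟨b, rfl⟩ := QuotientGroup.mk_surjective qb
  refine ⟨r, hr, hrd.trans (Subgroup.card_quotient_dvd_card _), a, a.2, b, b.2, ?_, ?_, ?_, ?_⟩
  · rw [← QuotientGroup.mk_pow, QuotientGroup.eq_one_iff, Subgroup.mem_subgroupOf] at hqa
    simpa using hqa
  · rw [← QuotientGroup.mk_pow, QuotientGroup.eq_one_iff, Subgroup.mem_subgroupOf] at hqb
    simpa using hqb
  · intro hbD
    apply hqb1
    rw [QuotientGroup.eq_one_iff, Subgroup.mem_subgroupOf]; exact hbD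
  · intro i hi
    apply hqab i
    rw [← QuotientGroup.mk_pow, ← QuotientGroup.mk_mul, QuotientGroup.eq_one_iff,
      Subgroup.mem_subgroupOf]
    simpa using hi

theorem cg_gen_aux {X : Type*} [Group X] [Finite X] (A G : Subgroup X)
    (hAc : ∀ x ∈ A, ∀ y ∈ A, x * y = y * x)
    (hcop : (Nat.card A).Coprime (Nat.card G)) (R₀ : Subgroup X)
    (hR₀ : ∀ B : Subgroup X, B ≤ A → (∃ a ∈ A, B ⊔ Subgroup.zpowers a = A) →
      G ⊓ Subgroup.centralizer (B : Set X) ≤ R₀) :
    ∀ n : ℕ, ∀ D : Subgroup X, D ≤ A → Nat.card A - Nat.card D = n →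
      ∀ G' : Subgroup X, G' ≤ G → A ≤ Subgroup.normalizer (G' : Set X) →
        (∀ d ∈ D, ∀ g ∈ G', d * g = g * d) → G' ≤ R₀ := by
  intro n
  induction n using Nat.strong_induction_on with
  | _ n ih =>
    intro D hDA hn G' hG'G hAG' hDG'
    by_cases hcyc : ∃ a ∈ A, D ⊔ Subgroup.zpowers a = A
    · refine le_trans (le_inf hG'G ?_) (hR₀ D hDA hcyc)
      intro g hg
      rw [Subgroup.mem_centralizer_iff]
      intro d hd
      exact hDG' d hd g hg
    · obtain ⟨r, hr, hrA, a, haA, b, hbA, har, hbr, hbD, habD⟩ :=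
        cg_not_cyclic A D hAc hDA hcyc
      haveI : Fact r.Prime := ⟨hr⟩
      have hcopr : (Nat.card G').Coprime r := by
        have h1 : (Nat.card G).Coprime r := (Nat.Coprime.coprime_dvd_left hrA hcop).symm
        exact Nat.Coprime.coprime_dvd_left (Subgroup.card_dvd_of_le hG'G) h1
      have key : ∀ e ∈ A, e ∉ D → ∀ g ∈ G', e * g = g * e → g ∈ R₀ := by
        intro e heA heD g hg heg
        obtain ⟨F, hF⟩ : ∃ F : Subgroup X, F = D ⊔ Subgroup.zpowers e := ⟨_, rfl⟩
        have hFA : F ≤ A := by rw [hF]; exact sup_le hDA ((Subgroup.zpowers_le).mpr heA)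
        have hDF : D ≤ F := by rw [hF]; exact le_sup_left
        have heF : e ∈ F := by rw [hF]; exact Subgroup.mem_sup_right (Subgroup.mem_zpowers e)
        have hlt : Nat.card D < Nat.card F := by
          refine lt_of_le_of_ne (Subgroup.card_le_of_le hDF) ?_
          intro hEq
          have := Subgroup.eq_of_le_of_card_ge hDF hEq.ge
          exact heD (this ▸ heF)
        have hFle : Nat.card F ≤ Nat.card A := Subgroup.card_le_of_le hFA
        have hmeas : Nat.card A - Nat.card F < n := by omega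
        have hgF : ∀ f ∈ F, f * g = g * f := by
          have h1 : F ≤ Subgroup.centralizer ({g} : Set X) := by
            rw [hF]
            refine sup_le ?_ ?_
            · intro d hd
              rw [Subgroup.mem_centralizer_iff]
              intro y hy
              rw [Set.mem_singleton_iff] at hy
              rw [hy]; exact (hDG' d hd g hg).symm
            · rw [Subgroup.zpowers_le, Subgroup.mem_centralizer_iff]
              intro y hy
              rw [Set.mem_singleton_iff] at hy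
              rw [hy]; exact heg.symm
          intro f hf
          have := Subgroup.mem_centralizer_iff.mp (h1 hf) g (Set.mem_singleton g)
          exact this.symm
        have hres := ih _ hmeas F hFA rfl (G' ⊓ Subgroup.centralizer (F : Set X))
          (inf_le_left.trans hG'G) ?_ ?_
        · exact hres (Subgroup.mem_inf.mpr ⟨hg, Subgroup.mem_centralizer_iff.mpr hgF⟩)
        · intro x hx
          apply Cfsg.Agent.Lib.Helper6.mem_normalizer_of_conj_mem
          intro d hd
          obtain ⟨hd1, hd2⟩ := Subgroup.mem_inf.mp hd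
          refine Subgroup.mem_inf.mpr ⟨(Subgroup.mem_normalizer_iff.mp (hAG' hx) d).mp hd1, ?_⟩
          rw [Subgroup.mem_centralizer_iff] at hd2 ⊢
          intro f hf
          have c1 : Commute f x := hAc f (hFA hf) x hx
          have c2 : Commute f d := hd2 f hf
          exact ((c1.mul_right c2).mul_right c1.inv_right).eq
        · intro f hf g' hg'
          exact Subgroup.mem_centralizer_iff.mp (Subgroup.mem_inf.mp hg').2 f hf
      exact cg_rank2 G' a b (hAG' haA) (hAG' hbA) (hAc a haA b hbA)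
        (fun g hg => hDG' _ har g hg) (fun g hg => hDG' _ hbr g hg) hcopr R₀
        (key b hbA hbD) (fun i => key (a * b ^ i) (A.mul_mem haA (A.pow_mem hbA i)) (habD i))

end Cfsg.Agent.Lib.Helper1
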