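import Mathlib
import Cfsg.Agent.Lib.Helper1.CG1

set_option autoImplicit false

namespace Cfsg.Agent.Lib.Helper1

open scoped commutatorElement

theorem cg_main {X : Type*} [Group X] [Finite X] (A G : Subgroup X) (hAab : IsMulCommutative A)
    (hAG : A ≤ Subgroup.normalizer (G : Set X)) (hcop : (Nat.card A).Coprime (Nat.card G)) :
    (⨆ B ∈ {B : Subgroup X | B ≤ A ∧ ∃ a ∈ A, B ⊔ Subgroup.zpowers a = A},
        G ⊓ Subgroup.centralizer (B : Set X)) = G ∧
    (⨆ B ∈ {B : Subgroup X | B ≤ A ∧ ∃ a ∈ A, B ⊔ Subgroup.zpowers a = A},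
        ⁅G ⊓ Subgroup.centralizer (B : Set X), A⁆) = ⁅G, A⁆ := by
  have hAc : ∀ x ∈ A, ∀ y ∈ A, x * y = y * x := comm_of_isMulCommutative hAab
  obtain ⟨S, hS⟩ : ∃ S : Set (Subgroup X),
    S = {B : Subgroup X | B ≤ A ∧ ∃ a ∈ A, B ⊔ Subgroup.zpowers a = A} := ⟨_, rfl⟩
  rw [← hS]
  have hSmem : ∀ B, B ∈ S ↔ (B ≤ A ∧ ∃ a ∈ A, B ⊔ Subgroup.zpowers a = A) := by
    intro B; rw [hS]; rfl
  have ha : (⨆ B ∈ S, G ⊓ Subgroup.centralizer (B : Set X)) = G := by
    apply le_antisymm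
    · exact iSup₂_le (fun B _ => inf_le_left)
    · exact cg_gen_aux A G hAc hcop _ (fun B hBA hex =>
        le_iSup₂ (f := fun B (_ : B ∈ S) => G ⊓ Subgroup.centralizer (B : Set X)) B
          ((hSmem B).mpr ⟨hBA, hex⟩))
        _ ⊥ bot_le rfl G le_rfl hAG (by
          intro d hd g _
          rw [Subgroup.mem_bot] at hd
          rw [hd, one_mul, mul_one])
  refine ⟨ha, ?_⟩
  obtain ⟨G₁, hG₁⟩ : ∃ G₁ : Subgroup X,
    G₁ = ⨆ B ∈ S, ⁅G ⊓ Subgroup.centralizer (B : Set X), A⁆ := ⟨_, rfl⟩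
  rw [← hG₁]
  apply le_antisymm
  · rw [hG₁]
    exact iSup₂_le (fun B _ => Subgroup.commutator_mono inf_le_left le_rfl)
  · have hle : ∀ B ∈ S, ⁅G ⊓ Subgroup.centralizer (B : Set X), A⁆ ≤ G₁ := by
      intro B hB; rw [hG₁]
      exact le_iSup₂ (f := fun B (_ : B ∈ S) => ⁅G ⊓ Subgroup.centralizer (B : Set X), A⁆) B hB
    have hconj : ∀ x : X, (∀ B ∈ S, ∀ h ∈ G ⊓ Subgroup.centralizer (B : Set X),
        x * h * x⁻¹ ∈ G ⊓ Subgroup.centralizer (B : Set X)) →
        (∀ a ∈ A, x * a * x⁻¹ ∈ A) → ∀ g ∈ G₁, x * g * x⁻¹ ∈ G₁ := by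
      intro x hx1 hx2 g hg
      have h1 : G₁ ≤ G₁.comap (MulAut.conj x).toMonoidHom := by
        conv_lhs => rw [hG₁]
        apply iSup₂_le
        intro B hB
        rw [Subgroup.commutator_le]
        intro h hh a ha
        rw [Subgroup.mem_comap]
        show x * ⁅h, a⁆ * x⁻¹ ∈ G₁
        have e : x * ⁅h, a⁆ * x⁻¹ = ⁅x * h * x⁻¹, x * a * x⁻¹⁆ := by
          simp only [commutatorElement_def]; group
        rw [e]
        exact hle B hB (Subgroup.commutator_mem_commutator (hx1 B hB h hh) (hx2 a ha))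
      exact h1 hg
    have hA_GB : ∀ x ∈ A, ∀ B ∈ S, ∀ h ∈ G ⊓ Subgroup.centralizer (B : Set X),
        x * h * x⁻¹ ∈ G ⊓ Subgroup.centralizer (B : Set X) := by
      intro x hx B hB h hh
      obtain ⟨hh1, hh2⟩ := Subgroup.mem_inf.mp hh
      refine Subgroup.mem_inf.mpr ⟨(Subgroup.mem_normalizer_iff.mp (hAG hx) h).mp hh1, ?_⟩
      rw [Subgroup.mem_centralizer_iff] at hh2 ⊢
      intro f hf
      have c1 : Commute f x := hAc f (((hSmem B).mp hB).1 hf) x hx
      have c2 : Commute f h := hh2 f hf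
      exact ((c1.mul_right c2).mul_right c1.inv_right).eq
    have hA_G₁ : ∀ x ∈ A, ∀ g ∈ G₁, x * g * x⁻¹ ∈ G₁ := by
      intro x hx
      apply hconj x (hA_GB x hx)
      intro a ha
      have : x * a * x⁻¹ = a := by rw [hAc x hx a ha]; group
      rw [this]; exact ha
    obtain ⟨C, hC⟩ : ∃ C : Subgroup X, C = G ⊓ Subgroup.centralizer (A : Set X) := ⟨_, rfl⟩
    have hCmem : ∀ c ∈ C, c ∈ G ∧ ∀ a ∈ A, a * c = c * a := by
      intro c hc
      rw [hC] at hc
      exact ⟨(Subgroup.mem_inf.mp hc).1, fun a ha =>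
        Subgroup.mem_centralizer_iff.mp (Subgroup.mem_inf.mp hc).2 a ha⟩
    have hC_G₁ : ∀ c ∈ C, ∀ g ∈ G₁, c * g * c⁻¹ ∈ G₁ := by
      intro c hc
      obtain ⟨hcG, hcA⟩ := hCmem c hc
      apply hconj c
      · intro B hB h hh
        have hcB : c ∈ G ⊓ Subgroup.centralizer (B : Set X) := by
          refine Subgroup.mem_inf.mpr ⟨hcG, ?_⟩
          rw [Subgroup.mem_centralizer_iff]
          intro f hf
          exact hcA f (((hSmem B).mp hB).1 hf)
        exact Subgroup.mul_mem _ (Subgroup.mul_mem _ hcB hh) (Subgroup.inv_mem _ hcB)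
      · intro a ha
        have : c * a * c⁻¹ = a := by rw [← hcA a ha]; group
        rw [this]; exact ha
    let T : Subgroup X :=
      { carrier := {g | g ∈ Subgroup.normalizer (G₁ : Set X) ∧ ∀ a ∈ A, ⁅g, a⁆ ∈ G₁}
        mul_mem' := by
          rintro g h ⟨hg1, hg2⟩ ⟨hh1, hh2⟩
          refine ⟨Subgroup.mul_mem _ hg1 hh1, ?_⟩
          intro a ha
          have e : ⁅g * h, a⁆ = g * ⁅h, a⁆ * g⁻¹ * ⁅g, a⁆ := by
            simp only [commutatorElement_def]; group
          rw [e]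
          exact G₁.mul_mem ((Subgroup.mem_normalizer_iff.mp hg1 _).mp (hh2 a ha)) (hg2 a ha)
        one_mem' := by
          refine ⟨Subgroup.one_mem _, ?_⟩
          intro a ha
          rw [commutatorElement_def]; simp
        inv_mem' := by
          rintro g ⟨hg1, hg2⟩
          refine ⟨Subgroup.inv_mem _ hg1, ?_⟩
          intro a ha
          have e : ⁅g⁻¹, a⁆ = g⁻¹ * (⁅g, a⁆)⁻¹ * (g⁻¹)⁻¹ := by
            simp only [commutatorElement_def]; group
          rw [e]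
          exact (Subgroup.mem_normalizer_iff.mp (Subgroup.inv_mem _ hg1) _).mp
            (G₁.inv_mem (hg2 a ha)) }
    have hT : ∀ g, g ∈ T ↔ (g ∈ Subgroup.normalizer (G₁ : Set X) ∧ ∀ a ∈ A, ⁅g, a⁆ ∈ G₁) :=
      fun g => Iff.rfl
    have hG₁T : G₁ ≤ T := by
      intro g hg
      rw [hT]
      refine ⟨Subgroup.le_normalizer hg, ?_⟩
      intro a ha
      have e : ⁅g, a⁆ = g * (a * g⁻¹ * a⁻¹) := by rw [commutatorElement_def]; group
      rw [e]
      exact G₁.mul_mem hg (hA_G₁ a ha _ (G₁.inv_mem hg))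
    have hCT : C ≤ T := by
      intro c hc
      rw [hT]
      refine ⟨Cfsg.Agent.Lib.Helper6.mem_normalizer_of_conj_mem (hC_G₁ c hc), ?_⟩
      intro a ha
      have e : ⁅c, a⁆ = 1 := by
        rw [commutatorElement_def, ← (hCmem c hc).2 a ha]; group
      rw [e]; exact G₁.one_mem
    haveI : Group.IsSolvable A :=
      Group.isSolvable_of_comm (fun a b => Subtype.ext (hAc a a.2 b b.2))
    have hGle : G ≤ T := by
      conv_lhs => rw [← ha]
      apply iSup₂_le
      intro B hB g hg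
      have hnorm : A ≤ Subgroup.normalizer
          ((G ⊓ Subgroup.centralizer (B : Set X) : Subgroup X) : Set X) := by
        intro x hx
        exact Cfsg.Agent.Lib.Helper6.mem_normalizer_of_conj_mem (hA_GB x hx B hB)
      have hcop' : (Nat.card A).Coprime
          (Nat.card (G ⊓ Subgroup.centralizer (B : Set X) : Subgroup X)) :=
        Nat.Coprime.coprime_dvd_right (Subgroup.card_dvd_of_le inf_le_left) hcop
      obtain ⟨d, hd, c, hc, rfl⟩ := Cfsg.Agent.Lib.Lead.exists_commutator_mul_centralizer A _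
        hnorm hcop' (Or.inl inferInstance) hg
      refine T.mul_mem (hG₁T (hle B hB hd)) (hCT ?_)
      rw [hC]
      exact Subgroup.mem_inf.mpr ⟨(Subgroup.mem_inf.mp (Subgroup.mem_inf.mp hc).1).1,
        (Subgroup.mem_inf.mp hc).2⟩
    rw [Subgroup.commutator_le]
    intro g hg a ha
    exact ((hT g).mp (hGle hg)).2 a ha

end Cfsg.Agent.Lib.Helper1
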