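import Mathlib
import Cfsg.Prelude.Def_SolvableStructure
import Cfsg.Agent.Lib.Lead.Hall

set_option autoImplicit false

namespace Cfsg.Agent.Lib.Helper1

universe u v

/-- finite abelian groups have subgroups of every order dividing the group order -/
theorem clt_comm_aux : ∀ (n : ℕ) (A : Type u) [CommGroup A] [Finite A], Nat.card A ≤ n →
    ∀ d, d ∣ Nat.card A → ∃ H : Subgroup A, Nat.card H = d := by
  intro n
  induction n with
  | zero =>
    intro A _ _ hn
    exact absurd hn (by have := Nat.card_pos (α := A); omega)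
  | succ n ih =>
    intro A _ _ hn d hd
    by_cases hd1 : d = 1
    · exact ⟨⊥, by rw [hd1, Subgroup.card_bot]⟩
    · obtain ⟨p, hpdef⟩ : ∃ p, p = d.minFac := ⟨_, rfl⟩
      have hp : p.Prime := by rw [hpdef]; exact Nat.minFac_prime hd1
      haveI : Fact p.Prime := ⟨hp⟩
      have hpd : p ∣ d := by rw [hpdef]; exact Nat.minFac_dvd d
      obtain ⟨x, hx⟩ := exists_prime_orderOf_dvd_card' (G := A) p (hpd.trans hd)
      obtain ⟨C, hCdef⟩ : ∃ C : Subgroup A, C = Subgroup.zpowers x := ⟨_, rfl⟩
      have hC : Nat.card C = p := by rw [hCdef, Nat.card_zpowers, hx]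
      have hcard := Subgroup.card_eq_card_quotient_mul_card_subgroup C
      have hle : Nat.card (A ⧸ C) ≤ n := by
        have h2 := hp.two_le
        have hpos := Nat.card_pos (α := A ⧸ C)
        rw [hC] at hcard
        nlinarith
      obtain ⟨k, hk⟩ := hpd
      have hkd : k ∣ Nat.card (A ⧸ C) := by
        rw [hcard, hC, hk, mul_comm] at hd
        exact (Nat.mul_dvd_mul_iff_right hp.pos).mp hd
      obtain ⟨Hb, hHb⟩ := ih (A ⧸ C) hle k hkd
      refine ⟨Hb.comap (QuotientGroup.mk' C), ?_⟩
      rw [Cfsg.Agent.Lib.Lead.card_comap_mk, hC, hHb, hk]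

theorem hall_split (g a d : ℕ) (hg : g ≠ 0) (ha : a ≠ 0) (hd : d ∣ g * a)
    (hexp : ∀ p : ℕ, p.Prime → p ∣ g → a.factorization p + 1 = g.factorization p) :
    ∃ m n e : ℕ, g = m * n ∧ m.Coprime n ∧ e ∣ a ∧ d = m * e := by
  classical
  have hd0 : d ≠ 0 := by
    rintro rfl
    exact (mul_ne_zero hg ha) (zero_dvd_iff.mp hd)
  obtain ⟨f, hf⟩ : ∃ f : ℕ →₀ ℕ,
    f = g.factorization.filter (fun p => g.factorization p ≤ d.factorization p) := ⟨_, rfl⟩
  obtain ⟨f', hf'⟩ : ∃ f' : ℕ →₀ ℕ,
    f' = g.factorization.filter (fun p => ¬ g.factorization p ≤ d.factorization p) := ⟨_, rfl⟩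
  have hfa : ∀ p, f p =
      if g.factorization p ≤ d.factorization p then g.factorization p else 0 := by
    intro p; rw [hf, Finsupp.filter_apply]
  have hfa' : ∀ p, f' p =
      if ¬ g.factorization p ≤ d.factorization p then g.factorization p else 0 := by
    intro p; rw [hf', Finsupp.filter_apply]
  have hgprime : ∀ p, g.factorization p ≠ 0 → p.Prime ∧ p ∣ g := by
    intro p h
    have hpm : p ∈ g.primeFactors := by
      rw [← Nat.support_factorization, Finsupp.mem_support_iff]; exact h
    exact ⟨Nat.prime_of_mem_primeFactors hpm, Nat.dvd_of_mem_primeFactors hpm⟩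
  have hfp : ∀ p ∈ f.support, p.Prime := by
    intro p hp
    rw [Finsupp.mem_support_iff, hfa] at hp
    refine (hgprime p ?_).1
    intro h0; apply hp; rw [h0]; simp
  have hfp' : ∀ p ∈ f'.support, p.Prime := by
    intro p hp
    rw [Finsupp.mem_support_iff, hfa'] at hp
    refine (hgprime p ?_).1
    intro h0; apply hp; rw [h0]; simp
  have hm : (f.prod (· ^ ·)).factorization = f := Nat.prod_pow_factorization_eq_self hfp
  have hn : (f'.prod (· ^ ·)).factorization = f' := Nat.prod_pow_factorization_eq_self hfp'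
  have hm0 : f.prod (· ^ ·) ≠ 0 := by
    rw [Finsupp.prod, Finset.prod_ne_zero_iff]
    intro p hp
    exact pow_ne_zero _ (hfp p hp).ne_zero
  have hn0 : f'.prod (· ^ ·) ≠ 0 := by
    rw [Finsupp.prod, Finset.prod_ne_zero_iff]
    intro p hp
    exact pow_ne_zero _ (hfp' p hp).ne_zero
  obtain ⟨m, hmdef⟩ : ∃ m, m = f.prod (· ^ ·) := ⟨_, rfl⟩
  obtain ⟨n, hndef⟩ : ∃ n, n = f'.prod (· ^ ·) := ⟨_, rfl⟩
  rw [← hmdef] at hm hm0
  rw [← hndef] at hn hn0
  have hgmn : g = m * n := by
    apply Nat.eq_of_factorization_eq hg (mul_ne_zero hm0 hn0)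
    intro p
    rw [Nat.factorization_mul hm0 hn0, Finsupp.add_apply, hm, hn, hfa, hfa']
    by_cases h : g.factorization p ≤ d.factorization p
    · simp [h]
    · simp [h]
  have hcop : m.Coprime n := by
    apply Nat.coprime_of_dvd
    intro p hp hpm hpn
    have h1 := hp.factorization_pos_of_dvd hm0 hpm
    have h2 := hp.factorization_pos_of_dvd hn0 hpn
    rw [hm, hfa] at h1
    rw [hn, hfa'] at h2
    by_cases h : g.factorization p ≤ d.factorization p
    · simp [h] at h2
    · simp [h] at h1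
  have hmd : m ∣ d := by
    rw [← Nat.factorization_le_iff_dvd hm0 hd0, hm, Finsupp.le_def]
    intro p
    rw [hfa]
    by_cases h : g.factorization p ≤ d.factorization p
    · simp [h]
    · simp [h]
  obtain ⟨e, he⟩ := hmd
  have he0 : e ≠ 0 := by
    rintro rfl
    exact hd0 (by rw [he, mul_zero])
  refine ⟨m, n, e, hgmn, hcop, ?_, he⟩
  rw [← Nat.factorization_le_iff_dvd he0 ha, Finsupp.le_def]
  intro p
  have h1 : d.factorization p = m.factorization p + e.factorization p := by
    rw [he, Nat.factorization_mul hm0 he0, Finsupp.add_apply]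
  have h2 : d.factorization p ≤ g.factorization p + a.factorization p := by
    have h3 := (Nat.factorization_le_iff_dvd hd0 (mul_ne_zero hg ha)).mpr hd
    have h4 := h3 p
    rwa [Nat.factorization_mul hg ha, Finsupp.add_apply] at h4
  rw [hm, hfa] at h1
  by_cases h : g.factorization p ≤ d.factorization p
  · rw [if_pos h] at h1; omega
  · rw [if_neg h] at h1
    have hgp : g.factorization p ≠ 0 := by omega
    have h3 := hexp p (hgprime p hgp).1 (hgprime p hgp).2
    omega

theorem clt_prod_main {G : Type u} {A : Type v} [Group G] [CommGroup A] [Finite G] [Finite A]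
    [Group.IsSolvable G]
    (hexp : ∀ p : ℕ, p.Prime → p ∣ Nat.card G →
      (Nat.card A).factorization p + 1 = (Nat.card G).factorization p) :
    Cfsg.HasSubgroupOfEveryOrder (G × A) := by
  intro d hd
  rw [Nat.card_prod] at hd
  obtain ⟨m, n, e, hg, hcop, hea, hde⟩ := hall_split (Nat.card G) (Nat.card A) d
    Nat.card_pos.ne' Nat.card_pos.ne' hd hexp
  obtain ⟨H, hH, -⟩ := Cfsg.Agent.Lib.Lead.hallD_all (Nat.card G) G rfl m n hg hcop ⊥
    (by rw [Subgroup.card_bot]; exact Nat.coprime_one_left _)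
  obtain ⟨B, hB⟩ := clt_comm_aux (Nat.card A) A le_rfl e hea
  refine ⟨H.prod B, ?_⟩
  rw [Nat.card_congr (Subgroup.prodEquiv H B).toEquiv, Nat.card_prod, hH, hB, hde]

end Cfsg.Agent.Lib.Helper1
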