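import Mathlib
import Cfsg.Prelude.Def_SolvableStructure

set_option autoImplicit false

namespace Cfsg.Agent.Lib.Helper1

universe u v

theorem hasSubgroupOfEveryOrder_of_mulEquiv {A : Type u} {B : Type v} [Group A] [Group B]
    (e : A ≃* B) (h : Cfsg.HasSubgroupOfEveryOrder A) : Cfsg.HasSubgroupOfEveryOrder B := by
  intro d hd
  rw [← Nat.card_congr e.toEquiv] at hd
  obtain ⟨K, hK⟩ := h d hd
  exact ⟨K.map e.toMonoidHom, by
    rw [Subgroup.card_map_of_injective (f := e.toMonoidHom) e.injective, hK]⟩

theorem sylow_normal_of_hereditary_clt_aux : ∀ (n : ℕ) (G : Type u) [Group G] [Finite G],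
    Nat.card G ≤ n → (∀ H : Subgroup G, Cfsg.HasSubgroupOfEveryOrder H) →
    ∀ (p : ℕ) [Fact p.Prime], p ∣ Nat.card G → (∀ q : ℕ, q.Prime → q ∣ Nat.card G → q ≤ p) →
    ∀ P : Sylow p G, (P : Subgroup G).Normal := by
  intro n
  induction n with
  | zero =>
    intro G _ _ hn
    exact absurd hn (by have := Nat.card_pos (α := G); omega)
  | succ n ih =>
    intro G _ _ hn h p _ hpd hmax P
    have hp : p.Prime := Fact.out
    have hG1 : Nat.card G ≠ 1 := by
      intro h1
      rw [h1, Nat.dvd_one] at hpd
      exact hp.one_lt.ne' hpd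
    obtain ⟨q, hq⟩ : ∃ q, q = (Nat.card G).minFac := ⟨_, rfl⟩
    have hqp : q.Prime := by rw [hq]; exact Nat.minFac_prime hG1
    have hqd : q ∣ Nat.card G := by rw [hq]; exact Nat.minFac_dvd _
    have hqle : q ≤ p := hmax q hqp hqd
    rcases eq_or_lt_of_le hqle with heq | hlt
    · have hidx : (P : Subgroup G).index = 1 := by
        by_contra hne
        obtain ⟨r, hr, hrd⟩ := Nat.exists_prime_and_dvd hne
        have hrG : r ∣ Nat.card G := hrd.trans (Subgroup.index_dvd_card _)
        have h1 : r ≤ p := hmax r hr hrG
        have h2 : q ≤ r := by rw [hq]; exact Nat.minFac_le_of_dvd hr.two_le hrG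
        have h3 : r = p := by omega
        rw [h3] at hrd
        exact P.not_dvd_index hrd
      rw [Subgroup.index_eq_one] at hidx
      rw [hidx]
      infer_instance
    · have htop := h ⊤
      obtain ⟨K, hK⟩ := htop (Nat.card G / q)
        (by rw [Subgroup.card_top]; exact Nat.div_dvd_of_dvd hqd)
      obtain ⟨N, hN⟩ : ∃ N : Subgroup G, N = K.map (⊤ : Subgroup G).subtype := ⟨_, rfl⟩
      have hNcard : Nat.card N = Nat.card G / q := by
        rw [hN, Subgroup.card_map_of_injective (Subgroup.subtype_injective _), hK]
      have hcardN : Nat.card N * q = Nat.card G := by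
        rw [hNcard]; exact Nat.div_mul_cancel hqd
      have hNidx : N.index = q := by
        have h1 := Subgroup.card_mul_index N
        have hpos : 0 < Nat.card N := Nat.card_pos
        exact Nat.eq_of_mul_eq_mul_left hpos (h1.trans hcardN.symm)
      have hNn : N.Normal := Subgroup.normal_of_index_eq_minFac_card (by rw [hNidx, hq])
      have hNh : ∀ H' : Subgroup N, Cfsg.HasSubgroupOfEveryOrder H' := by
        intro H'
        have h1 := h (H'.map N.subtype)
        exact hasSubgroupOfEveryOrder_of_mulEquiv
          (H'.equivMapOfInjective N.subtype N.subtype_injective).symm h1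
      have hpN : p ∣ Nat.card N := by
        have h1 : p ∣ Nat.card N * q := by rw [hcardN]; exact hpd
        exact Nat.Coprime.dvd_of_dvd_mul_right ((Nat.coprime_primes hp hqp).mpr hlt.ne') h1
      have hmaxN : ∀ r : ℕ, r.Prime → r ∣ Nat.card N → r ≤ p := fun r hr hrd =>
        hmax r hr (hrd.trans (Subgroup.card_subgroup_dvd_card N))
      have hNle : Nat.card N ≤ n := by
        have h2 := hqp.two_le
        have hpos : 0 < Nat.card N := Nat.card_pos
        nlinarith
      have hPN : (P : Subgroup G) ≤ N := by
        intro x hx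
        have h1 : x ^ q ∈ N := by rw [← hNidx]; exact Subgroup.pow_index_mem N x
        obtain ⟨k, hk⟩ := (P.isPGroup' ⟨x, hx⟩)
        have hk' : x ^ p ^ k = 1 := by simpa using congrArg Subtype.val hk
        have hcop : Nat.Coprime q (orderOf x) := by
          have h2 : orderOf x ∣ p ^ k := orderOf_dvd_of_pow_eq_one hk'
          exact Nat.Coprime.coprime_dvd_right h2
            (Nat.Coprime.pow_right k ((Nat.coprime_primes hqp hp).mpr hlt.ne))
        obtain ⟨m, hm⟩ := exists_pow_eq_self_of_coprime hcop
        rw [← hm]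
        exact N.pow_mem h1 m
      have hPNn : ((P.subtype hPN : Sylow p N) : Subgroup N).Normal :=
        ih N hNle hNh p hpN hmaxN (P.subtype hPN)
      have hchar : ((P.subtype hPN : Sylow p N) : Subgroup N).Characteristic :=
        Sylow.characteristic_of_normal _ hPNn
      have h3 := ConjAct.normal_of_characteristic_of_normal (H := N)
        (K := ((P.subtype hPN : Sylow p N) : Subgroup N))
      have e : ((P.subtype hPN : Sylow p N) : Subgroup N).map N.subtype = (P : Subgroup G) := by
        rw [Sylow.coe_subtype, Subgroup.subgroupOf_map_subtype, inf_eq_left.mpr hPN]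
      rwa [e] at h3

end Cfsg.Agent.Lib.Helper1
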