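import Mathlib

set_option autoImplicit false

namespace Cfsg.Agent.Lib.Helper1

/-- power of a product when the commutator is central -/
theorem cm_pow_hom {G : Type*} [Group G] (x y ζ : G) (h : x * y = y * x * ζ)
    (hx : Commute ζ x) (hy : Commute ζ y) (n : ℕ) :
    (y * x) ^ n = y ^ n * x ^ n * ζ ^ (n.choose 2) := by
  have h1 : ∀ i : ℕ, x ^ i * y = y * x ^ i * ζ ^ i := by
    intro i
    induction i with
    | zero => simp
    | succ i ih =>
      calc x ^ (i + 1) * y = x * (x ^ i * y) := by rw [pow_succ']; group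
        _ = x * (y * x ^ i * ζ ^ i) := by rw [ih]
        _ = (x * y) * x ^ i * ζ ^ i := by group
        _ = y * x * ζ * x ^ i * ζ ^ i := by rw [h]
        _ = y * x * (ζ * x ^ i) * ζ ^ i := by group
        _ = y * x * (x ^ i * ζ) * ζ ^ i := by rw [(hx.pow_right i).eq]
        _ = y * (x * x ^ i) * (ζ * ζ ^ i) := by group
        _ = y * x ^ (i + 1) * ζ ^ (i + 1) := by rw [← pow_succ', ← pow_succ']
  induction n with
  | zero => simp
  | succ n ih =>
    have hc : (n + 1).choose 2 = n.choose 2 + n := by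
      rw [Nat.choose_succ_succ, Nat.choose_one_right, add_comm]
    calc (y * x) ^ (n + 1) = (y * x) ^ n * (y * x) := pow_succ _ _
      _ = y ^ n * x ^ n * ζ ^ (n.choose 2) * (y * x) := by rw [ih]
      _ = y ^ n * (x ^ n * (ζ ^ (n.choose 2) * y)) * x := by group
      _ = y ^ n * (x ^ n * (y * ζ ^ (n.choose 2))) * x := by
        rw [(hy.pow_left (n.choose 2)).eq]
      _ = y ^ n * (x ^ n * y) * ζ ^ (n.choose 2) * x := by group
      _ = y ^ n * (y * x ^ n * ζ ^ n) * ζ ^ (n.choose 2) * x := by rw [h1 n]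
      _ = y ^ n * y * x ^ n * (ζ ^ n * ζ ^ (n.choose 2) * x) := by group
      _ = y ^ n * y * x ^ n * (x * (ζ ^ n * ζ ^ (n.choose 2))) := by
        rw [((hx.pow_left n).mul_left (hx.pow_left (n.choose 2))).eq]
      _ = (y ^ n * y) * (x ^ n * x) * (ζ ^ (n.choose 2) * ζ ^ n) := by group
      _ = y ^ (n + 1) * x ^ (n + 1) * ζ ^ ((n + 1).choose 2) := by
        rw [pow_succ, pow_succ, hc, pow_add]

/-- p-groups with a cyclic maximal subgroup, `p` odd, non-abelian case -/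
theorem cm_main {G : Type*} [Group G] [Finite G] {p : ℕ} [Fact p.Prime] (hp2 : p ≠ 2) (l : ℕ)
    (hl : 1 ≤ l) (hG : Nat.card G = p ^ (l + 2)) (C : Subgroup G) (hC : IsCyclic C)
    (hCi : C.index = p) (hna : ∃ x y : G, x * y ≠ y * x) :
    ∃ a b : G, orderOf a = p ^ (l + 1) ∧ orderOf b = p ∧ b ∉ Subgroup.zpowers a ∧
      b * a * b⁻¹ = a ^ (1 + p ^ l) := by
  have hp : p.Prime := Fact.out
  have hodd : Odd p := hp.odd_of_ne_two hp2
  have hp3 : 3 ≤ p := by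
    have := hp.two_le
    omega
  have hCcard : Nat.card C = p ^ (l + 1) := by
    have h1 := Subgroup.card_mul_index C
    rw [hCi, hG, show p ^ (l + 2) = p ^ (l + 1) * p from pow_succ p (l + 1)] at h1
    exact Nat.eq_of_mul_eq_mul_right hp.pos h1
  haveI hCn : C.Normal := by
    apply Subgroup.normal_of_index_eq_minFac_card
    rw [hCi, hG, hp.pow_minFac (by omega)]
  obtain ⟨g, hg⟩ := hC.exists_generator
  obtain ⟨a, ha⟩ : ∃ a : G, a = (g : G) := ⟨_, rfl⟩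
  have haC : a ∈ C := by rw [ha]; exact g.2
  have hao : orderOf a = p ^ (l + 1) := by
    rw [ha, Subgroup.orderOf_coe, orderOf_eq_card_of_forall_mem_zpowers hg, hCcard]
  have hCa : ∀ x ∈ C, x ∈ Subgroup.zpowers a := by
    intro x hx
    obtain ⟨i, hi⟩ := Subgroup.mem_zpowers_iff.mp (hg ⟨x, hx⟩)
    rw [Subgroup.mem_zpowers_iff]
    refine ⟨i, ?_⟩
    have := congrArg Subtype.val hi
    rw [ha]; simpa using this
  have hCa' : ∀ x ∈ C, ∃ e : ℕ, a ^ e = x := by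
    intro x hx
    have h1 := (isOfFinOrder_of_finite a).mem_powers_iff_mem_zpowers.mpr (hCa x hx)
    exact (Submonoid.mem_powers_iff _ _).mp h1
  have hQcard : Nat.card (G ⧸ C) = p := by rw [← Subgroup.index_eq_card]; exact hCi
  have hpowC : ∀ x : G, x ^ p ∈ C := by
    intro x
    have h1 : (x : G ⧸ C) ^ Nat.card (G ⧸ C) = 1 := pow_card_eq_one'
    rw [hQcard, ← QuotientGroup.mk_pow, QuotientGroup.eq_one_iff] at h1
    exact h1
  obtain ⟨b₀, hb₀⟩ : ∃ b₀ : G, b₀ ∉ C := by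
    by_contra hcon
    push Not at hcon
    have : C = ⊤ := eq_top_iff.mpr (fun x _ => hcon x)
    rw [this, Subgroup.index_top] at hCi
    exact hp.one_lt.ne hCi
  have hdec : ∀ x : G, ∃ i : ℤ, ∃ c ∈ C, x = b₀ ^ i * c := by
    intro x
    have h1 : (x : G ⧸ C) ∈ Subgroup.zpowers (b₀ : G ⧸ C) := by
      rw [zpowers_eq_top_of_prime_card hQcard
        (fun h => hb₀ ((QuotientGroup.eq_one_iff b₀).mp h))]
      trivial
    obtain ⟨i, hi⟩ := Subgroup.mem_zpowers_iff.mp h1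
    rw [← QuotientGroup.mk_zpow] at hi
    exact ⟨i, (b₀ ^ i)⁻¹ * x, QuotientGroup.eq.mp hi, by group⟩
  have hconjC : b₀ * a * b₀⁻¹ ∈ C := hCn.conj_mem a haC b₀
  obtain ⟨r₀, hr₀⟩ := hCa' _ hconjC
  obtain ⟨r, hrdef⟩ : ∃ r, r = r₀ + p ^ (l + 1) := ⟨_, rfl⟩
  have hr : a ^ r = b₀ * a * b₀⁻¹ := by
    rw [hrdef, pow_add, hr₀, ← hao, pow_orderOf_eq_one, mul_one]
  have hr2 : 2 ≤ r := by
    rw [hrdef]
    have : 2 ≤ p ^ (l + 1) := by
      calc 2 ≤ p := hp.two_le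
        _ = p ^ 1 := (pow_one p).symm
        _ ≤ p ^ (l + 1) := Nat.pow_le_pow_right hp.pos (by omega)
    omega
  have hra : a ^ r ≠ a := by
    intro h
    have hba : Commute b₀ a := by
      have : b₀ * a * b₀⁻¹ = a := by rw [← hr, h]
      show b₀ * a = a * b₀
      calc b₀ * a = (b₀ * a * b₀⁻¹) * b₀ := by group
        _ = a * b₀ := by rw [this]
    obtain ⟨x, y, hxy⟩ := hna
    apply hxy
    obtain ⟨i, c, hc, rfl⟩ := hdec x
    obtain ⟨j, d, hd, rfl⟩ := hdec y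
    obtain ⟨e, rfl⟩ := hCa' c hc
    obtain ⟨f, rfl⟩ := hCa' d hd
    have c1 : Commute (b₀ ^ i) (b₀ ^ j) := Commute.zpow_zpow_self b₀ i j
    have c2 : Commute (b₀ ^ i) (a ^ f) := (hba.zpow_left i).pow_right f
    have c3 : Commute (a ^ e) (b₀ ^ j) := ((hba.zpow_left j).pow_right e).symm
    have c4 : Commute (a ^ e) (a ^ f) := Commute.pow_pow_self a e f
    exact ((c1.mul_right c2).mul_left (c3.mul_right c4)).eq
  have hiter : ∀ i : ℕ, b₀ ^ i * a * (b₀ ^ i)⁻¹ = a ^ (r ^ i) := by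
    intro i
    induction i with
    | zero => simp
    | succ i ih =>
      calc b₀ ^ (i + 1) * a * (b₀ ^ (i + 1))⁻¹ = b₀ * (b₀ ^ i * a * (b₀ ^ i)⁻¹) * b₀⁻¹ := by
            rw [pow_succ']; group
        _ = b₀ * a ^ (r ^ i) * b₀⁻¹ := by rw [ih]
        _ = (b₀ * a * b₀⁻¹) ^ (r ^ i) := (conj_pow).symm
        _ = (a ^ r) ^ (r ^ i) := by rw [hr]
        _ = a ^ (r ^ (i + 1)) := by rw [← pow_mul, pow_succ']
  have hrp : p ^ (l + 1) ∣ r ^ p - 1 := by
    have h1 : a ^ (r ^ p) = a ^ 1 := by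
      rw [pow_one, ← hiter p]
      have hc : Commute (b₀ ^ p) a := by
        obtain ⟨e, he⟩ := hCa' _ (hpowC b₀)
        rw [← he]; exact Commute.pow_self a e
      calc b₀ ^ p * a * (b₀ ^ p)⁻¹ = a * b₀ ^ p * (b₀ ^ p)⁻¹ := by rw [hc.eq]
        _ = a := by group
    have h2 := pow_eq_pow_iff_modEq.mp h1
    rw [hao] at h2
    exact (Nat.modEq_iff_dvd' (Nat.one_le_pow _ _ (by omega))).mp h2.symm
  have hr1 : p ∣ r - 1 := by
    have h1 : ((r : ZMod p)) ^ p = 1 := by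
      have h2 : p ∣ r ^ p - 1 := Dvd.dvd.trans (dvd_pow_self p (by omega)) hrp
      have h3 : ((r ^ p - 1 : ℕ) : ZMod p) = 0 := (ZMod.natCast_eq_zero_iff _ _).mpr h2
      rw [Nat.cast_sub (Nat.one_le_pow _ _ (by omega)), Nat.cast_pow, Nat.cast_one,
        sub_eq_zero] at h3
      exact h3
    rw [ZMod.pow_card] at h1
    have h4 : ((r - 1 : ℕ) : ZMod p) = 0 := by
      rw [Nat.cast_sub (by omega), h1, Nat.cast_one, sub_self]
    exact (ZMod.natCast_eq_zero_iff _ _).mp h4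
  have hpr : ¬ p ∣ r := by
    intro h
    have e : r = (r - 1) + 1 := by omega
    rw [e] at h
    have h2 : p ∣ 1 := (Nat.dvd_add_right hr1).mp h
    exact hp.one_lt.ne' (Nat.dvd_one.mp h2)
  have hval : padicValNat p (r ^ p - 1) = padicValNat p (r - 1) + 1 := by
    have := padicValNat.pow_sub_pow hodd (x := r) (y := 1) (by omega) hr1 hpr (n := p) hp.ne_zero
    rw [one_pow, padicValNat_self] at this
    exact this
  have hpl : p ^ l ∣ r - 1 := by
    have h1 : l + 1 ≤ padicValNat p (r ^ p - 1) := by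
      rw [← padicValNat_dvd_iff_le]
      · exact hrp
      · have : 2 ≤ r ^ p := by
          calc 2 ≤ r := hr2
            _ = r ^ 1 := (pow_one r).symm
            _ ≤ r ^ p := Nat.pow_le_pow_right (by omega) hp.pos
        omega
    rw [hval] at h1
    rw [padicValNat_dvd_iff_le (by omega)]
    omega
  obtain ⟨c, hc⟩ := hpl
  have hrc : r = 1 + p ^ l * c := by omega
  have hapow : ∀ e : ℕ, a ^ (p ^ (l + 1) * e) = 1 := by
    intro e; rw [pow_mul, ← hao, pow_orderOf_eq_one, one_pow]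
  have hcp : ¬ p ∣ c := by
    intro h
    apply hra
    obtain ⟨c', hc'⟩ := h
    have e : 1 + p ^ l * c = 1 + p ^ (l + 1) * c' := by rw [hc']; ring
    rw [hrc, e, pow_add, pow_one, hapow, mul_one]
  obtain ⟨w, hw⟩ : ∃ w : G, w = a ^ (p ^ l * c) := ⟨_, rfl⟩
  have hwp : w ^ p = 1 := by
    rw [hw, ← pow_mul]
    have e : p ^ l * c * p = p ^ (l + 1) * c := by ring
    rw [e]; exact hapow c
  have hbaw : b₀ * a * b₀⁻¹ = a * w := by
    rw [← hr, hrc, pow_add, pow_one, hw]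
  have hcw : Commute a w := by rw [hw]; exact Commute.self_pow a _
  have hbw : b₀ * w * b₀⁻¹ = w := by
    have hN : ∃ N', p ^ l * c = p * N' := by
      obtain ⟨l', rfl⟩ : ∃ l', l = l' + 1 := ⟨l - 1, by omega⟩
      exact ⟨p ^ l' * c, by ring⟩
    obtain ⟨N', hN'⟩ := hN
    calc b₀ * w * b₀⁻¹ = b₀ * a ^ (p ^ l * c) * b₀⁻¹ := by rw [hw]
      _ = (b₀ * a * b₀⁻¹) ^ (p ^ l * c) := (conj_pow).symm
      _ = (a * w) ^ (p ^ l * c) := by rw [hbaw]
      _ = a ^ (p ^ l * c) * w ^ (p ^ l * c) := hcw.mul_pow _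
      _ = w * w ^ (p * N') := by rw [← hw, hN']
      _ = w := by rw [pow_mul, hwp, one_pow, mul_one]
  have hcbw : Commute b₀ w := by
    show b₀ * w = w * b₀
    calc b₀ * w = (b₀ * w * b₀⁻¹) * b₀ := by group
      _ = w * b₀ := by rw [hbw]
  have hiter2 : ∀ i : ℕ, b₀ ^ i * a * (b₀ ^ i)⁻¹ = a * w ^ i := by
    intro i
    induction i with
    | zero => simp
    | succ i ih =>
      have h3 : b₀ * w ^ i * b₀⁻¹ = w ^ i := by
        rw [(hcbw.pow_right i).eq]; group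
      calc b₀ ^ (i + 1) * a * (b₀ ^ (i + 1))⁻¹ = b₀ * (b₀ ^ i * a * (b₀ ^ i)⁻¹) * b₀⁻¹ := by
            rw [pow_succ']; group
        _ = b₀ * (a * w ^ i) * b₀⁻¹ := by rw [ih]
        _ = (b₀ * a * b₀⁻¹) * (b₀ * w ^ i * b₀⁻¹) := by group
        _ = (a * w) * w ^ i := by rw [hbaw, h3]
        _ = a * w ^ (i + 1) := by rw [pow_succ']; group
  have hcop : c.Coprime p := ((Nat.Prime.coprime_iff_not_dvd hp).mpr hcp).symm
  obtain ⟨j, hjlt, hj⟩ := Nat.exists_mul_mod_eq_one_of_coprime hcop hp.one_lt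
  obtain ⟨z, hz⟩ : ∃ z : G, z = a ^ (p ^ l) := ⟨_, rfl⟩
  have hwj : w ^ j = z := by
    rw [hw, hz, ← pow_mul]
    obtain ⟨q, hq⟩ : ∃ q, q = c * j / p := ⟨_, rfl⟩
    have h1 : p * q + 1 = c * j := by
      have := Nat.div_add_mod (c * j) p
      rw [hj, ← hq] at this
      exact this
    have e : p ^ l * c * j = p ^ l + p ^ (l + 1) * q := by
      rw [mul_assoc, ← h1]; ring
    rw [e, pow_add, hapow, mul_one]
  obtain ⟨b₁, hb₁⟩ : ∃ b₁ : G, b₁ = b₀ ^ j := ⟨_, rfl⟩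
  have hb₁a : b₁ * a * b₁⁻¹ = a * z := by rw [hb₁, hiter2 j, hwj]
  have hj0 : j ≠ 0 := by
    rintro rfl
    rw [mul_zero, Nat.zero_mod] at hj
    exact absurd hj (by norm_num)
  have hb₁C : b₁ ∉ C := by
    intro h
    rw [hb₁, ← QuotientGroup.eq_one_iff, QuotientGroup.mk_pow] at h
    have ho : orderOf (b₀ : G ⧸ C) = p :=
      orderOf_eq_prime (by
        rw [← QuotientGroup.mk_pow]; exact (QuotientGroup.eq_one_iff _).mpr (hpowC b₀))
        (fun h => hb₀ ((QuotientGroup.eq_one_iff b₀).mp h))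
    have := orderOf_dvd_of_pow_eq_one h
    rw [ho] at this
    exact absurd (Nat.le_of_dvd (Nat.pos_of_ne_zero hj0) this) (by omega)
  have hcz : Commute a z := by rw [hz]; exact Commute.self_pow a _
  have hb₁z : Commute b₁ z := by
    rw [hb₁, ← hwj]; exact (hcbw.pow_left j).pow_right j
  have hzp : z ^ p = 1 := by
    rw [hz, ← pow_mul, ← pow_succ, ← hao, pow_orderOf_eq_one]
  have hz1 : z ≠ 1 := by
    rw [hz]
    apply pow_ne_one_of_lt_orderOf (pow_pos hp.pos l).ne'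
    rw [hao]
    exact Nat.pow_lt_pow_right hp.one_lt (by omega)
  have hzo : orderOf z = p := orderOf_eq_prime hzp hz1
  obtain ⟨t, ht⟩ := hCa' _ (hpowC b₁)
  have hpt : p ∣ t := by
    rw [← hzo]
    apply orderOf_dvd_of_pow_eq_one
    have h1 : b₁ * a ^ t * b₁⁻¹ = a ^ t := by
      rw [ht]; group
    have h2 : b₁ * a ^ t * b₁⁻¹ = a ^ t * z ^ t := by
      rw [← conj_pow, hb₁a, hcz.mul_pow]
    rw [h1] at h2
    have h3 : a ^ t * z ^ t = a ^ t * 1 := by rw [mul_one]; exact h2.symm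
    exact mul_left_cancel h3
  obtain ⟨t', ht'⟩ := hpt
  obtain ⟨x, hx⟩ : ∃ x : G, x = (a ^ t')⁻¹ := ⟨_, rfl⟩
  obtain ⟨ζ, hζ⟩ : ∃ ζ : G, ζ = z ^ t' := ⟨_, rfl⟩
  have h1 : b₁ * a ^ t' * b₁⁻¹ = a ^ t' * ζ := by
    rw [← conj_pow, hb₁a, hcz.mul_pow, hζ]
  have hcζa : Commute ζ a := by rw [hζ]; exact (hcz.pow_right t').symm
  have hcζb : Commute ζ b₁ := by rw [hζ]; exact (hb₁z.pow_right t').symm
  have hcζx : Commute ζ x := by rw [hx]; exact (hcζa.pow_right t').inv_right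
  have hrel : x * b₁ = b₁ * x * ζ := by
    rw [hx]
    have h2 : b₁ * a ^ t' = a ^ t' * ζ * b₁ := by
      calc b₁ * a ^ t' = (b₁ * a ^ t' * b₁⁻¹) * b₁ := by group
        _ = a ^ t' * ζ * b₁ := by rw [h1]
    calc (a ^ t')⁻¹ * b₁ = (a ^ t')⁻¹ * (b₁ * a ^ t') * (a ^ t')⁻¹ := by group
      _ = (a ^ t')⁻¹ * (a ^ t' * ζ * b₁) * (a ^ t')⁻¹ := by rw [h2]
      _ = ζ * (b₁ * (a ^ t')⁻¹) := by group
      _ = b₁ * (a ^ t')⁻¹ * ζ := (hcζb.mul_right (hcζa.pow_right t').inv_right).eq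
  have hpow := cm_pow_hom x b₁ ζ hrel hcζx hcζb p
  have hζp : ζ ^ (p.choose 2) = 1 := by
    obtain ⟨q, hq⟩ := hp.dvd_choose_self (by norm_num : (2 : ℕ) ≠ 0) (by omega : 2 < p)
    rw [hq, hζ, ← pow_mul, mul_comm t' (p * q), mul_assoc, pow_mul, hzp, one_pow]
  have hxp : x ^ p = (b₁ ^ p)⁻¹ := by
    rw [hx, inv_pow, ← pow_mul, mul_comm, ← ht', ht]
  obtain ⟨b, hb⟩ : ∃ b : G, b = b₁ * x := ⟨_, rfl⟩
  have hbp : b ^ p = 1 := by
    rw [hb, hpow, hζp, hxp]; group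
  have hxC : x ∈ C := by rw [hx]; exact C.inv_mem (C.pow_mem haC t')
  have hbC : b ∉ C := by
    intro h
    apply hb₁C
    have : b₁ = b * x⁻¹ := by rw [hb]; group
    rw [this]; exact C.mul_mem h (C.inv_mem hxC)
  have hb1 : b ≠ 1 := fun h => hbC (h ▸ C.one_mem)
  refine ⟨a, b, hao, orderOf_eq_prime hbp hb1, ?_, ?_⟩
  · intro h
    exact hbC ((Subgroup.zpowers_le).mpr haC h)
  · have hxa : Commute x a := by rw [hx]; exact (Commute.pow_self a t').inv_left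
    calc b * a * b⁻¹ = b₁ * (x * a) * x⁻¹ * b₁⁻¹ := by rw [hb]; group
      _ = b₁ * (a * x) * x⁻¹ * b₁⁻¹ := by rw [hxa.eq]
      _ = b₁ * a * b₁⁻¹ := by group
      _ = a * z := hb₁a
      _ = a ^ (1 + p ^ l) := by rw [pow_add, pow_one, hz]

end Cfsg.Agent.Lib.Helper1
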