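import Mathlib

set_option autoImplicit false

namespace Cfsg.Agent.Lib.Helper1

/-- non-abelian 2-groups with a cyclic maximal subgroup -/
theorem cm2_main {G : Type*} [Group G] [Finite G] (l : ℕ) (hl : 1 ≤ l)
    (hG : Nat.card G = 2 ^ (l + 2)) (C : Subgroup G) (hC : IsCyclic C)
    (hCi : C.index = 2) (hna : ∃ x y : G, x * y ≠ y * x) :
    ∃ a b : G, orderOf a = 2 ^ (l + 1) ∧ b ∉ Subgroup.zpowers a ∧
      ((b ^ 2 = 1 ∧ b * a * b⁻¹ = a⁻¹) ∨ (b ^ 2 = a ^ (2 ^ l) ∧ b * a * b⁻¹ = a⁻¹) ∨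
       (2 ≤ l ∧ b ^ 2 = 1 ∧ b * a * b⁻¹ = a ^ (1 + 2 ^ l)) ∨
       (2 ≤ l ∧ b ^ 2 = 1 ∧ b * a * b⁻¹ = a ^ (2 ^ l - 1))) := by
  have hp : (2 : ℕ).Prime := Nat.prime_two
  obtain ⟨M, hM⟩ : ∃ M, M = 2 ^ l := ⟨_, rfl⟩
  have hM2 : 2 ^ (l + 1) = 2 * M := by rw [hM, pow_succ]; ring
  have hMpos : 0 < M := by rw [hM]; positivity
  have hCcard : Nat.card C = 2 * M := by
    have h1 := Subgroup.card_mul_index C
    rw [hCi, hG, show (2 : ℕ) ^ (l + 2) = 2 ^ (l + 1) * 2 from pow_succ 2 (l + 1)] at h1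
    rw [← hM2]; exact Nat.eq_of_mul_eq_mul_right (by norm_num) h1
  haveI hCn : C.Normal := by
    apply Subgroup.normal_of_index_eq_minFac_card
    rw [hCi, hG, hp.pow_minFac (by omega)]
  obtain ⟨g, hg⟩ := hC.exists_generator
  obtain ⟨a, ha⟩ : ∃ a : G, a = (g : G) := ⟨_, rfl⟩
  have haC : a ∈ C := by rw [ha]; exact g.2
  have hao : orderOf a = 2 * M := by
    rw [ha, Subgroup.orderOf_coe, orderOf_eq_card_of_forall_mem_zpowers hg, hCcard]
  have hCa : ∀ x ∈ C, x ∈ Subgroup.zpowers a := by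
    intro x hx
    obtain ⟨i, hi⟩ := Subgroup.mem_zpowers_iff.mp (hg ⟨x, hx⟩)
    rw [Subgroup.mem_zpowers_iff]
    refine ⟨i, ?_⟩
    have := congrArg Subtype.val hi
    rw [ha]; simpa using this
  have hCa' : ∀ x ∈ C, ∃ e : ℕ, a ^ e = x := by
    intro x hx
    have h1 := (isOfFinOrder_of_finite a).mem_powers_iff_mem_zpowers.mpr (hCa x hx)
    exact (Submonoid.mem_powers_iff _ _).mp h1
  have hQcard : Nat.card (G ⧸ C) = 2 := by rw [← Subgroup.index_eq_card]; exact hCi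
  have hpowC : ∀ x : G, x ^ 2 ∈ C := by
    intro x
    have h1 : (x : G ⧸ C) ^ Nat.card (G ⧸ C) = 1 := pow_card_eq_one'
    rw [hQcard, ← QuotientGroup.mk_pow, QuotientGroup.eq_one_iff] at h1
    exact h1
  obtain ⟨b₀, hb₀⟩ : ∃ b₀ : G, b₀ ∉ C := by
    by_contra hcon
    push Not at hcon
    have : C = ⊤ := eq_top_iff.mpr (fun x _ => hcon x)
    rw [this, Subgroup.index_top] at hCi
    exact absurd hCi (by norm_num)
  have hdec : ∀ x : G, ∃ i : ℤ, ∃ c ∈ C, x = b₀ ^ i * c := by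
    intro x
    have h1 : (x : G ⧸ C) ∈ Subgroup.zpowers (b₀ : G ⧸ C) := by
      rw [zpowers_eq_top_of_prime_card hQcard
        (fun h => hb₀ ((QuotientGroup.eq_one_iff b₀).mp h))]
      trivial
    obtain ⟨i, hi⟩ := Subgroup.mem_zpowers_iff.mp h1
    rw [← QuotientGroup.mk_zpow] at hi
    exact ⟨i, (b₀ ^ i)⁻¹ * x, QuotientGroup.eq.mp hi, by group⟩
  have hCcomm : ∀ x ∈ C, ∀ y ∈ C, Commute x y := by
    intro x hx y hy
    obtain ⟨e, rfl⟩ := hCa' x hx
    obtain ⟨f, rfl⟩ := hCa' y hy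
    exact Commute.pow_pow_self a e f
  obtain ⟨y, hy⟩ : ∃ y : G, y = b₀ * a * b₀⁻¹ := ⟨_, rfl⟩
  have hyC : y ∈ C := by rw [hy]; exact hCn.conj_mem a haC b₀
  obtain ⟨r₀, hr₀⟩ := hCa' y hyC
  obtain ⟨r, hrdef⟩ : ∃ r, r = r₀ + 2 * M := ⟨_, rfl⟩
  have hapow : ∀ e : ℕ, a ^ (2 * M * e) = 1 := by
    intro e; rw [pow_mul, ← hao, pow_orderOf_eq_one, one_pow]
  have hapow1 : a ^ (2 * M) = 1 := by
    have := hapow 1
    rwa [mul_one] at this
  have hr : a ^ r = y := by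
    rw [hrdef, pow_add, hr₀, hapow1, mul_one]
  have hr2 : 2 ≤ r := by omega
  have hya : y ≠ a := by
    intro h
    have hba : Commute b₀ a := by
      show b₀ * a = a * b₀
      calc b₀ * a = (b₀ * a * b₀⁻¹) * b₀ := by group
        _ = a * b₀ := by rw [← hy, h]
    obtain ⟨x, y', hxy⟩ := hna
    apply hxy
    obtain ⟨i, c, hc, rfl⟩ := hdec x
    obtain ⟨j, d, hd, rfl⟩ := hdec y'
    obtain ⟨e, rfl⟩ := hCa' c hc
    obtain ⟨f, rfl⟩ := hCa' d hd
    have c1 : Commute (b₀ ^ i) (b₀ ^ j) := Commute.zpow_zpow_self b₀ i j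
    have c2 : Commute (b₀ ^ i) (a ^ f) := (hba.zpow_left i).pow_right f
    have c3 : Commute (a ^ e) (b₀ ^ j) := ((hba.zpow_left j).pow_right e).symm
    have c4 : Commute (a ^ e) (a ^ f) := Commute.pow_pow_self a e f
    exact ((c1.mul_right c2).mul_left (c3.mul_right c4)).eq
  have hβ : ∀ e : ℕ, b₀ * a ^ e * b₀⁻¹ = y ^ e := by
    intro e; rw [hy, conj_pow]
  have hs_comm : ∀ x ∈ C, b₀ ^ 2 * x = x * b₀ ^ 2 :=
    fun x hx => (hCcomm _ (hpowC b₀) x hx).eq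
  have hyy : b₀ * y * b₀⁻¹ = a := by
    rw [hy]
    calc b₀ * (b₀ * a * b₀⁻¹) * b₀⁻¹ = (b₀ ^ 2 * a) * (b₀ ^ 2)⁻¹ := by rw [pow_two]; group
      _ = a * b₀ ^ 2 * (b₀ ^ 2)⁻¹ := by rw [hs_comm a haC]
      _ = a := by group
  have hrr : a ^ (r * r) = a ^ 1 := by
    rw [pow_mul, hr, ← hβ r, hr, hyy, pow_one]
  have hmod : r * r ≡ 1 [MOD 2 * M] := by
    have := pow_eq_pow_iff_modEq.mp hrr
    rwa [hao] at this
  have hrr1 : 1 ≤ r * r := by nlinarith
  have hdvd : 2 * M ∣ r * r - 1 := (Nat.modEq_iff_dvd' hrr1).mp hmod.symm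
  have hrodd : r % 2 = 1 := by
    by_contra h
    have h0 : r % 2 = 0 := by omega
    have h2 : 2 ∣ r * r - 1 := Dvd.dvd.trans (Dvd.intro _ rfl) hdvd
    have h3 : 2 ∣ r * r := Dvd.dvd.mul_right (Nat.dvd_of_mod_eq_zero h0) r
    omega
  obtain ⟨u, hu⟩ : ∃ u, r = 2 * u + 1 := ⟨r / 2, by omega⟩
  have hMdvd : M ∣ (2 * u) * (u + 1) := by
    have e : r * r - 1 = 2 * ((2 * u) * (u + 1)) := by
      rw [hu]
      have : (2 * u + 1) * (2 * u + 1) = 2 * ((2 * u) * (u + 1)) + 1 := by ring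
      omega
    rw [e] at hdvd
    exact (Nat.mul_dvd_mul_iff_left (by norm_num)).mp hdvd
  have hcases : M ∣ r - 1 ∨ M ∣ r + 1 := by
    rcases Nat.even_or_odd u with hev | hod
    · left
      have hodd1 : Odd (u + 1) := hev.add_one
      have hc : Nat.Coprime M (u + 1) := by
        rw [hM]; exact Nat.Coprime.pow_left _ (Nat.coprime_two_left.mpr hodd1)
      have := hc.dvd_of_dvd_mul_right hMdvd
      have e : r - 1 = 2 * u := by omega
      rw [e]; exact this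
    · right
      have hc : Nat.Coprime M u := by
        rw [hM]; exact Nat.Coprime.pow_left _ (Nat.coprime_two_left.mpr hod)
      have h2 : M ∣ (2 * (u + 1)) * u := by
        have e : (2 * (u + 1)) * u = (2 * u) * (u + 1) := by ring
        rw [e]; exact hMdvd
      have := hc.dvd_of_dvd_mul_right h2
      have e : r + 1 = 2 * (u + 1) := by omega
      rw [e]; exact this
  obtain ⟨z, hz⟩ : ∃ z : G, z = a ^ M := ⟨_, rfl⟩
  have hzz : z ^ 2 = 1 := by
    rw [hz, ← pow_mul, mul_comm]; exact hapow1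
  have hz1 : z ≠ 1 := by
    rw [hz]
    apply pow_ne_one_of_lt_orderOf hMpos.ne'
    rw [hao]; omega
  have hzC : z ∈ C := by rw [hz]; exact C.pow_mem haC M
  have hzpow : ∀ q : ℕ, z ^ q = 1 ∨ z ^ q = z := by
    intro q
    rcases Nat.even_or_odd' q with ⟨q', hq | hq⟩
    · left; rw [hq, pow_mul, hzz, one_pow]
    · right; rw [hq, pow_add, pow_mul, hzz, one_pow, one_mul, pow_one]
  have hMpow : ∀ e : ℕ, M ∣ e → a ^ e = 1 ∨ a ^ e = z := by
    rintro e ⟨q, rfl⟩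
    rw [pow_mul, ← hz]; exact hzpow q
  have hzinv : z⁻¹ = z := inv_eq_of_mul_eq_one_right (by rw [← pow_two]; exact hzz)
  have hycases : y = a⁻¹ ∨ y = a * z ∨ y = z * a⁻¹ := by
    rcases hcases with h | h
    · have e : a ^ r = a ^ (r - 1) * a := by
        rw [← pow_succ]; congr 1; omega
      rcases hMpow _ h with h1 | h1
      · exfalso; apply hya; rw [← hr, e, h1, one_mul]
      · right; left; rw [← hr, e, h1]; exact (hCcomm z hzC a haC).eq
    · have e : a ^ (r + 1) = y * a := by rw [pow_succ, hr]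
      rcases hMpow _ h with h1 | h1
      · left; rw [h1] at e; exact (inv_eq_of_mul_eq_one_left e.symm).symm
      · right; right; rw [h1] at e; rw [eq_mul_inv_iff_mul_eq]; exact e.symm
  have hycases' : y = a⁻¹ ∨ (2 ≤ l ∧ y = a * z) ∨ (2 ≤ l ∧ y = z * a⁻¹) := by
    rcases hycases with h | h | h
    · exact Or.inl h
    · by_cases hl2 : 2 ≤ l
      · exact Or.inr (Or.inl ⟨hl2, h⟩)
      · left
        have hl1 : l = 1 := by omega
        have hM2' : M = 2 := by rw [hM, hl1]; norm_num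
        rw [h]
        apply eq_inv_of_mul_eq_one_left
        rw [hz, hM2']
        have : a * a ^ 2 * a = a ^ (2 * M) := by rw [hM2']; group
        rw [this]; exact hapow1
    · by_cases hl2 : 2 ≤ l
      · exact Or.inr (Or.inr ⟨hl2, h⟩)
      · exfalso
        have hl1 : l = 1 := by omega
        have hM2' : M = 2 := by rw [hM, hl1]; norm_num
        apply hya
        rw [h, hz, hM2']; group
  obtain ⟨s, hs⟩ : ∃ s : G, s = b₀ ^ 2 := ⟨_, rfl⟩
  have hsC : s ∈ C := by rw [hs]; exact hpowC b₀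
  obtain ⟨t, ht⟩ := hCa' s hsC
  have hβs : y ^ t = a ^ t := by
    rw [← hβ t, ht, hs]; group
  have hsq : ∀ x ∈ C, (b₀ * x) ^ 2 = (b₀ * x * b₀⁻¹) * s * x := by
    intro x _
    rw [hs, pow_two, pow_two]; group
  have hnotC : ∀ x ∈ C, b₀ * x ∉ Subgroup.zpowers a := by
    intro x hx h
    apply hb₀
    have h2 : b₀ * x ∈ C := (Subgroup.zpowers_le).mpr haC h
    have : b₀ = (b₀ * x) * x⁻¹ := by group
    rw [this]; exact C.mul_mem h2 (C.inv_mem hx)
  have hconjx : ∀ x ∈ C, (b₀ * x) * a * (b₀ * x)⁻¹ = y := by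
    intro x hx
    have hc := (hCcomm x hx a haC).eq
    rw [hy]
    calc (b₀ * x) * a * (b₀ * x)⁻¹ = b₀ * (x * a) * x⁻¹ * b₀⁻¹ := by group
      _ = b₀ * (a * x) * x⁻¹ * b₀⁻¹ := by rw [hc]
      _ = b₀ * a * b₀⁻¹ := by group
  have hs2cases : s ^ 2 = 1 → s = 1 ∨ s = z := by
    intro h
    rw [← ht, ← pow_mul] at h
    have h2 := orderOf_dvd_of_pow_eq_one h
    rw [hao] at h2
    have h2' : M * 2 ∣ t * 2 := by rw [mul_comm M 2]; exact h2
    have h3 : M ∣ t := (Nat.mul_dvd_mul_iff_right (by norm_num : 0 < 2)).mp h2'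
    rw [← ht]; exact hMpow t h3
  have hb₀z : b₀ ∉ Subgroup.zpowers a := by
    have := hnotC 1 C.one_mem
    rwa [mul_one] at this
  rcases hycases' with hA | ⟨hl2, hB⟩ | ⟨hl2, hC'⟩
  · have hs2 : s ^ 2 = 1 := by
      rw [hA, inv_pow, ht] at hβs
      have : s * s = s⁻¹ * s := by rw [hβs]
      rw [pow_two, this, inv_mul_cancel]
    refine ⟨a, b₀, by rw [hao, hM2], hb₀z, ?_⟩
    rcases hs2cases hs2 with h1 | h1
    · left; exact ⟨by rw [← hs, h1], by rw [← hy, hA]⟩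
    · right; left; exact ⟨by rw [← hs, h1, hz, hM], by rw [← hy, hA]⟩
  · obtain ⟨M', hM'⟩ : ∃ M', M = 4 * M' := by
      obtain ⟨l', rfl⟩ : ∃ l', l = l' + 2 := ⟨l - 2, by omega⟩
      exact ⟨2 ^ l', by rw [hM, pow_add]; ring⟩
    have hcaz : Commute a z := hCcomm a haC z hzC
    have hzt : z ^ t = 1 := by
      rw [hB, hcaz.mul_pow] at hβs
      have h3 : a ^ t * z ^ t = a ^ t * 1 := by rw [mul_one]; exact hβs
      exact mul_left_cancel h3
    have hzo : orderOf z = 2 := orderOf_eq_prime hzz hz1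
    obtain ⟨t', ht'⟩ : 2 ∣ t := by rw [← hzo]; exact orderOf_dvd_of_pow_eq_one hzt
    obtain ⟨x₀, hx₀⟩ : ∃ x₀ : G, x₀ = (a ^ t')⁻¹ := ⟨_, rfl⟩
    have hx₀C : x₀ ∈ C := by rw [hx₀]; exact C.inv_mem (C.pow_mem haC t')
    have hβx₀ : b₀ * x₀ * b₀⁻¹ = x₀ * z ^ t' := by
      rw [hx₀]
      have h1 : b₀ * a ^ t' * b₀⁻¹ = a ^ t' * z ^ t' := by rw [hβ, hB, hcaz.mul_pow]
      have h2 : b₀ * (a ^ t')⁻¹ * b₀⁻¹ = (b₀ * a ^ t' * b₀⁻¹)⁻¹ := by group
      rw [h2, h1, mul_inv_rev]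
      have h3 : (z ^ t')⁻¹ = z ^ t' := by rw [← inv_pow, hzinv]
      rw [h3]
      exact ((hCcomm z hzC a haC).pow_pow t' t').inv_right.eq
    have hx₀s : x₀ * s * x₀ = 1 := by
      rw [hx₀, ← ht, ht', mul_comm 2 t', pow_mul, pow_two]; group
    rcases hzpow t' with hζ | hζ
    · refine ⟨a, b₀ * x₀, by rw [hao, hM2], hnotC x₀ hx₀C,
        Or.inr (Or.inr (Or.inl ⟨hl2, ?_, ?_⟩))⟩
      · rw [hsq x₀ hx₀C, hβx₀, hζ, mul_one]; exact hx₀s
      · rw [hconjx x₀ hx₀C, hB, pow_add, pow_one, hz, hM]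
    · obtain ⟨v, hv⟩ : ∃ v : G, v = a ^ (2 * M') := ⟨_, rfl⟩
      have hvC : v ∈ C := by rw [hv]; exact C.pow_mem haC _
      have hvv : v * v = z := by
        rw [hv, ← pow_add, hz, hM']; congr 1; ring
      have hβv : b₀ * v * b₀⁻¹ = v := by
        rw [hv, hβ, hB, hcaz.mul_pow, pow_mul z 2 M', hzz, one_pow, mul_one]
      have hx₁C : x₀ * v ∈ C := C.mul_mem hx₀C hvC
      refine ⟨a, b₀ * (x₀ * v), by rw [hao, hM2], hnotC _ hx₁C,
        Or.inr (Or.inr (Or.inl ⟨hl2, ?_, ?_⟩))⟩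
      · rw [hsq _ hx₁C]
        have h1 : b₀ * (x₀ * v) * b₀⁻¹ = (b₀ * x₀ * b₀⁻¹) * (b₀ * v * b₀⁻¹) := by group
        rw [h1, hβx₀, hβv, hζ]
        have c1 : Commute v s := hCcomm v hvC s hsC
        have c2 : Commute v x₀ := hCcomm v hvC x₀ hx₀C
        have c3 : Commute z x₀ := hCcomm z hzC x₀ hx₀C
        have c4 : Commute z s := hCcomm z hzC s hsC
        calc x₀ * z * v * s * (x₀ * v) = x₀ * z * (v * s) * x₀ * v := by group
          _ = x₀ * z * (s * v) * x₀ * v := by rw [c1.eq]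
          _ = x₀ * z * s * (v * x₀) * v := by group
          _ = x₀ * z * s * (x₀ * v) * v := by rw [c2.eq]
          _ = x₀ * (z * s) * x₀ * (v * v) := by group
          _ = x₀ * (s * z) * x₀ * (v * v) := by rw [c4.eq]
          _ = x₀ * s * (z * x₀) * (v * v) := by group
          _ = x₀ * s * (x₀ * z) * (v * v) := by rw [c3.eq]
          _ = (x₀ * s * x₀) * z * (v * v) := by group
          _ = 1 := by rw [hx₀s, hvv, one_mul, ← pow_two, hzz]
      · rw [hconjx _ hx₁C, hB, pow_add, pow_one, hz, hM]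
  · obtain ⟨M', hM'⟩ : ∃ M', M = 4 * M' := by
      obtain ⟨l', rfl⟩ : ∃ l', l = l' + 2 := ⟨l - 2, by omega⟩
      exact ⟨2 ^ l', by rw [hM, pow_add]; ring⟩
    have hcza : Commute z a⁻¹ := (hCcomm z hzC a haC).inv_right
    have hzt : z ^ t = s ^ 2 := by
      rw [hC', hcza.mul_pow, inv_pow, ht] at hβs
      rw [pow_two]
      calc z ^ t = (z ^ t * s⁻¹) * s := by group
        _ = s * s := by rw [hβs]
    have hs2 : s ^ 2 = 1 := by
      rcases hzpow t with h1 | h1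
      · rw [← hzt, h1]
      · exfalso
        rw [h1] at hzt
        have htodd : t % 2 = 1 := by
          by_contra h
          have h2 : 2 ∣ t := by omega
          obtain ⟨q, hq⟩ := h2
          have h3 : z ^ t = 1 := by rw [hq, pow_mul, hzz, one_pow]
          rw [h1] at h3
          exact hz1 h3
        have h5 : a ^ M = a ^ (t * 2) := by
          rw [pow_mul, ht, ← hz]; exact hzt
        have h6 := pow_eq_pow_iff_modEq.mp h5
        rw [hao] at h6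
        have h7 : M ≡ t * 2 [MOD 4] := h6.of_dvd ⟨2 * M', by rw [hM']; ring⟩
        unfold Nat.ModEq at h7
        omega
    have hzam : z * a⁻¹ = a ^ (2 ^ l - 1) := by
      rw [← hM, eq_comm, eq_mul_inv_iff_mul_eq, ← pow_succ, hz]
      congr 1; omega
    rcases hs2cases hs2 with h1 | h1
    · refine ⟨a, b₀, by rw [hao, hM2], hb₀z,
        Or.inr (Or.inr (Or.inr ⟨hl2, by rw [← hs, h1], ?_⟩))⟩
      rw [← hy, hC', hzam]
    · refine ⟨a, b₀ * a, by rw [hao, hM2], hnotC a haC,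
        Or.inr (Or.inr (Or.inr ⟨hl2, ?_, ?_⟩))⟩
      · rw [hsq a haC, ← hy, hC', h1]
        calc z * a⁻¹ * z * a = z * (a⁻¹ * z) * a := by group
          _ = z * (z * a⁻¹) * a := by rw [← hcza.eq]
          _ = (z * z) * (a⁻¹ * a) := by group
          _ = 1 := by rw [← pow_two, hzz, inv_mul_cancel, mul_one]
      · rw [hconjx a haC, hC', hzam]

end Cfsg.Agent.Lib.Helper1
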