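import Mathlib
import Cfsg.Agent.Lib.Lead.Basic
import Cfsg.Agent.Lib.Helper6.Comm

/-!
# Core-free maximal subgroups (helper1)
-/

set_option autoImplicit false
open Pointwise

namespace Cfsg.Agent.Lib.Helper1

theorem corefree_sup_eq_top {G : Type*} [Group G] (U : Subgroup G) (hU : IsCoatom U)
    (hcore : U.normalCore = ⊥) (N : Subgroup G) [N.Normal] (hN : N ≠ ⊥) : N ⊔ U = ⊤ := by
  have h1 : ¬ N ≤ U := by
    intro h
    have h2 : N ≤ U.normalCore := Subgroup.normal_le_normalCore.mpr h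
    rw [hcore] at h2
    exact hN (le_bot_iff.mp h2)
  apply hU.2
  exact lt_of_le_of_ne le_sup_right (fun h => h1 (h ▸ le_sup_left))

theorem exists_mul_of_sup_eq_top {G : Type*} [Group G] (N U : Subgroup G) [N.Normal]
    (hsup : N ⊔ U = ⊤) (g : G) : ∃ n ∈ N, ∃ u ∈ U, g = n * u := by
  have hg : g ∈ ((N ⊔ U : Subgroup G) : Set G) := by rw [hsup]; trivial
  rw [Subgroup.normal_mul] at hg
  obtain ⟨n, hn, u, hu, h⟩ := Set.mem_mul.mp hg
  exact ⟨n, hn, u, hu, h.symm⟩

theorem corefree_eq_bot_of_normalized {G : Type*} [Group G] [Finite G] (U : Subgroup G)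
    (hcore : U.normalCore = ⊥) (N : Subgroup G) (hsup : N ⊔ U = ⊤) (X : Subgroup G)
    (hXU : X ≤ U) (hUX : ∀ u ∈ U, ∀ x ∈ X, u * x * u⁻¹ ∈ X)
    (hNX : ∀ n ∈ N, ∀ x ∈ X, n * x * n⁻¹ ∈ X) : X = ⊥ := by
  have h1 : N ⊔ U ≤ Subgroup.normalizer ((X : Subgroup G) : Set G) := by
    apply sup_le
    · intro n hn
      exact Cfsg.Agent.Lib.Helper6.mem_normalizer_of_conj_mem (hNX n hn)
    · intro u hu
      exact Cfsg.Agent.Lib.Helper6.mem_normalizer_of_conj_mem (hUX u hu)
  rw [hsup, top_le_iff] at h1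
  haveI : X.Normal := Subgroup.normalizer_eq_top_iff.mp h1
  have h2 : X ≤ U.normalCore := Subgroup.normal_le_normalCore.mpr hXU
  rw [hcore] at h2
  exact le_bot_iff.mp h2

theorem dedekind_mul {G : Type*} [Group G] (N U L : Subgroup G) [N.Normal] (hsup : N ⊔ U = ⊤)
    (hNL : N ≤ L) (l : G) (hl : l ∈ L) : ∃ n ∈ N, ∃ u ∈ L ⊓ U, l = n * u := by
  obtain ⟨n, hn, u, hu, h⟩ := exists_mul_of_sup_eq_top N U hsup l
  refine ⟨n, hn, u, ⟨?_, hu⟩, h⟩
  have : u = n⁻¹ * l := by rw [h]; group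
  rw [this]
  exact L.mul_mem (L.inv_mem (hNL hn)) hl

/-- an abelian normal subgroup meets a core-free maximal subgroup trivially -/
theorem corefree_inf_eq_bot {G : Type*} [Group G] [Finite G] (U : Subgroup G) (hU : IsCoatom U)
    (hcore : U.normalCore = ⊥) (N : Subgroup G) [hNn : N.Normal] (hN : N ≠ ⊥)
    (hab : ∀ x ∈ N, ∀ y ∈ N, x * y = y * x) : N ⊓ U = ⊥ := by
  apply corefree_eq_bot_of_normalized U hcore N (corefree_sup_eq_top U hU hcore N hN) _ inf_le_right
  · intro u hu x hx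
    exact ⟨hNn.conj_mem x hx.1 u, U.mul_mem (U.mul_mem hu hx.2) (U.inv_mem hu)⟩
  · intro n hn x hx
    have : n * x * n⁻¹ = x := by rw [hab n hn x hx.1]; group
    rw [this]; exact hx

/-- an abelian normal subgroup is self-centralizing in the presence of a core-free maximal
subgroup -/
theorem corefree_centralizer_eq {G : Type*} [Group G] [Finite G] (U : Subgroup G)
    (hU : IsCoatom U) (hcore : U.normalCore = ⊥) (N : Subgroup G) [hNn : N.Normal] (hN : N ≠ ⊥)
    (hab : ∀ x ∈ N, ∀ y ∈ N, x * y = y * x) : Subgroup.centralizer (N : Set G) = N := by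
  have hsup := corefree_sup_eq_top U hU hcore N hN
  have hNC : N ≤ Subgroup.centralizer (N : Set G) := by
    intro x hx
    rw [Subgroup.mem_centralizer_iff]
    intro y hy
    exact hab y hy x hx
  have h1 : Subgroup.centralizer (N : Set G) ⊓ U = ⊥ := by
    apply corefree_eq_bot_of_normalized U hcore N hsup _ inf_le_right
    · intro u hu x hx
      exact ⟨Subgroup.normal_centralizer.conj_mem x hx.1 u,
        U.mul_mem (U.mul_mem hu hx.2) (U.inv_mem hu)⟩
    · intro n hn x hx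
      have h2 := Subgroup.mem_centralizer_iff.mp hx.1 n hn
      have : n * x * n⁻¹ = x := by rw [h2]; group
      rw [this]; exact hx
  apply le_antisymm _ hNC
  intro c hc
  obtain ⟨n, hn, u, hu, h⟩ := dedekind_mul N U _ hsup hNC c hc
  rw [h1, Subgroup.mem_bot] at hu
  rw [h, hu, mul_one]; exact hn

end Cfsg.Agent.Lib.Helper1
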