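import Mathlib
import Cfsg.Agent.Lib.Helper1.SylowSystem

/-!
# Simultaneous conjugacy of Hall complement systems modulo a normal subgroup (helper1)
-/

set_option autoImplicit false
open Pointwise

namespace Cfsg.Agent.Lib.Helper1

universe u

open Cfsg.Agent.Lib.Lead in
/-- `|N : H ∩ N|` divides `|G : H|` for normal `N` -/
theorem relIndex_dvd_index_of_normal_right {G : Type*} [Group G] [Finite G] (H N : Subgroup G)
    [N.Normal] : H.relIndex N ∣ H.index := by
  have h1 := Cfsg.Agent.Lib.Helper5.card_mul_set_mul_card_inf H N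
  rw [← Subgroup.mul_normal H N] at h1
  have h2 := Cfsg.Agent.Lib.Helper5.card_mul_relIndex_of_le (inf_le_right : H ⊓ N ≤ N)
  rw [Subgroup.inf_relIndex_right] at h2
  have h3 := Cfsg.Agent.Lib.Helper5.card_mul_relIndex_of_le (le_sup_left : H ≤ H ⊔ N)
  have h1' : Nat.card (H ⊔ N : Subgroup G) * Nat.card (H ⊓ N : Subgroup G)
      = Nat.card H * Nat.card N := h1
  have hpos : 0 < Nat.card H * Nat.card (H ⊓ N : Subgroup G) :=
    Nat.mul_pos Nat.card_pos Nat.card_pos
  have h4 : Nat.card H * Nat.card (H ⊓ N : Subgroup G) * H.relIndex (H ⊔ N)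
      = Nat.card H * Nat.card (H ⊓ N : Subgroup G) * H.relIndex N := by
    calc Nat.card H * Nat.card (H ⊓ N : Subgroup G) * H.relIndex (H ⊔ N)
        = (Nat.card H * H.relIndex (H ⊔ N)) * Nat.card (H ⊓ N : Subgroup G) := by ring
      _ = Nat.card H * Nat.card N := by rw [h3, h1']
      _ = Nat.card H * (Nat.card (H ⊓ N : Subgroup G) * H.relIndex N) := by rw [h2]
      _ = Nat.card H * Nat.card (H ⊓ N : Subgroup G) * H.relIndex N := by ring
  have h5 := Nat.eq_of_mul_eq_mul_left hpos h4
  rw [← h5]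
  exact Subgroup.relIndex_dvd_index_of_le le_sup_left

theorem conj_smul_top' {G : Type*} [Group G] (g : G) : MulAut.conj g • (⊤ : Subgroup G) = ⊤ := by
  ext x
  rw [Cfsg.Agent.Lib.Lead.mem_conj_smul]
  simp

theorem card_eq_of_index_eq {G : Type*} [Group G] [Finite G] (A B : Subgroup G)
    (h : A.index = B.index) : Nat.card A = Nat.card B := by
  have hA := Subgroup.card_mul_index A
  have hB := Subgroup.card_mul_index B
  rw [h] at hA
  have hpos : 0 < B.index := Nat.pos_of_ne_zero Subgroup.index_ne_zero_of_finite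
  exact Nat.eq_of_mul_eq_mul_right hpos (hA.trans hB.symm)

/-- a Hall `p'`-subgroup has order coprime to `p` -/
theorem coprime_card_of_index {G : Type*} [Group G] [Finite G] (A : Subgroup G) (p : ℕ)
    (hp : p.Prime) (h : A.index = p ^ (Nat.card G).factorization p) :
    (Nat.card A).Coprime p := by
  have hA := Subgroup.card_mul_index A
  rw [h] at hA
  have h1 := Nat.coprime_ordCompl hp (Nat.card_pos (α := G)).ne'
  have h2 : Nat.card G / p ^ (Nat.card G).factorization p = Nat.card A :=
    Nat.div_eq_of_eq_mul_left (pow_pos hp.pos _) hA.symm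
  rw [h2] at h1
  exact h1.symm

open Cfsg.Agent.Lib.Lead in
/-- finite version of simultaneous conjugacy modulo `N` -/
theorem conj_systems_finset {G : Type u} [Group G] [Finite G] [Group.IsSolvable G]
    (N : Subgroup G) [N.Normal] (K R : Nat.Primes → Subgroup G)
    (hK : ∀ p : Nat.Primes, (K p).index = (p : ℕ) ^ (Nat.card G).factorization p)
    (hR : ∀ p : Nat.Primes, (R p).index = (p : ℕ) ^ (Nat.card G).factorization p)
    (hN : ∀ p, R p ⊔ N = K p ⊔ N) (T : Finset Nat.Primes) :
    ∃ n ∈ N, ∀ p ∈ T, MulAut.conj n • R p = K p := by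
  classical
  induction T using Finset.induction_on with
  | empty => exact ⟨1, N.one_mem, fun p hp => absurd hp (Finset.notMem_empty p)⟩
  | insert q T hq ih =>
    obtain ⟨n₀, hn₀, h₀⟩ := ih
    obtain ⟨R', hR'⟩ : ∃ R', R' = MulAut.conj n₀ • R q := ⟨_, rfl⟩
    obtain ⟨M, hM⟩ : ∃ M, M = K q ⊔ N := ⟨_, rfl⟩
    have hKM : K q ≤ M := hM ▸ le_sup_left
    have hNM : N ≤ M := hM ▸ le_sup_right
    have hRM : R q ≤ M := by rw [hM, ← hN q]; exact le_sup_left
    have hR'M : R' ≤ M := by
      intro x hx
      rw [hR', mem_conj_smul] at hx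
      have h1 := hRM hx
      have h2 := M.mul_mem (M.mul_mem (hNM hn₀) h1) (M.inv_mem (hNM hn₀))
      have h3 : n₀ * (n₀⁻¹ * x * n₀) * n₀⁻¹ = x := by group
      rwa [h3] at h2
    have hcardR : Nat.card R' = Nat.card (K q) := by
      rw [hR', card_conj_smul]
      exact card_eq_of_index_eq _ _ ((hR q).trans (hK q).symm)
    have hcardM : Nat.card M = Nat.card (K q) * (K q).relIndex M :=
      (Cfsg.Agent.Lib.Helper5.card_mul_relIndex_of_le hKM).symm
    have hcop : (Nat.card (K q)).Coprime ((K q).relIndex M) := by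
      have h1 := coprime_card_of_index (K q) q q.2 (hK q)
      have h2 : (K q).relIndex M ∣ (q : ℕ) ^ (Nat.card G).factorization q := by
        rw [← hK q]; exact Subgroup.relIndex_dvd_index_of_le hKM
      exact Nat.Coprime.coprime_dvd_right h2 (Nat.Coprime.pow_right _ h1)
    have hC := hallC_all (Nat.card M) M rfl (Nat.card (K q)) ((K q).relIndex M) hcardM hcop
      (R'.subgroupOf M) ((K q).subgroupOf M)
      ((card_subgroupOf_of_le hR'M).trans hcardR) (card_subgroupOf_of_le hKM)
    obtain ⟨y, hy⟩ := hC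
    have hy' : MulAut.conj (y : G) • R' = K q := conj_smul_eq_of_subgroupOf hR'M hKM y hy
    have hyM : (y : G) ∈ ((K q ⊔ N : Subgroup G) : Set G) := hM ▸ y.2
    rw [Subgroup.mul_normal] at hyM
    obtain ⟨k, hk, n₁, hn₁, hkn⟩ := Set.mem_mul.mp hyM
    have hkN : k ∈ Subgroup.normalizer ((K q : Subgroup G) : Set G) := Subgroup.le_normalizer hk
    have h1 : MulAut.conj n₁ • R' = K q := by
      have e1 : MulAut.conj k • (MulAut.conj n₁ • R') = K q := by
        rw [← mul_smul, ← map_mul, hkn]; exact hy'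
      have e2 : MulAut.conj n₁ • R' = (MulAut.conj k)⁻¹ • K q := by
        rw [← e1, inv_smul_smul]
      rw [e2, ← map_inv]
      exact conj_smul_eq_of_mem_normalizer (Subgroup.inv_mem _ hkN)
    -- decompose `n₁` inside `N`
    obtain ⟨F, hF⟩ : ∃ F : Nat.Primes → Subgroup N,
        F = fun p => (Subgroup.normalizer ((K p : Subgroup G) : Set G)).subgroupOf N := ⟨_, rfl⟩
    have hFidx : ∀ p : Nat.Primes, ∃ j, (F p).index = (p : ℕ) ^ j := by
      intro p
      have e1 : (F p).index = (Subgroup.normalizer ((K p : Subgroup G) : Set G)).relIndex N := by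
        rw [hF]; rfl
      have e2 : (Subgroup.normalizer ((K p : Subgroup G) : Set G)).relIndex N ∣
          (p : ℕ) ^ (Nat.card G).factorization p := by
        rw [← hK p]
        exact (relIndex_dvd_index_of_normal_right _ N).trans
          (Subgroup.index_dvd_of_le Subgroup.le_normalizer)
      obtain ⟨j, _, hj⟩ := (Nat.dvd_prime_pow p.2).mp e2
      exact ⟨j, e1.trans hj⟩
    obtain ⟨a, ha, b, hb, hab⟩ := exists_mul_finset_inf F hFidx T q hq ⟨n₁, hn₁⟩
    have haN : (a : G) ∈ Subgroup.normalizer ((K q : Subgroup G) : Set G) := by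
      rw [hF] at ha; exact ha
    have hbN : ∀ p ∈ T, (b : G) ∈ Subgroup.normalizer ((K p : Subgroup G) : Set G) := by
      intro p hp
      have := hb p hp
      rw [hF] at this; exact this
    have hab' : n₁ = (a : G) * (b : G) := congrArg Subtype.val hab
    have h2 : MulAut.conj (b : G) • R' = K q := by
      have e1 : MulAut.conj (a : G) • (MulAut.conj (b : G) • R') = K q := by
        rw [← mul_smul, ← map_mul, ← hab']; exact h1
      have e2 : MulAut.conj (b : G) • R' = (MulAut.conj (a : G))⁻¹ • K q := by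
        rw [← e1, inv_smul_smul]
      rw [e2, ← map_inv]
      exact conj_smul_eq_of_mem_normalizer (Subgroup.inv_mem _ haN)
    refine ⟨(b : G) * n₀, N.mul_mem b.2 hn₀, ?_⟩
    intro p hp
    rw [map_mul, mul_smul]
    rcases Finset.mem_insert.mp hp with rfl | hpT
    · rw [← hR']; exact h2
    · rw [h₀ p hpT]
      exact conj_smul_eq_of_mem_normalizer (hbN p hpT)

open Cfsg.Agent.Lib.Lead in
/-- simultaneous conjugacy modulo `N` of two Hall complement systems -/
theorem conj_systems {G : Type u} [Group G] [Finite G] [Group.IsSolvable G]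
    (N : Subgroup G) [N.Normal] (K R : Nat.Primes → Subgroup G)
    (hK : ∀ p : Nat.Primes, (K p).index = (p : ℕ) ^ (Nat.card G).factorization p)
    (hR : ∀ p : Nat.Primes, (R p).index = (p : ℕ) ^ (Nat.card G).factorization p)
    (hN : ∀ p, R p ⊔ N = K p ⊔ N) :
    ∃ n ∈ N, ∀ p : Nat.Primes, MulAut.conj n • R p = K p := by
  classical
  obtain ⟨n, hn, h⟩ := conj_systems_finset N K R hK hR hN
    (Finset.subtype Nat.Prime (Nat.card G).primeFactors)
  refine ⟨n, hn, fun p => ?_⟩
  by_cases hp : (p : ℕ) ∣ Nat.card G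
  · apply h p
    refine Finset.mem_subtype.mpr ?_
    exact Nat.mem_primeFactors.mpr ⟨p.2, hp, (Nat.card_pos (α := G)).ne'⟩
  · have h0 : (Nat.card G).factorization p = 0 := Nat.factorization_eq_zero_of_not_dvd hp
    have hK1 : K p = ⊤ := by
      rw [← Subgroup.index_eq_one, hK p, h0, pow_zero]
    have hR1 : R p = ⊤ := by
      rw [← Subgroup.index_eq_one, hR p, h0, pow_zero]
    rw [hK1, hR1, conj_smul_top']

end Cfsg.Agent.Lib.Helper1
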