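import Mathlib
import Cfsg.Agent.Lib.Helper1.SylowSystem2
import Cfsg.Agent.Lib.Lead.Nilpotent

/-!
# Minimal normal subgroups of solvable groups and system normalizers (helper1)
-/

set_option autoImplicit false
open Pointwise

namespace Cfsg.Agent.Lib.Helper1

universe u

theorem eq_one_of_mem_of_coprime {G : Type*} [Group G] [Finite G] (H K : Subgroup G)
    (hcop : (Nat.card H).Coprime (Nat.card K)) (x : G) (hH : x ∈ H) (hK : x ∈ K) : x = 1 := by
  have h1 := Subgroup.orderOf_dvd_natCard H hH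
  have h2 := Subgroup.orderOf_dvd_natCard K hK
  have h3 := Nat.dvd_gcd h1 h2
  rw [Nat.Coprime.gcd_eq_one hcop] at h3
  exact orderOf_eq_one_iff.mp (Nat.dvd_one.mp h3)

/-- a minimal normal subgroup of a finite solvable group is an abelian `p`-group -/
theorem min_normal_pgroup {G : Type*} [Group G] [Finite G] [Group.IsSolvable G] (B : Subgroup G)
    [hBn : B.Normal] (hB : B ≠ ⊥)
    (hmin : ∀ N : Subgroup G, N.Normal → N ≤ B → N = ⊥ ∨ N = B) :
    ∃ p : ℕ, p.Prime ∧ IsPGroup p B ∧ ∀ x ∈ B, ∀ y ∈ B, x * y = y * x := by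
  have hab : ∀ x ∈ B, ∀ y ∈ B, x * y = y * x := by
    have h1 : ⁅B, B⁆ ≤ B := Subgroup.commutator_le_left B B
    rcases hmin ⁅B, B⁆ inferInstance h1 with h2 | h2
    · have h3 := Subgroup.commutator_eq_bot_iff_le_centralizer.mp h2
      intro x hx y hy
      exact (Subgroup.mem_centralizer_iff.mp (h3 hy) x hx)
    · exfalso
      haveI : Nontrivial B := (Subgroup.nontrivial_iff_ne_bot B).mpr hB
      have h3 : _root_.commutator B < ⊤ := Group.IsSolvable.commutator_lt_top_of_nontrivial B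
      have h4 : (_root_.commutator B).map B.subtype = (⊤ : Subgroup B).map B.subtype := by
        rw [Subgroup.map_subtype_commutator, h2, ← MonoidHom.range_eq_map, Subgroup.range_subtype]
      exact h3.ne (Subgroup.map_injective B.subtype_injective h4)
  have hcard : Nat.card B ≠ 1 := fun h => hB (Subgroup.card_eq_one.mp h)
  obtain ⟨p, hp, hpd⟩ := Nat.exists_prime_and_dvd hcard
  haveI : Fact p.Prime := ⟨hp⟩
  refine ⟨p, hp, ?_, hab⟩
  -- the p-primary part of `B`
  let Bp : Subgroup G :=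
    { carrier := {x | x ∈ B ∧ ∃ k : ℕ, x ^ (p ^ k) = 1}
      one_mem' := ⟨B.one_mem, 0, by simp⟩
      mul_mem' := by
        rintro x y ⟨hx, k, hk⟩ ⟨hy, l, hl⟩
        refine ⟨B.mul_mem hx hy, k + l, ?_⟩
        have hc : Commute x y := hab x hx y hy
        rw [hc.mul_pow, pow_add, pow_mul, hk, one_pow, one_mul, mul_comm (p ^ k), pow_mul, hl,
          one_pow]
      inv_mem' := by
        rintro x ⟨hx, k, hk⟩
        exact ⟨B.inv_mem hx, k, by rw [inv_pow, hk, inv_one]⟩ }
  have hBpn : Bp.Normal := by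
    refine ⟨fun n hn g => ?_⟩
    obtain ⟨hnB, k, hk⟩ := hn
    exact ⟨hBn.conj_mem n hnB g, k, by rw [conj_pow, hk, mul_one, mul_inv_cancel]⟩
  have hBple : Bp ≤ B := fun x hx => hx.1
  have hBpne : Bp ≠ ⊥ := by
    obtain ⟨y, hy⟩ := exists_prime_orderOf_dvd_card' (G := B) p hpd
    intro h
    have hyp : y ^ p = 1 := hy ▸ pow_orderOf_eq_one y
    have hyp' : (y : G) ^ p = 1 := by
      have := congrArg Subtype.val hyp
      simpa using this
    have h1 : (y : G) ∈ Bp := ⟨y.2, 1, by rw [pow_one]; exact hyp'⟩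
    rw [h, Subgroup.mem_bot] at h1
    have h2 : y = 1 := Subtype.ext h1
    rw [h2, orderOf_one] at hy
    exact hp.one_lt.ne hy
  rcases hmin Bp hBpn hBple with h | h
  · exact absurd h hBpne
  · intro y
    have hy : (y : G) ∈ Bp := by rw [h]; exact y.2
    obtain ⟨_, k, hk⟩ := hy
    exact ⟨k, Subtype.ext (by simpa using hk)⟩

/-- a normal `p`-subgroup lies in every subgroup of index prime to `p` -/
theorem le_of_not_dvd_index {G : Type*} [Group G] [Finite G] (p : ℕ) [hp : Fact p.Prime]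
    (B H : Subgroup G) [B.Normal] (hBp : IsPGroup p B) (hH : ¬ p ∣ H.index) : B ≤ H := by
  have h1 : H.relIndex B ∣ H.index := relIndex_dvd_index_of_normal_right H B
  have h2 : H.relIndex B ∣ Nat.card B := Subgroup.relIndex_dvd_card H B
  obtain ⟨n, hn⟩ := IsPGroup.iff_card.mp hBp
  rw [hn] at h2
  obtain ⟨j, _, hj⟩ := (Nat.dvd_prime_pow hp.out).mp h2
  rcases Nat.eq_zero_or_pos j with h0 | hpos
  · rw [h0, pow_zero] at hj
    exact Subgroup.relIndex_eq_one.mp hj
  · exfalso
    apply hH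
    have : p ∣ H.relIndex B := by rw [hj]; exact dvd_pow_self p hpos.ne'
    exact this.trans h1

/-- a non-central minimal normal subgroup of a finite solvable group is avoided by the
normalizer of a Hall `p'`-subgroup for its prime -/
theorem avoid_core {G : Type u} [Group G] [Finite G] [Group.IsSolvable G]
    (K : Nat.Primes → Subgroup G)
    (hK : ∀ p : Nat.Primes, (K p).index = (p : ℕ) ^ (Nat.card G).factorization p)
    (B : Subgroup G) [hBn : B.Normal] (hB : B ≠ ⊥)
    (hmin : ∀ N : Subgroup G, N.Normal → N ≤ B → N = ⊥ ∨ N = B)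
    (hnc : ¬ B ≤ Subgroup.center G) :
    B ⊓ (⨅ p : Nat.Primes, Subgroup.normalizer ((K p : Subgroup G) : Set G)) = ⊥ := by
  obtain ⟨p, hp, hBp, hBab⟩ := min_normal_pgroup B hB hmin
  haveI : Fact p.Prime := ⟨hp⟩
  by_contra hne
  obtain ⟨x, hx, hx1⟩ : ∃ x ∈ B ⊓ (⨅ p : Nat.Primes,
      Subgroup.normalizer ((K p : Subgroup G) : Set G)), x ≠ 1 := by
    by_contra h
    push Not at h
    exact hne ((Subgroup.eq_bot_iff_forall _).mpr h)
  obtain ⟨hxB, hxD⟩ := Subgroup.mem_inf.mp hx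
  rw [Subgroup.mem_iInf] at hxD
  have hcopBK : (Nat.card B).Coprime (Nat.card (K ⟨p, hp⟩)) := by
    obtain ⟨n, hn⟩ := IsPGroup.iff_card.mp hBp
    rw [hn]
    exact Nat.Coprime.pow_left _ (coprime_card_of_index (K ⟨p, hp⟩) p hp (hK ⟨p, hp⟩)).symm
  have hxK : ∀ k ∈ K ⟨p, hp⟩, k * x = x * k := by
    intro k hk
    have h1 : x * k * x⁻¹ ∈ K ⟨p, hp⟩ := (Subgroup.mem_normalizer_iff.mp (hxD ⟨p, hp⟩) k).mp hk
    have h2 : x * k * x⁻¹ * k⁻¹ ∈ K ⟨p, hp⟩ := Subgroup.mul_mem _ h1 (Subgroup.inv_mem _ hk)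
    have h3 : x * k * x⁻¹ * k⁻¹ ∈ B := by
      have h4 : k * x⁻¹ * k⁻¹ ∈ B := hBn.conj_mem _ (B.inv_mem hxB) k
      have h5 := B.mul_mem hxB h4
      have h6 : x * (k * x⁻¹ * k⁻¹) = x * k * x⁻¹ * k⁻¹ := by group
      rwa [h6] at h5
    have h7 := eq_one_of_mem_of_coprime B (K ⟨p, hp⟩) hcopBK _ h3 h2
    have h8 : x * k = (x * k * x⁻¹ * k⁻¹) * (k * x) := by group
    rw [h8, h7, one_mul]
  obtain ⟨C, hC⟩ : ∃ C : Subgroup G, C = Subgroup.centralizer (B : Set G) := ⟨_, rfl⟩
  haveI hCn : C.Normal := hC ▸ Subgroup.normal_centralizer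
  have hCne : C ≠ ⊤ := by
    intro h
    apply hnc
    intro b hb
    rw [Subgroup.mem_center_iff]
    intro g
    have hg : g ∈ C := h ▸ Subgroup.mem_top g
    rw [hC, Subgroup.mem_centralizer_iff] at hg
    exact (hg b hb).symm
  haveI : Nontrivial (G ⧸ C) := QuotientGroup.nontrivial_iff.mpr hCne
  obtain ⟨r, hr, Rb, hRn, hRne, hRp⟩ := Cfsg.Agent.Lib.Lead.exists_normal_pgroup_of_solvable (G ⧸ C)
  haveI : Fact r.Prime := ⟨hr⟩
  obtain ⟨M, hM⟩ : ∃ M : Subgroup G, M = Rb.comap (QuotientGroup.mk' C) := ⟨_, rfl⟩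
  haveI hMn : M.Normal := hM ▸ Subgroup.Normal.comap hRn _
  have hMC : ¬ M ≤ C := by
    intro hle
    apply hRne
    rw [Subgroup.eq_bot_iff_forall]
    intro y hy
    obtain ⟨m, rfl⟩ := QuotientGroup.mk'_surjective C y
    have hm : m ∈ M := by rw [hM]; exact hy
    exact (QuotientGroup.eq_one_iff m).mpr (hle hm)
  have hF : B ⊓ Subgroup.centralizer (M : Set G) = ⊥ := by
    rcases hmin (B ⊓ Subgroup.centralizer (M : Set G)) inferInstance inf_le_left with h | h
    · exact h
    · exfalso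
      apply hMC
      have h1 : B ≤ Subgroup.centralizer (M : Set G) := by rw [← h]; exact inf_le_right
      rw [hC]
      exact Subgroup.le_centralizer_iff.mp h1
  -- a subgroup `H` of index prime to `r` centralized by a nontrivial element of `B`
  obtain ⟨H, hHidx, x₁, hx₁B, hx₁, hx₁H⟩ : ∃ H : Subgroup G, ¬ r ∣ H.index ∧
      ∃ x₁ ∈ B, x₁ ≠ 1 ∧ ∀ h ∈ H, h * x₁ = x₁ * h := by
    by_cases hrp : r = p
    · subst hrp
      obtain ⟨P⟩ : Nonempty (Sylow r G) := inferInstance
      refine ⟨P, P.not_dvd_index, ?_⟩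
      haveI : Group.IsNilpotent (P : Subgroup G) := P.2.isNilpotent
      have hBP : B ≤ P := hBp.le_sylow_of_normal P
      have hne' : B.subgroupOf (P : Subgroup G) ≠ ⊥ := by
        intro h
        rw [Subgroup.subgroupOf_eq_bot, disjoint_iff, inf_eq_left.mpr hBP] at h
        exact hB h
      have h1 := Cfsg.Agent.Lib.Lead.normal_inf_center_ne_bot (B.subgroupOf (P : Subgroup G)) hne'
      obtain ⟨y, hy, hy1⟩ : ∃ y ∈ B.subgroupOf (P : Subgroup G) ⊓
          Subgroup.center (P : Subgroup G), y ≠ 1 := by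
        by_contra h
        push Not at h
        exact h1 ((Subgroup.eq_bot_iff_forall _).mpr h)
      refine ⟨(y : G), hy.1, fun h => hy1 (Subtype.ext h), ?_⟩
      intro h hh
      have h2 := Subgroup.mem_center_iff.mp hy.2 ⟨h, hh⟩
      exact congrArg Subtype.val h2
    · refine ⟨K ⟨p, hp⟩, ?_, x, hxB, hx1, hxK⟩
      rw [hK ⟨p, hp⟩]
      intro hd
      have h1 := hr.dvd_of_dvd_pow hd
      exact hrp ((Nat.prime_dvd_prime_iff_eq hr hp).mp h1)
  have hRH : Rb ≤ H.map (QuotientGroup.mk' C) := by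
    apply le_of_not_dvd_index r Rb _ hRp
    intro hd
    exact hHidx (hd.trans (Subgroup.index_map_dvd H (QuotientGroup.mk'_surjective C)))
  have hMle : M ≤ C ⊔ H := by
    rw [hM, ← QuotientGroup.comap_map_mk']
    exact Subgroup.comap_mono hRH
  have hcen : C ⊔ H ≤ Subgroup.centralizer ({x₁} : Set G) := by
    apply sup_le
    · intro c hc
      rw [hC, Subgroup.mem_centralizer_iff] at hc
      rw [Subgroup.mem_centralizer_iff]
      intro h hh
      rw [Set.mem_singleton_iff] at hh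
      rw [hh]; exact hc x₁ hx₁B
    · intro h hh
      rw [Subgroup.mem_centralizer_iff]
      intro h' hh'
      rw [Set.mem_singleton_iff] at hh'
      rw [hh']; exact (hx₁H h hh).symm
  have hx₁M : x₁ ∈ Subgroup.centralizer (M : Set G) := by
    rw [Subgroup.mem_centralizer_iff]
    intro m hm
    have h1 := hcen (hMle hm)
    rw [Subgroup.mem_centralizer_iff] at h1
    exact (h1 x₁ rfl).symm
  have : x₁ ∈ B ⊓ Subgroup.centralizer (M : Set G) := ⟨hx₁B, hx₁M⟩
  rw [hF, Subgroup.mem_bot] at this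
  exact hx₁ this

/-- central elements normalize every subgroup -/
theorem center_le_normalizer' {G : Type*} [Group G] (H : Subgroup G) :
    Subgroup.center G ≤ Subgroup.normalizer ((H : Subgroup G) : Set G) := by
  intro z hz
  rw [Subgroup.mem_normalizer_iff]
  intro h
  have h1 := Subgroup.mem_center_iff.mp hz h
  have h2 : z * h * z⁻¹ = h := by rw [← h1]; group
  rw [h2]

end Cfsg.Agent.Lib.Helper1
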