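import Mathlib
import Cfsg.Agent.S0080

set_option autoImplicit false

namespace Cfsg.Agent.Lib.Helper1

theorem foc_mono {G : Type*} [Group G] {K L : Subgroup G} (h : K ≤ L) :
    Subgroup.focalSubgroup K ≤ Subgroup.focalSubgroup L := by
  rw [Subgroup.focalSubgroup_def, Subgroup.focalSubgroup_def]
  apply Subgroup.closure_mono
  rintro g ⟨hg, x, hx, u, rfl⟩
  exact ⟨h hg, x, h hx, u, rfl⟩

theorem foc_map_subtype {G : Type*} [Group G] (N : Subgroup G) (K : Subgroup N) :
    (Subgroup.focalSubgroup K).map N.subtype ≤ Subgroup.focalSubgroup (K.map N.subtype) := by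
  rw [Subgroup.focalSubgroup_def, MonoidHom.map_closure, Subgroup.closure_le]
  rintro _ ⟨g, ⟨hg, x, hx, u, rfl⟩, rfl⟩
  apply Subgroup.subset_closure
  refine ⟨Subgroup.mem_map_of_mem _ hg, (x : G), Subgroup.mem_map_of_mem _ hx, (u : G), ?_⟩
  simp [commutatorElement_def]

theorem foc_iter_map_subtype {G : Type*} [Group G] (N : Subgroup G) (n : ℕ) (K : Subgroup N) :
    (((fun K : Subgroup N => Subgroup.focalSubgroup K)^[n]) K).map N.subtype ≤
      ((fun K : Subgroup G => Subgroup.focalSubgroup K)^[n]) (K.map N.subtype) := by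
  induction n generalizing K with
  | zero => exact le_refl _
  | succ n ih =>
    rw [Function.iterate_succ_apply, Function.iterate_succ_apply]
    refine le_trans (ih _) ?_
    exact (Monotone.iterate (fun _ _ h => foc_mono h) n) (foc_map_subtype N K)

theorem index_subgroupOf_of_sup_eq_top {G : Type*} [Group G] [Finite G] (N H : Subgroup G)
    [N.Normal] (h : N ⊔ H = ⊤) : (H.subgroupOf N).index = H.index := by
  have h1 : N.index = N.relIndex H := by
    rw [← Subgroup.relIndex_top_right, ← h, Subgroup.relIndex_sup_left]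
  have h2 := Subgroup.card_mul_index N
  have h3 := Subgroup.card_mul_index H
  have h4 : Nat.card (N.subgroupOf H) * N.relIndex H = Nat.card H :=
    Subgroup.card_mul_index (N.subgroupOf H)
  have h5 := Subgroup.card_mul_index (H.subgroupOf N)
  have h6 : Nat.card (N.subgroupOf H) = Nat.card (H.subgroupOf N) := by
    rw [← Subgroup.inf_subgroupOf_right N H, ← Subgroup.inf_subgroupOf_left H N]
    exact (Nat.card_congr (Subgroup.subgroupOfEquivOfLe inf_le_right).toEquiv).trans
      (Nat.card_congr (Subgroup.subgroupOfEquivOfLe inf_le_left).toEquiv).symm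
  have e1 : Nat.card H = Nat.card (H.subgroupOf N) * N.index := by
    rw [h1, ← h6]; exact h4.symm
  have e2 : Nat.card (H.subgroupOf N) * N.index * H.index =
      Nat.card (H.subgroupOf N) * (H.subgroupOf N).index * N.index := by
    rw [← e1, h3, h5, h2]
  have hpos : 0 < Nat.card (H.subgroupOf N) * N.index := by
    rw [← e1]; exact Nat.card_pos
  apply Nat.eq_of_mul_eq_mul_left hpos
  rw [e2]; ring

theorem normal_of_normal_hall_in_normal {G : Type*} [Group G] [Finite G] (N M : Subgroup G)
    [N.Normal] (hMN : M ≤ N) (hM : (M.subgroupOf N).Normal)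
    (hcop : (Nat.card M).Coprime (M.subgroupOf N).index) : M.Normal := by
  constructor
  intro x hx g
  have hxN : g * x * g⁻¹ ∈ N := ‹N.Normal›.conj_mem x (hMN hx) g
  obtain ⟨y, hy⟩ : ∃ y : N, (y : G) = g * x * g⁻¹ := ⟨⟨_, hxN⟩, rfl⟩
  have hx1 : x ^ Nat.card M = 1 := by
    have h := pow_card_eq_one' (G := M) (x := ⟨x, hx⟩)
    have h' : ((⟨x, hx⟩ : M) ^ Nat.card M : M).1 = (1 : M).1 := congrArg Subtype.val h
    rw [Subgroup.coe_pow] at h'
    exact h'
  have h1 : y ^ Nat.card M = 1 := by
    apply Subtype.ext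
    rw [Subgroup.coe_pow, hy, conj_pow, hx1]
    simp
  have h2 : (y : N ⧸ M.subgroupOf N) ^ Nat.card M = 1 := by
    rw [← QuotientGroup.mk_pow, h1]; rfl
  have h3 : (y : N ⧸ M.subgroupOf N) ^ (M.subgroupOf N).index = 1 := by
    rw [Subgroup.index_eq_card]; exact pow_card_eq_one'
  have h4 := pow_gcd_eq_one.mpr ⟨h2, h3⟩
  rw [Nat.Coprime.gcd_eq_one hcop, pow_one] at h4
  have h5 : y ∈ M.subgroupOf N := (QuotientGroup.eq_one_iff y).mp h4
  have h6 := Subgroup.mem_subgroupOf.mp h5
  rw [hy] at h6
  exact h6

theorem foc_main.{u} (n : ℕ) : ∀ {G : Type u} [Group G] [Finite G] (H : Subgroup G),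
    (Nat.card H).Coprime H.index →
    (fun K : Subgroup G => Subgroup.focalSubgroup K)^[n] H = ⊥ →
    ∃ N : Subgroup G, N.Normal ∧ Subgroup.IsComplement' N H := by
  induction n with
  | zero =>
    intro G _ _ H hHall hfoc
    rw [Function.iterate_zero, id] at hfoc
    rw [hfoc]
    exact ⟨⊤, inferInstance, Subgroup.isComplement'_top_bot⟩
  | succ n ih =>
    intro G _ _ H hHall hfoc
    rw [Function.iterate_succ_apply] at hfoc
    have hc : Nat.Coprime H.index (⁅H, H⁆.relIndex H) :=
      Nat.Coprime.coprime_dvd_right (Subgroup.relIndex_dvd_card _ _) hHall.symm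
    obtain ⟨hF, N, hN, hNH, hsup⟩ := Cfsg.Agent.S0080.result H hc
    haveI := hN
    have hidx : (H.subgroupOf N).index = H.index := index_subgroupOf_of_sup_eq_top N H hsup
    have hK'card : Nat.card (H.subgroupOf N) ∣ Nat.card H := by
      rw [← Subgroup.inf_subgroupOf_left H N,
        Nat.card_congr (Subgroup.subgroupOfEquivOfLe (inf_le_left : N ⊓ H ≤ N)).toEquiv]
      exact Subgroup.card_dvd_of_le inf_le_right
    have hHall' : (Nat.card (H.subgroupOf N)).Coprime (H.subgroupOf N).index := by
      rw [hidx]; exact Nat.Coprime.coprime_dvd_left hK'card hHall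
    have hfoc' : (fun K : Subgroup N => Subgroup.focalSubgroup K)^[n] (H.subgroupOf N) = ⊥ := by
      have h1 := foc_iter_map_subtype N n (H.subgroupOf N)
      have h2 : (H.subgroupOf N).map N.subtype ≤ Subgroup.focalSubgroup H := by
        rw [Subgroup.subgroupOf_map_subtype, hF, ← hNH]; exact le_of_eq (inf_comm _ _)
      have h3 := (Monotone.iterate (fun _ _ h => foc_mono (G := G) h) n) h2
      rw [hfoc] at h3
      have h4 := le_trans h1 h3
      rw [le_bot_iff] at h4
      exact (Subgroup.map_eq_bot_iff_of_injective _ (Subgroup.subtype_injective N)).mp h4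
    obtain ⟨M', hM'n, hM'c⟩ := ih (H.subgroupOf N) hHall' hfoc'
    have hMN : M'.map N.subtype ≤ N := Subgroup.map_subtype_le M'
    have hMeq : (M'.map N.subtype).subgroupOf N = M' :=
      Subgroup.comap_map_eq_self_of_injective (Subgroup.subtype_injective N) M'
    have hMcard : Nat.card (M'.map N.subtype) = H.index := by
      rw [← hidx, hM'c.index_eq_card]
      exact (Nat.card_congr (M'.equivMapOfInjective N.subtype
        (Subgroup.subtype_injective N)).toEquiv).symm
    have hM'idx : M'.index ∣ Nat.card H := by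
      rw [hM'c.symm.index_eq_card]; exact hK'card
    have hMnormal : (M'.map N.subtype).Normal := by
      apply normal_of_normal_hall_in_normal N _ hMN
      · rw [hMeq]; exact hM'n
      · rw [hMeq, hMcard]; exact Nat.Coprime.coprime_dvd_right hM'idx hHall.symm
    refine ⟨M'.map N.subtype, hMnormal, ?_⟩
    apply Subgroup.isComplement'_of_coprime
    · rw [hMcard]; exact Subgroup.index_mul_card H
    · rw [hMcard]; exact hHall.symm

end Cfsg.Agent.Lib.Helper1
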