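import Mathlib
import Cfsg.Prelude.Def_Solvable
import Cfsg.Agent.Lib.Lead.Frob5

set_option autoImplicit false

namespace Cfsg.Agent.Lib.Helper1

open scoped IsMulCommutative Pointwise

/-- A Frobenius group `F = N ⋊ H` acting on an abelian group `A` of order prime to `|N|`
with `C_A(N) = 1` and `C_A(H) = 1` forces `A = 1`. -/
theorem frob_action_trivial {F A : Type*} [Group F] [Finite F] [Group A] [IsMulCommutative A]
    [Finite A] (φ : F →* MulAut A)
    (H N : Subgroup F) (hH : Cfsg.IsFrobeniusComplement H)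
    (hN : (N : Set F) = Cfsg.frobeniusKernel H) (hNn : N.Normal)
    (hc : Subgroup.IsComplement' N H)
    (hcop : (Nat.card A).Coprime (Nat.card N))
    (hCN : ∀ a : A, (∀ n ∈ N, φ n a = a) → a = 1)
    (hCH : ∀ a : A, (∀ h ∈ H, φ h a = a) → a = 1) (a : A) : a = 1 := by
  classical
  haveI : Fintype F := Fintype.ofFinite F
  -- trace over F
  have hTF : ∏ f : F, φ f a = 1 := by
    apply hCN
    intro n _
    rw [map_prod]
    have : ∀ f : F, φ n (φ f a) = φ (n * f) a := by
      intro f; rw [map_mul]; rfl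
    simp_rw [this]
    exact Fintype.prod_equiv (Equiv.mulLeft n) _ _ (fun f => rfl)
  have hTN : ∏ n : N, φ (n : F) a = 1 := by
    apply hCN
    intro n hn
    rw [map_prod]
    have : ∀ f : N, φ n (φ (f : F) a) = φ (((⟨n, hn⟩ * f : N)) : F) a := by
      intro f; rw [Subgroup.coe_mul, map_mul]; rfl
    simp_rw [this]
    exact Fintype.prod_equiv (Equiv.mulLeft (⟨n, hn⟩ : N)) _ _ (fun f => rfl)
  have hTH : ∀ b : A, ∏ h : H, φ (h : F) b = 1 := by
    intro b
    apply hCH
    intro n hn
    rw [map_prod]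
    have : ∀ f : H, φ n (φ (f : F) b) = φ (((⟨n, hn⟩ * f : H)) : F) b := by
      intro f; rw [Subgroup.coe_mul, map_mul]; rfl
    simp_rw [this]
    exact Fintype.prod_equiv (Equiv.mulLeft (⟨n, hn⟩ : H)) _ _ (fun f => rfl)
  -- split
  have hsplit : (∏ f ∈ Finset.univ.filter (fun f : F => f ∈ N), φ f a) *
      (∏ f ∈ Finset.univ.filter (fun f : F => ¬ f ∈ N), φ f a) = ∏ f : F, φ f a :=
    Finset.prod_filter_mul_prod_filter_not _ _ _
  have hsub : ∏ f ∈ Finset.univ.filter (fun f : F => f ∈ N), φ f a = ∏ n : N, φ (n : F) a := by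
    apply Finset.prod_subtype
    intro x; simp
  have hout : ∏ f ∈ Finset.univ.filter (fun f : F => ¬ f ∈ N), φ f a = 1 := by
    rw [hsub, hTN, hTF, one_mul] at hsplit
    exact hsplit
  -- the double product
  have hdisj : ∀ x : F, x ∈ N → x ∈ H → x = 1 := by
    intro x hxN hxH
    have := hc.disjoint
    rw [Subgroup.disjoint_def] at this
    exact this hxN hxH
  have hP1 : ∏ n : N, ∏ h : H, φ ((n : F) * h * (n : F)⁻¹) a = 1 := by
    apply Finset.prod_eq_one
    intro n _
    have : ∀ h : H, φ ((n : F) * h * (n : F)⁻¹) a = φ (n : F) (φ (h : F) (φ (n : F)⁻¹ a)) := by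
      intro h; rw [map_mul, map_mul]; rfl
    simp_rw [this]
    rw [← map_prod, hTH, map_one]
  have hP2 : ∏ n : N, ∏ h : H, φ ((n : F) * h * (n : F)⁻¹) a
      = a ^ (Nat.card N) * ∏ f ∈ Finset.univ.filter (fun f : F => ¬ f ∈ N), φ f a := by
    have h1 : ∀ n : N, ∏ h : H, φ ((n : F) * h * (n : F)⁻¹) a
        = a * ∏ h ∈ Finset.univ.erase (1 : H), φ ((n : F) * h * (n : F)⁻¹) a := by
      intro n
      rw [← Finset.mul_prod_erase Finset.univ _ (Finset.mem_univ (1 : H))]
      simp
    simp_rw [h1]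
    rw [Finset.prod_mul_distrib, Finset.prod_const, Finset.card_univ, ← Nat.card_eq_fintype_card]
    congr 1
    rw [← Finset.prod_product']
    apply Finset.prod_bij (fun (x : N × H) _ => (x.1 : F) * x.2 * (x.1 : F)⁻¹)
    · rintro ⟨n, h⟩ hx
      simp only [Finset.mem_product, Finset.mem_univ, true_and, Finset.mem_erase, ne_eq, and_true] at hx
      simp only [Finset.mem_filter, Finset.mem_univ, true_and]
      intro hmem
      have h2 : (h : F) ∈ N := by
        have := hNn.conj_mem _ hmem (n : F)⁻¹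
        simpa [mul_assoc] using this
      have h3 := hdisj _ h2 h.2
      exact hx (Subtype.ext h3)
    · rintro ⟨n, h⟩ hx ⟨m, k⟩ hy heq
      simp only [Finset.mem_product, Finset.mem_univ, true_and, Finset.mem_erase, ne_eq, and_true] at hx hy
      simp only at heq
      have hg : ((m : F)⁻¹ * n)⁻¹ * (k : F) * ((m : F)⁻¹ * n) = h := by
        have : (k : F) = (m : F)⁻¹ * ((n : F) * h * (n : F)⁻¹) * m := by
          rw [heq]; group
        rw [this]; group
      have hk1 : (k : F) ≠ 1 := fun h1 => hy (Subtype.ext h1)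
      have hmemH : (m : F)⁻¹ * n ∈ H :=
        Cfsg.Agent.Lib.Lead.frob_TI H hH _ (k : F) k.2 hk1 (by rw [hg]; exact h.2)
      have hmemN : (m : F)⁻¹ * n ∈ N := N.mul_mem (N.inv_mem m.2) n.2
      have h1 := hdisj _ hmemN hmemH
      have hnm : (n : F) = m := by
        have : (n : F) = m * ((m : F)⁻¹ * n) := by group
        rw [this, h1, mul_one]
      have hhk : (h : F) = k := by
        rw [hnm] at heq
        have := mul_right_cancel heq
        exact mul_left_cancel this
      exact Prod.ext (Subtype.ext hnm) (Subtype.ext hhk)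
    · intro f hf
      simp only [Finset.mem_filter, Finset.mem_univ, true_and] at hf
      have hfK : f ∉ Cfsg.frobeniusKernel H := by
        rw [← hN]; exact hf
      rw [Cfsg.Agent.Lib.Lead.frob_mem_kernel_iff] at hfK
      push Not at hfK
      obtain ⟨hf1, g, hg⟩ := hfK
      obtain ⟨n, h', hnh⟩ : ∃ n : N, ∃ h' : H, (n : F) * h' = g := by
        have := hc.mul_eq
        have hg' : g ∈ (N : Set F) * (H : Set F) := by rw [this]; trivial
        obtain ⟨x, hx, y, hy, hxy⟩ := Set.mem_mul.mp hg'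
        exact ⟨⟨x, hx⟩, ⟨y, hy⟩, hxy⟩
      have hmem : (n : F)⁻¹ * f * n ∈ H := by
        have h2 : (n : F)⁻¹ * f * n = h' * (g⁻¹ * f * g) * (h' : F)⁻¹ := by
          rw [← hnh]; group
        rw [h2]
        exact H.mul_mem (H.mul_mem h'.2 hg) (H.inv_mem h'.2)
      refine ⟨(n, ⟨_, hmem⟩), ?_, ?_⟩
      · simp only [Finset.mem_product, Finset.mem_univ, true_and, Finset.mem_erase, ne_eq, and_true]
        intro h1
        have h2 : (n : F)⁻¹ * f * n = 1 := congrArg Subtype.val h1
        apply hf1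
        have : f = n * ((n : F)⁻¹ * f * n) * (n : F)⁻¹ := by group
        rw [this, h2]; group
      · simp only; group
    · intro x _; rfl
  rw [hP1, hout, mul_one] at hP2
  have hA : a ^ (Nat.card A) = 1 := pow_card_eq_one'
  have h1 : orderOf a ∣ Nat.card A := orderOf_dvd_of_pow_eq_one hA
  have h2 : orderOf a ∣ Nat.card N := orderOf_dvd_of_pow_eq_one hP2.symm
  have h3 : orderOf a = 1 := Nat.eq_one_of_dvd_coprimes hcop h1 h2
  exact orderOf_eq_one_iff.mp h3

end Cfsg.Agent.Lib.Helper1
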