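import Mathlib
import Cfsg.Agent.Lib.Lead.Coprime
import Cfsg.Agent.Lib.Lead.Charac
import Cfsg.Agent.Lib.Helper6.Comm
import Cfsg.Agent.Lib.Helper1.Abel

set_option autoImplicit false

namespace Cfsg.Agent.Lib.Helper1

/-- Maschke-type averaging: an invariant complemented subgroup of an abelian group under a coprime
action has an invariant complement. -/
theorem mk_abstract {A V : Type*} [Group A] [Finite A] [CommGroup V] [Finite V]
    (act : A → V →* V) (hmul : ∀ a b v, act (a * b) v = act a (act b v))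
    (hone : ∀ v, act 1 v = v) (hcop : (Nat.card A).Coprime (Nat.card V))
    (U W : Subgroup V) (hU : ∀ a, ∀ u ∈ U, act a u ∈ U) (hUW : U ⊓ W = ⊥) (hsup : U ⊔ W = ⊤) :
    ∃ W' : Subgroup V, (∀ a, ∀ w ∈ W', act a w ∈ W') ∧ U ⊓ W' = ⊥ ∧ U ⊔ W' = ⊤ := by
  classical
  rcases Nat.lt_or_ge 1 (Nat.card V) with hV1 | hV1
  · haveI : Fintype A := Fintype.ofFinite A
    obtain ⟨m, -, hm⟩ := Nat.exists_mul_mod_eq_one_of_coprime hcop hV1
    have hpow : ∀ v : V, v ^ (Nat.card A * m) = v := by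
      intro v
      have h1 := Nat.div_add_mod (Nat.card A * m) (Nat.card V)
      rw [hm] at h1
      rw [← h1, pow_add, pow_mul, pow_card_eq_one', one_pow, one_mul, pow_one]
    have dec : ∀ v : V, ∃ u ∈ U, ∃ w ∈ W, u * w = v := by
      intro v
      have hv : v ∈ U ⊔ W := by rw [hsup]; trivial
      exact Subgroup.mem_sup.mp hv
    obtain ⟨π, hπ⟩ : ∃ π : V → V, ∀ v, π v ∈ U ∧ ∃ w ∈ W, π v * w = v :=
      ⟨fun v => Classical.choose (dec v), fun v => Classical.choose_spec (dec v)⟩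
    have uniq : ∀ (v u w : V), u ∈ U → w ∈ W → u * w = v → π v = u := by
      intro v u w hu hw huw
      obtain ⟨h1, w', hw', h2⟩ := hπ v
      have h3 : (π v)⁻¹ * u ∈ U ⊓ W := by
        refine Subgroup.mem_inf.mpr ⟨U.mul_mem (U.inv_mem h1) hu, ?_⟩
        have e : (π v)⁻¹ * u = w' * w⁻¹ := by
          have e1 : π v * w' = u * w := h2.trans huw.symm
          calc (π v)⁻¹ * u = (π v)⁻¹ * (u * w) * w⁻¹ := by group
            _ = (π v)⁻¹ * (π v * w') * w⁻¹ := by rw [e1]
            _ = w' * w⁻¹ := by group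
        rw [e]; exact W.mul_mem hw' (W.inv_mem hw)
      rw [hUW, Subgroup.mem_bot] at h3
      exact (inv_mul_eq_one.mp h3)
    have πmul : ∀ v v', π (v * v') = π v * π v' := by
      intro v v'
      obtain ⟨h1, w, hw, h2⟩ := hπ v
      obtain ⟨h1', w', hw', h2'⟩ := hπ v'
      apply uniq (v * v') (π v * π v') (w * w') (U.mul_mem h1 h1') (W.mul_mem hw hw')
      calc π v * π v' * (w * w') = (π v * w) * (π v' * w') := mul_mul_mul_comm (π v) (π v') w w'
        _ = v * v' := by rw [h2, h2']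
    have πU : ∀ u ∈ U, π u = u := fun u hu => uniq u u 1 hu W.one_mem (mul_one u)
    obtain ⟨πh, hπh⟩ : ∃ πh : V →* V, ∀ v, πh v = π v := ⟨MonoidHom.mk' π πmul, fun v => rfl⟩
    obtain ⟨Θ, hΘ⟩ : ∃ Θ : V →* V, ∀ v, Θ v = ∏ a : A, act a⁻¹ (π (act a v)) :=
      ⟨∏ a : A, (act a⁻¹).comp (πh.comp (act a)), fun v => by
        rw [MonoidHom.finset_prod_apply]
        apply Finset.prod_congr rfl
        intro a _
        simp [hπh]⟩
    have hΘU : ∀ v, Θ v ∈ U := by
      intro v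
      rw [hΘ]
      apply Subgroup.prod_mem
      intro a _
      exact hU _ _ (hπ _).1
    have hinv : ∀ (a : A) (v : V), act a⁻¹ (act a v) = v := by
      intro a v
      rw [← hmul, inv_mul_cancel, hone]
    have hΘu : ∀ u ∈ U, Θ u = u ^ Nat.card A := by
      intro u hu
      rw [hΘ]
      have h1 : ∀ a : A, act a⁻¹ (π (act a u)) = u := by
        intro a
        rw [πU _ (hU a u hu), hinv]
      simp only [h1]
      rw [Finset.prod_const, Finset.card_univ, Nat.card_eq_fintype_card]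
    have hΘeq : ∀ (b : A) (v : V), Θ (act b v) = act b (Θ v) := by
      intro b v
      rw [hΘ, hΘ, map_prod]
      have h1 : ∀ a : A, act a⁻¹ (π (act a (act b v)))
          = act b (act (a * b)⁻¹ (π (act (a * b) v))) := by
        intro a
        rw [← hmul, ← hmul, mul_inv_rev, ← mul_assoc, mul_inv_cancel, one_mul]
      simp only [h1]
      exact Fintype.prod_equiv (Equiv.mulRight b) _ _ (fun a => rfl)
    obtain ⟨θ, hθ⟩ : ∃ θ : V →* V, ∀ v, θ v = (Θ v) ^ m := ⟨Θ ^ m, fun v => rfl⟩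
    have hθU : ∀ v, θ v ∈ U := fun v => by rw [hθ]; exact U.pow_mem (hΘU v) m
    have hθu : ∀ u ∈ U, θ u = u := by
      intro u hu
      rw [hθ, hΘu u hu, ← pow_mul, hpow]
    have hθeq : ∀ (b : A) (v : V), θ (act b v) = act b (θ v) := by
      intro b v
      rw [hθ, hθ, hΘeq, map_pow]
    refine ⟨θ.ker, ?_, ?_, ?_⟩
    · intro a w hw
      rw [MonoidHom.mem_ker] at hw ⊢
      rw [hθeq, hw, map_one]
    · rw [eq_bot_iff]
      intro x hx
      obtain ⟨hxU, hxk⟩ := Subgroup.mem_inf.mp hx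
      rw [MonoidHom.mem_ker, hθu x hxU] at hxk
      rw [Subgroup.mem_bot]; exact hxk
    · rw [eq_top_iff]
      intro v _
      have h1 : v = θ v * ((θ v)⁻¹ * v) := by group
      rw [h1]
      apply Subgroup.mul_mem_sup (hθU v)
      rw [MonoidHom.mem_ker, map_mul, map_inv, hθu _ (hθU v), inv_mul_cancel]
  · haveI : Subsingleton V := by
      have h1 : Nat.card V = 1 := le_antisymm hV1 Nat.card_pos
      exact (Nat.card_eq_one_iff_unique.mp h1).1
    refine ⟨⊤, fun a w _ => Subgroup.mem_top _, ?_, ?_⟩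
    · rw [inf_top_eq]; exact Subsingleton.elim _ _
    · rw [sup_top_eq]

/-- subgroup form: the statement of the coprime-complement lemma inside an ambient group. -/
theorem mk_subgroup {G : Type*} [Group G] [Finite G] (V A U : Subgroup G)
    (hVc : ∀ x ∈ V, ∀ y ∈ V, x * y = y * x)
    (hAV : A ≤ Subgroup.normalizer (V : Set G)) (hcop : (Nat.card A).Coprime (Nat.card V))
    (hUV : U ≤ V) (hAU : A ≤ Subgroup.normalizer (U : Set G)) (W : Subgroup G) (hWV : W ≤ V)
    (hUW : U ⊓ W = ⊥) (hUWV : U ⊔ W = V) :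
    ∃ W' : Subgroup G, W' ≤ V ∧ A ≤ Subgroup.normalizer (W' : Set G) ∧ U ⊓ W' = ⊥ ∧
      U ⊔ W' = V := by
  letI : CommGroup V := { (inferInstance : Group V) with
    mul_comm := fun a b => Subtype.ext (hVc a a.2 b b.2) }
  obtain ⟨act, hact⟩ : ∃ act : A → V →* V, ∀ (a : A) (v : V), ((act a v : V) : G) = a * v * a⁻¹ :=
    ⟨fun a => (Cfsg.Agent.Lib.Lead.conjNormalizer V a (hAV a.2)).toMonoidHom, fun a v => rfl⟩
  have hWn : W ≤ Subgroup.normalizer (U : Set G) := by
    intro w hw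
    apply Cfsg.Agent.Lib.Helper6.mem_normalizer_of_conj_mem
    intro d hd
    have e : w * d * w⁻¹ = d := by rw [hVc w (hWV hw) d (hUV hd)]; group
    rw [e]; exact hd
  have key := mk_abstract act
    (fun a b v => Subtype.ext (by rw [hact, hact, hact]; simp [mul_assoc]))
    (fun v => Subtype.ext (by rw [hact]; simp)) hcop (U.subgroupOf V) (W.subgroupOf V)
    (fun a u hu => by
      rw [Subgroup.mem_subgroupOf] at hu ⊢
      rw [hact]
      exact (Subgroup.mem_normalizer_iff.mp (hAU a.2) _).mp hu)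
    (by
      rw [eq_bot_iff]
      intro x hx
      obtain ⟨h1, h2⟩ := Subgroup.mem_inf.mp hx
      rw [Subgroup.mem_subgroupOf] at h1 h2
      have h3 : (x : G) ∈ U ⊓ W := Subgroup.mem_inf.mpr ⟨h1, h2⟩
      rw [hUW, Subgroup.mem_bot] at h3
      rw [Subgroup.mem_bot]
      exact Subtype.ext h3)
    (by
      rw [eq_top_iff]
      intro x _
      have hx : (x : G) ∈ U ⊔ W := by rw [hUWV]; exact x.2
      obtain ⟨u, hu, w, hw, huw⟩ := Cfsg.Agent.Lib.Lead.mem_sup_of_le_normalizer hWn hx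
      have e : x = (⟨u, hUV hu⟩ : V) * ⟨w, hWV hw⟩ := Subtype.ext huw
      rw [e]
      exact Subgroup.mul_mem_sup (by rw [Subgroup.mem_subgroupOf]; exact hu)
        (by rw [Subgroup.mem_subgroupOf]; exact hw))
  obtain ⟨W'', hW1, hW2, hW3⟩ := key
  refine ⟨W''.map V.subtype, Subgroup.map_subtype_le _, ?_, ?_, ?_⟩
  · intro a ha
    apply Cfsg.Agent.Lib.Helper6.mem_normalizer_of_conj_mem
    rintro _ ⟨w, hw, rfl⟩
    refine ⟨act ⟨a, ha⟩ w, hW1 ⟨a, ha⟩ w hw, ?_⟩
    rw [Subgroup.coe_subtype, hact]; rfl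
  · rw [eq_bot_iff]
    rintro x hx
    obtain ⟨hxU, w, hw, rfl⟩ := Subgroup.mem_inf.mp hx
    have h1 : w ∈ U.subgroupOf V ⊓ W'' :=
      Subgroup.mem_inf.mpr ⟨by rw [Subgroup.mem_subgroupOf]; exact hxU, hw⟩
    rw [hW2, Subgroup.mem_bot] at h1
    rw [h1, Subgroup.mem_bot]; rfl
  · apply le_antisymm
    · exact sup_le hUV (Subgroup.map_subtype_le _)
    · intro v hv
      have h1 : (⟨v, hv⟩ : V) ∈ U.subgroupOf V ⊔ W'' := by rw [hW3]; trivial
      obtain ⟨u, hu, w, hw, huw⟩ := Subgroup.mem_sup.mp h1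
      have e : v = (u : G) * (w : G) := by
        have := congrArg Subtype.val huw
        simpa using this.symm
      rw [e]
      exact Subgroup.mul_mem_sup (by rw [Subgroup.mem_subgroupOf] at hu; exact hu)
        ⟨w, hw, rfl⟩

end Cfsg.Agent.Lib.Helper1
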