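import Mathlib

set_option autoImplicit false

namespace Cfsg.Agent.Lib.Helper1

/-- A Sylow `s`-subgroup has order `s` when `s` divides the group order exactly once. -/
theorem sylow_card_eq_prime {G : Type*} [Group G] [Finite G] (s : ℕ) [Fact s.Prime]
    (h1 : s ∣ Nat.card G) (h2 : ¬ s ^ 2 ∣ Nat.card G) (S : Sylow s G) :
    Nat.card (S : Subgroup G) = s := by
  obtain ⟨k, hk⟩ := (IsPGroup.iff_card.mp S.isPGroup')
  have h3 : s ∣ Nat.card S := S.dvd_card_of_dvd_card h1
  have h4 : Nat.card S ∣ Nat.card G := Subgroup.card_subgroup_dvd_card _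
  have hs : s.Prime := Fact.out
  rw [hk] at h3 h4 ⊢
  have hk1 : k ≠ 0 := by
    rintro rfl
    rw [pow_zero] at h3
    exact hs.one_lt.ne' (Nat.dvd_one.mp h3)
  have hk2 : k < 2 := by
    by_contra hk2
    push Not at hk2
    exact h2 ((pow_dvd_pow s hk2).trans h4)
  have : k = 1 := by omega
  rw [this, pow_one]

/-- A normal `p`-subgroup lies in every Sylow `p`-subgroup. -/
theorem normal_le_sylow {G : Type*} [Group G] [Finite G] {p : ℕ} [Fact p.Prime]
    (N : Subgroup G) [N.Normal] (hN : IsPGroup p N) (S : Sylow p G) : N ≤ (S : Subgroup G) := by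
  obtain ⟨Q, hQ⟩ := hN.exists_le_sylow
  obtain ⟨g, hg⟩ := MulAction.exists_smul_eq G Q S
  intro x hx
  rw [← hg, Sylow.coe_subgroup_smul]
  have h1 : g⁻¹ * x * g ∈ N := by
    have := Subgroup.Normal.conj_mem (inferInstance : N.Normal) x hx g⁻¹
    simpa using this
  have h2 := Subgroup.smul_mem_pointwise_smul _ (MulAut.conj g) _ (hQ h1)
  have e : MulAut.conj g • (g⁻¹ * x * g) = x := by
    simp [MulAut.smul_def, mul_assoc]
  rw [e] at h2
  exact h2

end Cfsg.Agent.Lib.Helper1
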