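import Mathlib
import Cfsg.Prelude.Def_SolvableStructure
import Cfsg.Agent.Lib.Helper1.Supersolvable
import Cfsg.Agent.Lib.Helper1.Supersolvable2
import Cfsg.Agent.Lib.Helper1.SylowCard
import Cfsg.Agent.Lib.Lead.Hall

set_option autoImplicit false

namespace Cfsg.Agent.Lib.Helper1

universe u

/-- in a supersolvable group there is a normal subgroup whose order is the largest prime
divisor of the group order -/
theorem exists_normal_card_eq_of_largest_aux (p : ℕ) (hp : p.Prime) :
    ∀ (N : ℕ) (G : Type u) [Group G] [Finite G], Nat.card G ≤ N → Cfsg.IsSupersolvable G →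
      p ∣ Nat.card G → (∀ q : ℕ, q.Prime → q ∣ Nat.card G → q ≤ p) →
      ∃ C : Subgroup G, C.Normal ∧ Nat.card C = p := by
  intro N
  induction N with
  | zero =>
    intro G _ _ hn
    exact absurd hn (by have := Nat.card_pos (α := G); omega)
  | succ N ih =>
    intro G _ _ hn hG hpd hmax
    have hnt : Nontrivial G := by
      by_contra hnt
      rw [not_nontrivial_iff_subsingleton] at hnt
      have h1 : Nat.card G = 1 := Nat.card_eq_one_iff_unique.mpr ⟨hnt, ⟨1⟩⟩
      rw [h1, Nat.dvd_one] at hpd
      exact hp.one_lt.ne' hpd
    obtain ⟨C, hCn, hCp⟩ := exists_normal_prime_of_isSupersolvable hG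
    have hq := hmax _ hCp (Subgroup.card_subgroup_dvd_card C)
    rcases eq_or_lt_of_le hq with heq | hlt
    · exact ⟨C, hCn, heq⟩
    · have hcard := Subgroup.card_eq_card_quotient_mul_card_subgroup C
      have hle : Nat.card (G ⧸ C) ≤ N := by
        have h2 := hCp.two_le
        have hpos := Nat.card_pos (α := G ⧸ C)
        nlinarith
      have hcop : Nat.Coprime p (Nat.card C) := (Nat.coprime_primes hp hCp).mpr hlt.ne'
      have hpd' : p ∣ Nat.card (G ⧸ C) := by
        rw [hcard] at hpd
        exact hcop.dvd_of_dvd_mul_right hpd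
      have hmax' : ∀ q : ℕ, q.Prime → q ∣ Nat.card (G ⧸ C) → q ≤ p := by
        intro q hq hqd
        exact hmax q hq (by rw [hcard]; exact Dvd.dvd.mul_right hqd _)
      obtain ⟨Db, hDbn, hDbp⟩ := ih (G ⧸ C) hle (isSupersolvable_quotient C hG) hpd' hmax'
      obtain ⟨D, hD⟩ : ∃ D : Subgroup G, D = Db.comap (QuotientGroup.mk' C) := ⟨_, rfl⟩
      have hDn : D.Normal := by rw [hD]; exact Subgroup.Normal.comap hDbn _
      have hDcard : Nat.card D = Nat.card C * p := by
        rw [hD, Cfsg.Agent.Lib.Lead.card_comap_mk, hDbp]
      have : Fact p.Prime := ⟨hp⟩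
      obtain ⟨P⟩ := (inferInstance : Nonempty (Sylow p D))
      have hPcard : Nat.card (P : Subgroup D) = p := by
        apply sylow_card_eq_prime p
        · rw [hDcard]; exact dvd_mul_left _ _
        · rw [hDcard, pow_two]
          intro h
          have := Nat.dvd_of_mul_dvd_mul_right hp.pos h
          exact (Nat.le_of_dvd hCp.pos this).not_gt hlt
      have hidx : (P : Subgroup D).index = Nat.card C := by
        have := Subgroup.index_mul_card (P : Subgroup D)
        rw [hPcard, hDcard] at this
        exact Nat.eq_of_mul_eq_mul_right hp.pos this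
      have hone : Nat.card (Sylow p D) = 1 := by
        have h1 := card_sylow_modEq_one p D
        have h2 := Sylow.card_dvd_index P
        rw [hidx] at h2
        have h3 := Nat.le_of_dvd hCp.pos h2
        have h4 : Nat.card (Sylow p D) < p := lt_of_le_of_lt h3 hlt
        have h5 : Nat.card (Sylow p D) % p = 1 % p := h1
        rw [Nat.mod_eq_of_lt h4, Nat.mod_eq_of_lt hp.one_lt] at h5
        exact h5
      have : Subsingleton (Sylow p D) := (Nat.card_eq_one_iff_unique.mp hone).1
      have := hDn
      have : (P : Subgroup D).Characteristic := Sylow.characteristic_of_subsingleton P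
      refine ⟨(P : Subgroup D).map D.subtype, ConjAct.normal_of_characteristic_of_normal, ?_⟩
      rw [Subgroup.card_map_of_injective D.subtype_injective, hPcard]

theorem exists_prime_chain_aux : ∀ (N : ℕ) (G : Type u) [Group G] [Finite G], Nat.card G ≤ N →
    Cfsg.IsSupersolvable G → ∃ (n : ℕ) (H : Fin (n + 1) → Subgroup G),
      H 0 = ⊥ ∧ H (Fin.last n) = ⊤ ∧ (∀ i, (H i).Normal) ∧
      (∀ i : Fin n, H i.castSucc ≤ H i.succ ∧ ((H i.castSucc).relIndex (H i.succ)).Prime) ∧
      ∀ i j : Fin n, i ≤ j →
        (H j.castSucc).relIndex (H j.succ) ≤ (H i.castSucc).relIndex (H i.succ) := by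
  intro N
  induction N with
  | zero =>
    intro G _ _ hn
    exact absurd hn (by have := Nat.card_pos (α := G); omega)
  | succ N ih =>
    intro G _ _ hn hG
    by_cases hnt : Nontrivial G
    · have h1 : 1 < Nat.card G := Finite.one_lt_card
      have hne : (Nat.card G).primeFactors.Nonempty := Nat.nonempty_primeFactors.mpr h1
      obtain ⟨p, hp⟩ : ∃ p, p = (Nat.card G).primeFactors.max' hne := ⟨_, rfl⟩
      have hpmem : p ∈ (Nat.card G).primeFactors := by rw [hp]; exact Finset.max'_mem _ _
      have hpp : p.Prime := (Nat.mem_primeFactors.mp hpmem).1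
      have hpd : p ∣ Nat.card G := (Nat.mem_primeFactors.mp hpmem).2.1
      have hmax : ∀ q : ℕ, q.Prime → q ∣ Nat.card G → q ≤ p := by
        intro q hq hqd
        rw [hp]
        exact Finset.le_max' _ _ (Nat.mem_primeFactors.mpr ⟨hq, hqd, (Nat.card_pos).ne'⟩)
      obtain ⟨C, hCn, hCp⟩ :=
        exists_normal_card_eq_of_largest_aux p hpp (Nat.card G) G le_rfl hG hpd hmax
      have := hCn
      have hcard := Subgroup.card_eq_card_quotient_mul_card_subgroup C
      have hle : Nat.card (G ⧸ C) ≤ N := by
        have h2 := hpp.two_le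
        have hpos := Nat.card_pos (α := G ⧸ C)
        rw [hCp] at hcard
        nlinarith
      obtain ⟨n, Hb, h0, hlast, hnorm, hstep, hmono⟩ :=
        ih (G ⧸ C) hle (isSupersolvable_quotient C hG)
      have hsurj := QuotientGroup.mk'_surjective C
      have hrel : ∀ A B : Subgroup (G ⧸ C), (A.comap (QuotientGroup.mk' C)).relIndex
          (B.comap (QuotientGroup.mk' C)) = A.relIndex B := by
        intro A B
        rw [Subgroup.relIndex_comap, Subgroup.map_comap_eq_self_of_surjective hsurj]
      have hzero : (⊥ : Subgroup G).relIndex ((Hb 0).comap (QuotientGroup.mk' C)) = p := by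
        rw [Subgroup.relIndex_bot_left, h0, MonoidHom.comap_bot, QuotientGroup.ker_mk', hCp]
      have hsmall : ∀ k : Fin n, (Hb k.castSucc).relIndex (Hb k.succ) ≤ p := by
        intro k
        apply hmax _ (hstep k).2
        have h1 : (Hb k.castSucc).relIndex (Hb k.succ) ∣ Nat.card (Hb k.succ) :=
          Subgroup.relIndex_dvd_card _ _
        have h2 : Nat.card (Hb k.succ) ∣ Nat.card (G ⧸ C) := Subgroup.card_subgroup_dvd_card _
        rw [hcard]
        exact Dvd.dvd.mul_right (h1.trans h2) _
      refine ⟨n + 1, Fin.cons ⊥ (fun i => (Hb i).comap (QuotientGroup.mk' C)), ?_, ?_, ?_, ?_, ?_⟩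
      · rw [Fin.cons_zero]
      · rw [← Fin.succ_last, Fin.cons_succ, hlast, Subgroup.comap_top]
      · intro i
        induction i using Fin.cases with
        | zero => rw [Fin.cons_zero]; exact Subgroup.normal_bot
        | succ k => rw [Fin.cons_succ]; exact Subgroup.Normal.comap (hnorm k) _
      · intro i
        induction i using Fin.cases with
        | zero =>
          simp only [Fin.castSucc_zero, Fin.cons_zero, Fin.cons_succ]
          exact ⟨bot_le, by rw [hzero]; exact hpp⟩
        | succ k =>
          simp only [← Fin.succ_castSucc, Fin.cons_succ]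
          rw [hrel]
          exact ⟨Subgroup.comap_mono (hstep k).1, (hstep k).2⟩
      · intro i j hij
        induction i using Fin.cases with
        | zero =>
          induction j using Fin.cases with
          | zero => exact le_rfl
          | succ l =>
            simp only [Fin.castSucc_zero, Fin.cons_zero, Fin.cons_succ, ← Fin.succ_castSucc]
            rw [hrel, hzero]
            exact hsmall l
        | succ k =>
          induction j using Fin.cases with
          | zero => exact absurd hij (by simp)
          | succ l =>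
            simp only [← Fin.succ_castSucc, Fin.cons_succ]
            rw [hrel, hrel]
            exact hmono k l (Fin.succ_le_succ_iff.mp hij)
    · rw [not_nontrivial_iff_subsingleton] at hnt
      refine ⟨0, fun _ => ⊥, rfl, ?_, fun _ => Subgroup.normal_bot, fun i => i.elim0,
        fun i => i.elim0⟩
      symm
      rw [Subgroup.eq_bot_iff_forall]
      intro x _
      exact Subsingleton.elim x 1

end Cfsg.Agent.Lib.Helper1
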