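import Mathlib
import Cfsg.Prelude.Def_SolvableStructure
import Cfsg.Agent.Lib.Lead.Nilpotent
import Cfsg.Agent.Lib.Helper6.Comm
import Cfsg.Agent.Lib.Helper1.MaxPrime
import Cfsg.Agent.Lib.Helper1.Supersolvable
import Cfsg.Agent.Lib.Helper1.Supersolvable2
import Cfsg.Agent.Lib.Helper1.Supersolvable4
import Cfsg.Agent.Lib.Helper1.MK1

set_option autoImplicit false

namespace Cfsg.Agent.Lib.Helper1

universe u

/-- a minimal nontrivial normal subgroup inside a nontrivial normal subgroup -/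
theorem hp_exists_min {G : Type*} [Group G] [Finite G] (P : Subgroup G) (hPn : P.Normal)
    (hP : P ≠ ⊥) : ∃ N : Subgroup G, N.Normal ∧ N ≠ ⊥ ∧ N ≤ P ∧
      ∀ K : Subgroup G, K.Normal → K ≤ N → K ≠ ⊥ → K = N := by
  obtain ⟨N, hN, hmin⟩ := Set.exists_min_image {K : Subgroup G | K.Normal ∧ K ≠ ⊥ ∧ K ≤ P}
    (fun K => Nat.card K) (Set.toFinite _) ⟨P, hPn, hP, le_rfl⟩
  refine ⟨N, hN.1, hN.2.1, hN.2.2, ?_⟩
  intro K hKn hKN hK
  exact Subgroup.eq_of_le_of_card_ge hKN (hmin K ⟨hKn, hK, hKN.trans hN.2.2⟩)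

theorem hp_central {G : Type*} [Group G] [Finite G] {p : ℕ} [Fact p.Prime] (P : Sylow p G)
    (hPn : (P : Subgroup G).Normal) (N : Subgroup G) (hNn : N.Normal) (hN : N ≠ ⊥)
    (hNP : N ≤ P) (hmin : ∀ K : Subgroup G, K.Normal → K ≤ N → K ≠ ⊥ → K = N) :
    ∀ n ∈ N, ∀ x ∈ (P : Subgroup G), n * x = x * n := by
  haveI := hPn
  haveI := hNn
  haveI : Group.IsNilpotent (P : Subgroup G) := P.isPGroup'.isNilpotent
  have h1 : N.subgroupOf (P : Subgroup G) ≠ ⊥ := by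
    intro h
    obtain ⟨⟨n, hn⟩, hn1⟩ := Subgroup.ne_bot_iff_exists_ne_one.mp hN
    have h2 : (⟨n, hNP hn⟩ : (P : Subgroup G)) ∈ N.subgroupOf (P : Subgroup G) := hn
    rw [h, Subgroup.mem_bot] at h2
    have h3 : n = 1 := congrArg Subtype.val h2
    exact hn1 (Subtype.ext h3)
  have h2 := Cfsg.Agent.Lib.Lead.normal_inf_center_ne_bot (N.subgroupOf (P : Subgroup G)) h1
  obtain ⟨⟨z, hz⟩, hz1⟩ := Subgroup.ne_bot_iff_exists_ne_one.mp h2
  obtain ⟨hzN, hzc⟩ := Subgroup.mem_inf.mp hz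
  have hK : N ⊓ ((P : Subgroup G) ⊓ Subgroup.centralizer ((P : Subgroup G) : Set G)) = N := by
    apply hmin
    · infer_instance
    · exact inf_le_left
    · intro h
      have h3 : (z : G) ∈
          N ⊓ ((P : Subgroup G) ⊓ Subgroup.centralizer ((P : Subgroup G) : Set G)) := by
        refine Subgroup.mem_inf.mpr ⟨hzN, Subgroup.mem_inf.mpr ⟨z.2, ?_⟩⟩
        rw [Subgroup.mem_centralizer_iff]
        intro y hy
        have := Subgroup.mem_center_iff.mp hzc ⟨y, hy⟩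
        exact congrArg Subtype.val this
      rw [h, Subgroup.mem_bot] at h3
      exact hz1 (Subtype.ext (Subtype.ext h3))
  intro n hn x hx
  have h4 : n ∈ N ⊓ ((P : Subgroup G) ⊓ Subgroup.centralizer ((P : Subgroup G) : Set G)) := by
    rw [hK]; exact hn
  have h5 := (Subgroup.mem_inf.mp (Subgroup.mem_inf.mp h4).2).2
  rw [Subgroup.mem_centralizer_iff] at h5
  exact (h5 x hx).symm

theorem hp_elem {G : Type*} [Group G] [Finite G] {p : ℕ} [Fact p.Prime]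
    (N : Subgroup G) (hNn : N.Normal) (hpN : p ∣ Nat.card N)
    (hNc : ∀ n ∈ N, ∀ x ∈ N, n * x = x * n)
    (hmin : ∀ K : Subgroup G, K.Normal → K ≤ N → K ≠ ⊥ → K = N) :
    ∀ n ∈ N, n ^ p = 1 := by
  let Ω : Subgroup G :=
    { carrier := {n | n ∈ N ∧ n ^ p = 1}
      mul_mem' := by
        rintro a b ⟨ha, ha1⟩ ⟨hb, hb1⟩
        refine ⟨N.mul_mem ha hb, ?_⟩
        rw [(show Commute a b from hNc a ha b hb).mul_pow, ha1, hb1, one_mul]
      one_mem' := ⟨N.one_mem, one_pow _⟩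
      inv_mem' := by
        rintro a ⟨ha, ha1⟩
        exact ⟨N.inv_mem ha, by rw [inv_pow, ha1, inv_one]⟩ }
  have hΩ : ∀ x, x ∈ Ω ↔ x ∈ N ∧ x ^ p = 1 := fun x => Iff.rfl
  have hΩn : Ω.Normal := by
    constructor
    intro n hn g
    rw [hΩ] at hn ⊢
    refine ⟨hNn.conj_mem n hn.1 g, ?_⟩
    rw [conj_pow, hn.2]; group
  have hΩN : Ω ≤ N := fun x hx => ((hΩ x).mp hx).1
  have hΩ1 : Ω ≠ ⊥ := by
    intro h
    obtain ⟨x, hx⟩ := exists_prime_orderOf_dvd_card' (G := N) p hpN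
    have hx1 : (x : G) ∈ Ω := by
      rw [hΩ]
      refine ⟨x.2, ?_⟩
      have := pow_orderOf_eq_one x
      rw [hx] at this
      exact congrArg Subtype.val this
    rw [h, Subgroup.mem_bot] at hx1
    have : x = 1 := Subtype.ext hx1
    rw [this, orderOf_one] at hx
    exact (Fact.out : p.Prime).one_lt.ne hx
  have := hmin Ω hΩn hΩN hΩ1
  intro n hn
  rw [← this] at hn
  exact ((hΩ n).mp hn).2

theorem hp_mem_sylow {G : Type*} [Group G] [Finite G] {p : ℕ} [Fact p.Prime] (P : Sylow p G)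
    (hPn : (P : Subgroup G).Normal) (x : G) (hx : x ^ p ∈ (P : Subgroup G)) :
    x ∈ (P : Subgroup G) := by
  haveI := hPn
  have hp : p.Prime := Fact.out
  have h1 : ((x : G ⧸ (P : Subgroup G))) ^ p = 1 := by
    rw [← QuotientGroup.mk_pow, QuotientGroup.eq_one_iff]; exact hx
  have h2 : orderOf (x : G ⧸ (P : Subgroup G)) ∣ p := orderOf_dvd_of_pow_eq_one h1
  have h3 : orderOf (x : G ⧸ (P : Subgroup G)) ∣ Nat.card (G ⧸ (P : Subgroup G)) :=
    orderOf_dvd_natCard _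
  have h4 : ¬ p ∣ Nat.card (G ⧸ (P : Subgroup G)) := by
    rw [← Subgroup.index_eq_card]; exact P.not_dvd_index
  rcases (Nat.dvd_prime hp).mp h2 with h5 | h5
  · rw [orderOf_eq_one_iff, QuotientGroup.eq_one_iff] at h5; exact h5
  · rw [h5] at h3; exact absurd h3 h4

theorem hp_dvd_quot {G : Type*} [Group G] [Finite G] {p : ℕ} [Fact p.Prime] (P : Sylow p G)
    (K : Subgroup G) [K.Normal] (x : G) (hx : x ∈ (P : Subgroup G)) (hxK : x ∉ K) :
    p ∣ Nat.card (G ⧸ K) := by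
  have hp : p.Prime := Fact.out
  obtain ⟨j, hj⟩ := P.isPGroup' ⟨x, hx⟩
  have hj' : x ^ (p ^ j) = 1 := congrArg Subtype.val hj
  have h1 : ((x : G ⧸ K)) ^ (p ^ j) = 1 := by
    rw [← QuotientGroup.mk_pow, hj']; rfl
  have h2 : orderOf (x : G ⧸ K) ∣ p ^ j := orderOf_dvd_of_pow_eq_one h1
  obtain ⟨i, hi, hi'⟩ := (Nat.dvd_prime_pow hp).mp h2
  have h3 : i ≠ 0 := by
    rintro rfl
    rw [pow_zero, orderOf_eq_one_iff, QuotientGroup.eq_one_iff] at hi'
    exact hxK hi'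
  have h4 : p ∣ orderOf (x : G ⧸ K) := by rw [hi']; exact dvd_pow_self p h3
  exact h4.trans (orderOf_dvd_natCard _)

theorem hp_cent_prime {G : Type*} [Group G] [Finite G] {p : ℕ} [Fact p.Prime]
    (C : Subgroup G) [C.Normal] (hC : Nat.card C = p) (y : G) (j : ℕ) (hy : y ^ (p ^ j) = 1)
    (c : G) (hc : c ∈ C) : y * c * y⁻¹ = c := by
  have hp : p.Prime := Fact.out
  haveI : IsCyclic C := isCyclic_of_prime_card hC
  have h1 : (MulAut.conjNormal (H := C) y) ^ (p ^ j) = 1 := by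
    rw [← map_pow, hy, map_one]
  have h2 : (MulAut.conjNormal (H := C) y) ^ (Nat.card (MulAut C)) = 1 := pow_card_eq_one'
  rw [IsCyclic.card_mulAut, hC, Nat.totient_prime hp] at h2
  have h3 : orderOf (MulAut.conjNormal (H := C) y) ∣ Nat.gcd (p ^ j) (p - 1) :=
    Nat.dvd_gcd (orderOf_dvd_of_pow_eq_one h1) (orderOf_dvd_of_pow_eq_one h2)
  have h4 : Nat.gcd (p ^ j) (p - 1) = 1 := by
    apply Nat.Coprime.pow_left
    rw [Nat.Prime.coprime_iff_not_dvd hp]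
    intro h
    have := Nat.le_of_dvd (by have := hp.two_le; omega) h
    have := hp.two_le
    omega
  rw [h4, Nat.dvd_one, orderOf_eq_one_iff] at h3
  have h5 : (MulAut.conjNormal (H := C) y) ⟨c, hc⟩ = ⟨c, hc⟩ := by rw [h3]; rfl
  have h6 := congrArg Subtype.val h5
  rw [MulAut.conjNormal_apply] at h6
  exact h6

theorem hp_T {G : Type*} [Group G] [Finite G] {p : ℕ} [Fact p.Prime] (N : Subgroup G) [N.Normal]
    (Cb : Subgroup (G ⧸ N)) (hCn : Cb.Normal) (hC : Nat.card Cb = p) :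
    ∃ T : Subgroup G, T.Normal ∧ N ≤ T ∧ ∃ t ∈ T, t ∉ N ∧ t ^ p ∈ N ∧
      (∀ x ∈ T, ∃ k : ℤ, ∃ n ∈ N, x = t ^ k * n) ∧
      (∀ (y : G) (j : ℕ), y ^ (p ^ j) = 1 → t⁻¹ * y * t * y⁻¹ ∈ N) := by
  have hp : p.Prime := Fact.out
  haveI := hCn
  have hne : Cb ≠ ⊥ := by
    intro h
    rw [h, Subgroup.card_bot] at hC
    exact hp.one_lt.ne hC
  obtain ⟨⟨cb, hcb⟩, hcb1⟩ := Subgroup.ne_bot_iff_exists_ne_one.mp hne
  obtain ⟨t, rfl⟩ := QuotientGroup.mk_surjective cb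
  refine ⟨Cb.comap (QuotientGroup.mk' N), hCn.comap _, ?_, t, hcb, ?_, ?_, ?_, ?_⟩
  · intro n hn
    rw [Subgroup.mem_comap, QuotientGroup.mk'_apply, (QuotientGroup.eq_one_iff n).mpr hn]
    exact Cb.one_mem
  · intro htN
    exact hcb1 (Subtype.ext ((QuotientGroup.eq_one_iff t).mpr htN))
  · have h1 : (⟨(t : G ⧸ N), hcb⟩ : Cb) ^ p = 1 := by
      rw [← hC]; exact pow_card_eq_one'
    have h2 := congrArg Subtype.val h1
    rw [← QuotientGroup.eq_one_iff, QuotientGroup.mk_pow]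
    exact h2
  · intro x hx
    have hx' : (x : G ⧸ N) ∈ Cb := hx
    have h1 : (⟨(x : G ⧸ N), hx'⟩ : Cb) ∈ Subgroup.zpowers (⟨(t : G ⧸ N), hcb⟩ : Cb) := by
      rw [zpowers_eq_top_of_prime_card hC hcb1]; trivial
    obtain ⟨k, hk⟩ := Subgroup.mem_zpowers_iff.mp h1
    have h2 : ((t : G ⧸ N)) ^ k = (x : G ⧸ N) := congrArg Subtype.val hk
    rw [← QuotientGroup.mk_zpow] at h2
    exact ⟨k, (t ^ k)⁻¹ * x, QuotientGroup.eq.mp h2, by group⟩
  · intro y j hy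
    have h1 := hp_cent_prime Cb hC (y : G ⧸ N) j (by rw [← QuotientGroup.mk_pow, hy]; rfl)
      (t : G ⧸ N) hcb
    have h2 : ((t : G) : G ⧸ N) = ((y * t * y⁻¹ : G) : G ⧸ N) := h1.symm
    have h3 := QuotientGroup.eq.mp h2
    have e : t⁻¹ * y * t * y⁻¹ = t⁻¹ * (y * t * y⁻¹) := by group
    rw [e]; exact h3

theorem hp_pow_zpow {G : Type*} [Group G] (t : G) (k : ℤ) (p : ℕ) :
    (t ^ k) ^ p = (t ^ p) ^ k := by
  rw [← zpow_natCast, ← zpow_mul, mul_comm, zpow_mul, zpow_natCast]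

theorem hp_case1 {G : Type*} [Group G] (P N T : Subgroup G) (hTn : T.Normal) (p : ℕ)
    (hNc : ∀ n ∈ N, ∀ x ∈ P, n * x = x * n) (hNe : ∀ n ∈ N, n ^ p = 1)
    (t : G) (htT : t ∈ T) (htP : t ∈ P)
    (hT : ∀ x ∈ T, ∃ k : ℤ, ∃ n ∈ N, x = t ^ k * n) :
    (Subgroup.zpowers (t ^ p)).Normal := by
  apply zpowers_normal_of_conj_mem
  intro g
  obtain ⟨k, n, hn, hk⟩ := hT _ (hTn.conj_mem t htT g)
  have h1 : Commute (t ^ k) n := (show Commute n (t ^ k) from hNc n hn _ (P.zpow_mem htP k)).symm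
  have e : g * t ^ p * g⁻¹ = (t ^ p) ^ k := by
    rw [← conj_pow, hk, h1.mul_pow, hNe n hn, mul_one, hp_pow_zpow]
  rw [e]
  exact Subgroup.zpow_mem_zpowers _ k

theorem hp_zpow_mem {G : Type*} [Group G] {p : ℕ} [Fact p.Prime] (N : Subgroup G) [N.Normal]
    (t : G) (htN : t ∉ N) (htp : t ^ p = 1) (k : ℤ) (h : t ^ k ∈ N) : t ^ k = 1 := by
  have ho : orderOf t = p := orderOf_eq_prime htp (fun h1 => htN (h1 ▸ N.one_mem))
  have ho' : orderOf ((t : G) : G ⧸ N) = p :=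
    orderOf_eq_prime (by rw [← QuotientGroup.mk_pow, htp]; rfl)
      (fun h1 => htN ((QuotientGroup.eq_one_iff t).mp h1))
  have h1 : ((t : G) : G ⧸ N) ^ k = 1 := by
    rw [← QuotientGroup.mk_zpow, QuotientGroup.eq_one_iff]; exact h
  rw [← orderOf_dvd_iff_zpow_eq_one, ho'] at h1
  rw [← orderOf_dvd_iff_zpow_eq_one, ho]
  exact h1

end Cfsg.Agent.Lib.Helper1
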