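import Mathlib
import Cfsg.Agent.Lib.Helper1.HP1

set_option autoImplicit false

namespace Cfsg.Agent.Lib.Helper1

universe u

theorem hp_case3 {G : Type*} [Group G] [Finite G] {p : ℕ} [Fact p.Prime] (P : Sylow p G)
    (hPn : (P : Subgroup G).Normal) (N T : Subgroup G) (hNn : N.Normal) (hTn : T.Normal)
    (hNT : N ≤ T) (hTP : T ≤ P)
    (hNc : ∀ n ∈ N, ∀ x ∈ (P : Subgroup G), n * x = x * n)
    (t : G) (htT : t ∈ T) (htN : t ∉ N) (htp : t ^ p = 1)
    (hT : ∀ x ∈ T, ∃ k : ℤ, ∃ n ∈ N, x = t ^ k * n)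
    (htc : ∀ x ∈ (P : Subgroup G), x * t = t * x) :
    ∃ L : Subgroup G, L.Normal ∧ L ≠ ⊥ ∧ IsCyclic L := by
  haveI := hPn
  haveI := hNn
  have hp : p.Prime := Fact.out
  have hPT : ∀ y ∈ (P : Subgroup G), ∀ x ∈ T, y * x = x * y := by
    intro y hy x hx
    obtain ⟨k, n, hn, rfl⟩ := hT x hx
    have h1 : Commute y (t ^ k) := (show Commute y t from htc y hy).zpow_right k
    have h2 : Commute y n := (show Commute n y from hNc n hn y hy).symm
    exact (h1.mul_right h2)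
  have hTc : ∀ x ∈ T, ∀ y ∈ T, x * y = y * x := fun x hx y hy => hPT x (hTP hx) y hy
  obtain ⟨H, hH⟩ := Subgroup.exists_right_complement'_of_coprime (N := (P : Subgroup G))
    P.card_coprime_index
  have hcop : (Nat.card H).Coprime (Nat.card T) := by
    have h1 : Nat.card H = (P : Subgroup G).index := by
      have := hH.symm.index_eq_card
      exact this.symm
    rw [h1]
    exact (Nat.Coprime.coprime_dvd_left (Subgroup.card_dvd_of_le hTP) P.card_coprime_index).symm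
  have hW1 : N ⊓ Subgroup.zpowers t = ⊥ := by
    rw [eq_bot_iff]
    intro x hx
    obtain ⟨hxN, hxt⟩ := Subgroup.mem_inf.mp hx
    obtain ⟨k, rfl⟩ := Subgroup.mem_zpowers_iff.mp hxt
    rw [Subgroup.mem_bot]
    exact hp_zpow_mem N t htN htp k hxN
  have hW2 : N ⊔ Subgroup.zpowers t = T := by
    apply le_antisymm
    · exact sup_le hNT ((Subgroup.zpowers_le).mpr htT)
    · intro x hx
      obtain ⟨k, n, hn, rfl⟩ := hT x hx
      exact Subgroup.mul_mem _ (Subgroup.mem_sup_right (Subgroup.zpow_mem_zpowers t k))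
        (Subgroup.mem_sup_left hn)
  have hHT : H ≤ Subgroup.normalizer (T : Set G) :=
    le_of_le_of_eq le_top (Subgroup.normalizer_eq_top_iff.mpr hTn).symm
  have hHN : H ≤ Subgroup.normalizer (N : Set G) :=
    le_of_le_of_eq le_top (Subgroup.normalizer_eq_top_iff.mpr hNn).symm
  obtain ⟨L, hLT, hHL, hNL, hNLT⟩ := mk_subgroup T H N hTc hHT hcop hNT hHN
    (Subgroup.zpowers t) ((Subgroup.zpowers_le).mpr htT) hW1 hW2
  have hLn : L.Normal := by
    rw [← Subgroup.normalizer_eq_top_iff, eq_top_iff, ← hH.sup_eq_top]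
    refine sup_le ?_ hHL
    intro y hy
    apply Cfsg.Agent.Lib.Helper6.mem_normalizer_of_conj_mem
    intro d hd
    have e : y * d * y⁻¹ = d := by rw [hPT y hy d (hLT hd)]; group
    rw [e]; exact hd
  have hL1 : L ≠ ⊥ := by
    intro h
    rw [h, sup_bot_eq] at hNLT
    exact htN (hNLT ▸ htT)
  have hLc : IsCyclic L := by
    let f : L →* Subgroup.zpowers ((t : G) : G ⧸ N) :=
      ((QuotientGroup.mk' N).comp L.subtype).codRestrict _ (by
        intro l
        obtain ⟨k, n, hn, hk⟩ := hT l (hLT l.2)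
        rw [Subgroup.mem_zpowers_iff]
        refine ⟨k, ?_⟩
        show ((t : G) : G ⧸ N) ^ k = ((l : G) : G ⧸ N)
        rw [hk, ← QuotientGroup.mk_zpow]
        symm
        rw [QuotientGroup.mk_mul, (QuotientGroup.eq_one_iff n).mpr hn, mul_one])
    apply isCyclic_of_injective f
    rw [injective_iff_map_eq_one]
    intro l hl
    have h1 : ((l : G) : G ⧸ N) = 1 := congrArg Subtype.val hl
    rw [QuotientGroup.eq_one_iff] at h1
    have h2 : (l : G) ∈ N ⊓ L := Subgroup.mem_inf.mpr ⟨h1, l.2⟩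
    rw [hNL, Subgroup.mem_bot] at h2
    exact Subtype.ext h2
  exact ⟨L, hLn, hL1, hLc⟩

theorem hp_case2 {G : Type*} [Group G] (P N T K R : Subgroup G)
    (hTn : T.Normal) (hRn : R.Normal) (hTP : T ≤ P) (hRP : R ≤ P)
    (hNc : ∀ n ∈ N, ∀ x ∈ P, n * x = x * n)
    (t : G) (htT : t ∈ T)
    (hT : ∀ x ∈ T, ∃ k : ℤ, ∃ n ∈ N, x = t ^ k * n)
    (hd : ∀ y ∈ P, t⁻¹ * y * t * y⁻¹ ∈ N)
    (hK : ∀ k ∈ K, k ∈ P ∧ t * k = k * t)
    (r : G) (hrR : r ∈ R)
    (hR : ∀ y ∈ R, ∃ j : ℤ, ∃ k ∈ K, y = r ^ j * k) :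
    (Subgroup.zpowers (t⁻¹ * r * t * r⁻¹)).Normal := by
  have htP := hTP htT
  have hrP := hRP hrR
  let D : P →* G := MonoidHom.mk' (fun y => t⁻¹ * (y : G) * t * (y : G)⁻¹) (by
    intro a b
    have h1 : Commute (t⁻¹ * (b : G) * t * (b : G)⁻¹) (a : G) := hNc _ (hd b b.2) a a.2
    have h2 := h1.inv_right.eq
    show t⁻¹ * ((a : G) * (b : G)) * t * ((a : G) * (b : G))⁻¹ =
      t⁻¹ * (a : G) * t * (a : G)⁻¹ * (t⁻¹ * (b : G) * t * (b : G)⁻¹)
    calc t⁻¹ * ((a : G) * (b : G)) * t * ((a : G) * (b : G))⁻¹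
        = t⁻¹ * (a : G) * t * (t⁻¹ * (b : G) * t * (b : G)⁻¹ * (a : G)⁻¹) := by group
      _ = t⁻¹ * (a : G) * t * ((a : G)⁻¹ * (t⁻¹ * (b : G) * t * (b : G)⁻¹)) := by rw [h2]
      _ = _ := by group)
  have hDr : ∀ j : ℤ, t⁻¹ * r ^ j * t * (r ^ j)⁻¹ = (t⁻¹ * r * t * r⁻¹) ^ j := by
    intro j
    have h1 := map_zpow D ⟨r, hrP⟩ j
    have e : ((⟨r, hrP⟩ : P) ^ j : P) = ⟨r ^ j, P.zpow_mem hrP j⟩ :=
      Subtype.ext (Subgroup.coe_zpow _ _ _)
    rw [e] at h1
    exact h1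
  apply zpowers_normal_of_conj_mem
  intro g
  obtain ⟨i, n, hn, hgt⟩ := hT _ (hTn.conj_mem t htT g)
  obtain ⟨j, k, hk, hgr⟩ := hR _ (hRn.conj_mem r hrR g)
  have hyP : r ^ j * k ∈ P := P.mul_mem (P.zpow_mem hrP j) (hK k hk).1
  have hdy : t⁻¹ * (r ^ j * k) * t * (r ^ j * k)⁻¹ = (t⁻¹ * r * t * r⁻¹) ^ j := by
    have h1 : t * k = k * t := (hK k hk).2
    calc t⁻¹ * (r ^ j * k) * t * (r ^ j * k)⁻¹
        = t⁻¹ * r ^ j * (k * t) * k⁻¹ * (r ^ j)⁻¹ := by group
      _ = t⁻¹ * r ^ j * (t * k) * k⁻¹ * (r ^ j)⁻¹ := by rw [h1]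
      _ = t⁻¹ * r ^ j * t * (r ^ j)⁻¹ := by group
      _ = _ := hDr j
  have e1 : g * (t⁻¹ * r * t * r⁻¹) * g⁻¹ =
      (g * t * g⁻¹)⁻¹ * (g * r * g⁻¹) * (g * t * g⁻¹) * (g * r * g⁻¹)⁻¹ := by group
  rw [e1, hgt, hgr]
  obtain ⟨y, hy⟩ : ∃ y, y = r ^ j * k := ⟨_, rfl⟩
  rw [← hy] at hyP hdy ⊢
  have hny : Commute n y := hNc n hn y hyP
  have hny' := hny.inv_right.eq
  have hw : (t ^ i)⁻¹ * y * t ^ i * y⁻¹ ∈ P :=
    P.mul_mem (P.mul_mem (P.mul_mem (P.inv_mem (P.zpow_mem htP i)) hyP) (P.zpow_mem htP i))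
      (P.inv_mem hyP)
  have hnw := hNc n hn _ hw
  have e2 : (t ^ i * n)⁻¹ * y * (t ^ i * n) * y⁻¹ = (t ^ i)⁻¹ * y * t ^ i * y⁻¹ := by
    calc (t ^ i * n)⁻¹ * y * (t ^ i * n) * y⁻¹
        = n⁻¹ * ((t ^ i)⁻¹ * y * t ^ i) * (n * y⁻¹) := by group
      _ = n⁻¹ * ((t ^ i)⁻¹ * y * t ^ i) * (y⁻¹ * n) := by rw [hny']
      _ = n⁻¹ * (((t ^ i)⁻¹ * y * t ^ i * y⁻¹) * n) := by group
      _ = n⁻¹ * (n * ((t ^ i)⁻¹ * y * t ^ i * y⁻¹)) := by rw [← hnw]
      _ = (t ^ i)⁻¹ * y * t ^ i * y⁻¹ := by group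
  have hdN : t⁻¹ * y * t * y⁻¹ ∈ N := hd y hyP
  have hct : Commute t (t⁻¹ * y * t * y⁻¹) :=
    (show Commute (t⁻¹ * y * t * y⁻¹) t from hNc _ hdN t htP).symm
  have e3 : (t ^ i)⁻¹ * y * t ^ i * y⁻¹ = (t⁻¹ * y * t * y⁻¹) ^ i := by
    have h1 : y * t ^ i * y⁻¹ = t ^ i * (t⁻¹ * y * t * y⁻¹) ^ i := by
      rw [← hct.mul_zpow, ← conj_zpow]
      congr 1; group
    calc (t ^ i)⁻¹ * y * t ^ i * y⁻¹ = (t ^ i)⁻¹ * (y * t ^ i * y⁻¹) := by group
      _ = (t ^ i)⁻¹ * (t ^ i * (t⁻¹ * y * t * y⁻¹) ^ i) := by rw [h1]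
      _ = _ := by group
  rw [e2, e3, hdy]
  exact Subgroup.zpow_mem _ (Subgroup.zpow_mem_zpowers _ j) i

theorem hp_caseA {G : Type*} [Group G] [Finite G] {p : ℕ} [Fact p.Prime] (P : Sylow p G)
    (hPn : (P : Subgroup G).Normal) (hP1 : (P : Subgroup G) ≠ ⊥)
    (h : ∀ M : Subgroup G, IsCoatom M → M.index.Prime)
    (hPc : ∀ n ∈ (P : Subgroup G), ∀ x ∈ (P : Subgroup G), n * x = x * n)
    (hmin : ∀ K : Subgroup G, K.Normal → K ≤ (P : Subgroup G) → K ≠ ⊥ → K = (P : Subgroup G)) :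
    ∃ L : Subgroup G, L.Normal ∧ L ≠ ⊥ ∧ IsCyclic L := by
  haveI := hPn
  obtain ⟨H, hH⟩ := Subgroup.exists_right_complement'_of_coprime (N := (P : Subgroup G))
    P.card_coprime_index
  have hdec : ∀ g : G, ∃ a ∈ (P : Subgroup G), ∃ b ∈ H, g = a * b := by
    intro g
    obtain ⟨⟨a, b⟩, hab⟩ := hH.2 g
    exact ⟨a, a.2, b, b.2, hab.symm⟩
  have hHtop : H ≠ ⊤ := by
    intro htop
    have hd := hH.disjoint
    rw [htop, disjoint_top] at hd
    exact hP1 hd
  obtain ⟨M, hM, hHM⟩ := (eq_top_or_exists_le_coatom H).resolve_left hHtop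
  have hPM_normal : ((P : Subgroup G) ⊓ M).Normal := by
    constructor
    intro x hx g
    obtain ⟨hxP, hxM⟩ := Subgroup.mem_inf.mp hx
    obtain ⟨a, ha, b, hb, rfl⟩ := hdec g
    have h1 : b * x * b⁻¹ ∈ (P : Subgroup G) := hPn.conj_mem x hxP b
    have h2 : b * x * b⁻¹ ∈ M := M.mul_mem (M.mul_mem (hHM hb) hxM) (M.inv_mem (hHM hb))
    have e : a * b * x * (a * b)⁻¹ = b * x * b⁻¹ := by
      have h3 : a * (b * x * b⁻¹) = (b * x * b⁻¹) * a := hPc a ha _ h1
      calc a * b * x * (a * b)⁻¹ = a * (b * x * b⁻¹) * a⁻¹ := by group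
        _ = (b * x * b⁻¹) * a * a⁻¹ := by rw [h3]
        _ = _ := by group
    rw [e]
    exact Subgroup.mem_inf.mpr ⟨h1, h2⟩
  have hPM : (P : Subgroup G) ⊓ M = ⊥ := by
    by_contra hne
    have h1 := hmin _ hPM_normal inf_le_left hne
    have h2 : (P : Subgroup G) ≤ M := by rw [← h1]; exact inf_le_right
    apply hM.1
    rw [eq_top_iff]
    intro g _
    obtain ⟨a, ha, b, hb, rfl⟩ := hdec g
    exact M.mul_mem (h2 ha) (hHM hb)
  have hcompl : Subgroup.IsComplement' (P : Subgroup G) M := by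
    apply Subgroup.isComplement'_of_disjoint_and_mul_eq_univ
    · rw [disjoint_iff]; exact hPM
    · rw [Set.eq_univ_iff_forall]
      intro g
      obtain ⟨a, ha, b, hb, rfl⟩ := hdec g
      exact Set.mul_mem_mul ha (hHM hb)
  have hcard : Nat.card (P : Subgroup G) = M.index := hcompl.index_eq_card.symm
  haveI : Fact (M.index).Prime := ⟨h M hM⟩
  exact ⟨P, hPn, hP1, isCyclic_of_prime_card hcard⟩

theorem hp_caseB {G : Type u} [Group G] [Finite G] {p : ℕ} [Fact p.Prime] (P : Sylow p G)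
    (hPn : (P : Subgroup G).Normal) (N : Subgroup G) (hNn : N.Normal) (hN1 : N ≠ ⊥)
    (hNP : N ≤ P) (hNlt : N ≠ (P : Subgroup G))
    (hNc : ∀ n ∈ N, ∀ x ∈ (P : Subgroup G), n * x = x * n) (hNe : ∀ n ∈ N, n ^ p = 1)
    (hmax : ∀ q : ℕ, q.Prime → q ∣ Nat.card G → q ≤ p)
    (hq : ∀ K : Subgroup G, ∀ _ : K.Normal, K ≠ ⊥ → Cfsg.IsSupersolvable (G ⧸ K)) :
    ∃ L : Subgroup G, L.Normal ∧ L ≠ ⊥ ∧ IsCyclic L := by
  haveI := hPn
  haveI := hNn
  have hp : p.Prime := Fact.out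
  obtain ⟨x₁, hx₁P, hx₁N⟩ : ∃ x ∈ (P : Subgroup G), x ∉ N := by
    by_contra hcon
    push Not at hcon
    exact hNlt (le_antisymm hNP hcon)
  have hmaxq : ∀ (K : Subgroup G) [K.Normal], ∀ q : ℕ, q.Prime → q ∣ Nat.card (G ⧸ K) → q ≤ p :=
    fun K _ q hq' hqd => hmax q hq' (hqd.trans (Subgroup.card_quotient_dvd_card K))
  obtain ⟨Cb, hCn, hCp⟩ := exists_normal_card_eq_of_largest_aux p hp (Nat.card (G ⧸ N)) (G ⧸ N)
    le_rfl (hq N hNn hN1) (hp_dvd_quot P N x₁ hx₁P hx₁N) (hmaxq N)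
  obtain ⟨T, hTn, hNT, t, htT, htN, htp, hT, hd⟩ := hp_T N Cb hCn hCp
  have htP : t ∈ (P : Subgroup G) := hp_mem_sylow P hPn t (hNP htp)
  have hTP : T ≤ P := by
    intro x hx
    obtain ⟨k, n, hn, rfl⟩ := hT x hx
    exact Subgroup.mul_mem _ (Subgroup.zpow_mem _ htP k) (hNP hn)
  by_cases h1 : t ^ p = 1
  · by_cases h2 : ∀ x ∈ (P : Subgroup G), x * t = t * x
    · exact hp_case3 P hPn N T hNn hTn hNT hTP hNc t htT htN h1 hT h2
    · push Not at h2
      obtain ⟨x₀, hx₀P, hx₀⟩ := h2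
      obtain ⟨K, hKdef⟩ : ∃ K : Subgroup G,
        K = (P : Subgroup G) ⊓ Subgroup.centralizer (T : Set G) := ⟨_, rfl⟩
      haveI := hTn
      have hKn : K.Normal := by rw [hKdef]; infer_instance
      haveI := hKn
      have hNK : N ≤ K := by
        rw [hKdef]
        intro n hn
        refine Subgroup.mem_inf.mpr ⟨hNP hn, ?_⟩
        rw [Subgroup.mem_centralizer_iff]
        intro x hx
        exact (hNc n hn x (hTP hx)).symm
      have hK1 : K ≠ ⊥ := fun h => hN1 (le_bot_iff.mp (h ▸ hNK))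
      have hKP : K ≤ P := by rw [hKdef]; exact inf_le_left
      have hKc : ∀ k ∈ K, ∀ x ∈ T, x * k = k * x := by
        intro k hk x hx
        rw [hKdef] at hk
        exact (Subgroup.mem_centralizer_iff.mp (Subgroup.mem_inf.mp hk).2) x hx
      have hx₀K : x₀ ∉ K := fun h => hx₀ ((hKc x₀ h t htT).symm)
      obtain ⟨Cb', hCn', hCp'⟩ := exists_normal_card_eq_of_largest_aux p hp (Nat.card (G ⧸ K))
        (G ⧸ K) le_rfl (hq K hKn hK1) (hp_dvd_quot P K x₀ hx₀P hx₀K) (hmaxq K)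
      obtain ⟨R, hRn, hKR, r, hrR, hrK, hrp, hR, -⟩ := hp_T K Cb' hCn' hCp'
      have hrP : r ∈ (P : Subgroup G) := hp_mem_sylow P hPn r (hKP hrp)
      have hRP : R ≤ P := by
        intro x hx
        obtain ⟨k, n, hn, rfl⟩ := hR x hx
        exact Subgroup.mul_mem _ (Subgroup.zpow_mem _ hrP k) (hKP hn)
      have hc1 : t⁻¹ * r * t * r⁻¹ ≠ 1 := by
        intro hc
        have htr : t * r = r * t := by
          have : r * t = t * r := by
            calc r * t = t * (t⁻¹ * r * t * r⁻¹) * r := by group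
              _ = t * r := by rw [hc, mul_one]
          exact this.symm
        apply hrK
        rw [hKdef]
        refine Subgroup.mem_inf.mpr ⟨hrP, ?_⟩
        rw [Subgroup.mem_centralizer_iff]
        intro x hx
        obtain ⟨k, n, hn, rfl⟩ := hT x hx
        have h3 : Commute (t ^ k) r := (show Commute t r from htr).zpow_left k
        have h4 : Commute n r := hNc n hn r hrP
        exact (h3.mul_left h4)
      refine ⟨Subgroup.zpowers (t⁻¹ * r * t * r⁻¹), ?_, ?_, inferInstance⟩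
      · refine hp_case2 (P : Subgroup G) N T K R hTn hRn hTP hRP hNc t htT hT (fun y hy => ?_)
          (fun k hk => ⟨hKP hk, hKc k hk t htT⟩) r hrR hR
        obtain ⟨j, hj⟩ := P.isPGroup' ⟨y, hy⟩
        exact hd y j (congrArg Subtype.val hj)
      · rwa [Ne, Subgroup.zpowers_eq_bot]
  · refine ⟨Subgroup.zpowers (t ^ p),
      hp_case1 (P : Subgroup G) N T hTn p hNc hNe t htT htP hT, ?_, inferInstance⟩
    rwa [Ne, Subgroup.zpowers_eq_bot]

theorem hp_aux : ∀ (n : ℕ) (G : Type u) [Group G] [Finite G], Nat.card G ≤ n →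
    (∀ M : Subgroup G, IsCoatom M → M.index.Prime) → Cfsg.IsSupersolvable G := by
  intro n
  induction n with
  | zero =>
    intro G _ _ hn
    exact absurd hn (by have := Nat.card_pos (α := G); omega)
  | succ n ih =>
    intro G _ _ hn h
    by_cases hnt : Nontrivial G
    · have hq : ∀ K : Subgroup G, ∀ _ : K.Normal, K ≠ ⊥ → Cfsg.IsSupersolvable (G ⧸ K) := by
        intro K hK hK1
        haveI := hK
        apply ih (G ⧸ K)
        · have hcard := Subgroup.card_eq_card_quotient_mul_card_subgroup K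
          have h2 : 1 < Nat.card K := K.one_lt_card_iff_ne_bot.mpr hK1
          have hpos := Nat.card_pos (α := G ⧸ K)
          nlinarith
        · intro Mb hMb
          have h1 := h _ (isCoatom_comap_mk K Mb hMb)
          rwa [Subgroup.index_comap_of_surjective _ (QuotientGroup.mk'_surjective K)] at h1
      have hL : ∃ L : Subgroup G, L.Normal ∧ L ≠ ⊥ ∧ IsCyclic L := by
        have h1 : 1 < Nat.card G := Finite.one_lt_card
        have hne : (Nat.card G).primeFactors.Nonempty := Nat.nonempty_primeFactors.mpr h1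
        obtain ⟨p, hp⟩ : ∃ p, p = (Nat.card G).primeFactors.max' hne := ⟨_, rfl⟩
        have hpmem : p ∈ (Nat.card G).primeFactors := by rw [hp]; exact Finset.max'_mem _ _
        have hpp : p.Prime := (Nat.mem_primeFactors.mp hpmem).1
        have hpd : p ∣ Nat.card G := (Nat.mem_primeFactors.mp hpmem).2.1
        have hmax : ∀ q : ℕ, q.Prime → q ∣ Nat.card G → q ≤ p := by
          intro q hq hqd
          rw [hp]
          exact Finset.le_max' _ _ (Nat.mem_primeFactors.mpr ⟨hq, hqd, (Nat.card_pos).ne'⟩)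
        haveI : Fact p.Prime := ⟨hpp⟩
        obtain ⟨P⟩ := (inferInstance : Nonempty (Sylow p G))
        have hPn : (P : Subgroup G).Normal := sylow_normal_of_coatom_index_prime h hmax P
        have hPd : p ∣ Nat.card (P : Subgroup G) := P.dvd_card_of_dvd_card hpd
        have hP1 : (P : Subgroup G) ≠ ⊥ := by
          intro hb
          rw [hb, Subgroup.card_bot] at hPd
          exact hpp.one_lt.ne' (Nat.dvd_one.mp hPd)
        obtain ⟨N, hNn, hN1, hNP, hmin⟩ := hp_exists_min (P : Subgroup G) hPn hP1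
        have hNc := hp_central P hPn N hNn hN1 hNP hmin
        have hpN : p ∣ Nat.card N := by
          have hNp : IsPGroup p N := P.isPGroup'.to_le hNP
          rcases hNp.card_eq_or_dvd with h2 | h2
          · exact absurd h2 (N.one_lt_card_iff_ne_bot.mpr hN1).ne'
          · exact h2
        have hNe := hp_elem N hNn hpN (fun a ha b hb => hNc a ha b (hNP hb)) hmin
        by_cases hNeq : N = (P : Subgroup G)
        · subst hNeq
          exact hp_caseA P hPn hP1 h hNc hmin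
        · exact hp_caseB P hPn N hNn hN1 hNP hNeq hNc hNe hmax hq
      obtain ⟨L, hLn, hL1, hLc⟩ := hL
      haveI := hLn
      haveI := hLc
      exact isSupersolvable_of_quotient_cyclic L (hq L hLn hL1)
    · rw [not_nontrivial_iff_subsingleton] at hnt
      haveI := hnt
      haveI : IsCyclic G := isCyclic_of_subsingleton
      exact isSupersolvable_of_isCyclic

end Cfsg.Agent.Lib.Helper1
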