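import Mathlib
import Cfsg.Agent.Lib.Lead.Basic
import Cfsg.Agent.Lib.Lead.Hall
import Cfsg.Agent.Lib.Helper1.Schmidt

/-!
# Wielandt: a group factorised twice by solvable subgroups of coprime indices is solvable (helper1)
-/

set_option autoImplicit false
open Pointwise

namespace Cfsg.Agent.Lib.Helper1

universe u

theorem three_solvable_aux : ∀ (n : ℕ) (G : Type u) [Group G] [Finite G], Nat.card G = n →
    ∀ (H₁ H₂ H₃ : Subgroup G), Group.IsSolvable H₁ → Group.IsSolvable H₂ → Group.IsSolvable H₃ →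
    (∀ g : G, ∃ x ∈ H₁, ∃ y ∈ H₂, g = x * y) → (∀ g : G, ∃ x ∈ H₁, ∃ y ∈ H₃, g = x * y) →
    H₂.index.Coprime H₃.index → Group.IsSolvable G := by
  intro n
  induction n using Nat.strong_induction_on with
  | _ n ih =>
  intro G _ _ hn H₁ H₂ H₃ h₁ h₂ h₃ h12 h13 hcop
  by_cases hbot : H₁ = ⊥
  · have htop : H₂ = ⊤ := by
      rw [eq_top_iff]
      intro g _
      obtain ⟨x, hx, y, hy, rfl⟩ := h12 g
      rw [hbot, Subgroup.mem_bot] at hx
      rw [hx, one_mul]; exact hy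
    exact Group.isSolvable_of_surjective (f := H₂.subtype)
      (fun g => ⟨⟨g, htop ▸ Subgroup.mem_top g⟩, rfl⟩)
  haveI : Nontrivial H₁ := (Subgroup.nontrivial_iff_ne_bot H₁).mpr hbot
  obtain ⟨p, hp, N', hN'n, hN'ne, hN'p⟩ := Cfsg.Agent.Lib.Lead.exists_normal_pgroup_of_solvable H₁
  haveI : Fact p.Prime := ⟨hp⟩
  obtain ⟨N, hN⟩ : ∃ N : Subgroup G, N = N'.map H₁.subtype := ⟨_, rfl⟩
  have hNp : IsPGroup p N := hN ▸ hN'p.map _
  have hNne : N ≠ ⊥ := by
    rw [hN]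
    intro h
    rw [Subgroup.map_eq_bot_iff_of_injective _ H₁.subtype_injective] at h
    exact hN'ne h
  have hNconj : ∀ x ∈ H₁, ∀ n ∈ N, x * n * x⁻¹ ∈ N := by
    intro x hx n hn
    rw [hN] at hn ⊢
    obtain ⟨n', hn', rfl⟩ := hn
    exact ⟨⟨x, hx⟩ * n' * ⟨x, hx⟩⁻¹, hN'n.conj_mem n' hn' ⟨x, hx⟩, rfl⟩
  have key : ∀ (K : Subgroup G), Group.IsSolvable K →
      (∀ g : G, ∃ x ∈ H₁, ∃ y ∈ K, g = x * y) → ¬ p ∣ K.index →
      ∃ M : Subgroup G, M.Normal ∧ M ≠ ⊥ ∧ Group.IsSolvable M := by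
    intro K hK h1K hpK
    have hfix := hNp.nonempty_fixed_point_of_prime_not_dvd_card (G ⧸ K) hpK
    obtain ⟨q, hq⟩ := hfix
    obtain ⟨g, rfl⟩ := QuotientGroup.mk_surjective q
    have hg : ∀ n ∈ N, g⁻¹ * n * g ∈ K := fun n hn => (quot_fixed_iff K n g).mp (hq ⟨n, hn⟩)
    obtain ⟨x, hx, y, hy, hgxy⟩ := h1K g
    have hNK : N ≤ K := by
      intro n hn
      have h1 := hg (x * n * x⁻¹) (hNconj x hx n hn)
      rw [hgxy] at h1
      have h2 : (x * y)⁻¹ * (x * n * x⁻¹) * (x * y) = y⁻¹ * n * y := by group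
      rw [h2] at h1
      have h3 := K.mul_mem (K.mul_mem hy h1) (K.inv_mem hy)
      have h4 : y * (y⁻¹ * n * y) * y⁻¹ = n := by group
      rwa [h4] at h3
    refine ⟨Subgroup.normalClosure (N : Set G), Subgroup.normalClosure_normal, ?_, ?_⟩
    · intro h
      apply hNne
      rw [eq_bot_iff, ← h]
      exact Subgroup.le_normalClosure
    · have hle : Subgroup.normalClosure (N : Set G) ≤ K := by
        rw [Subgroup.normalClosure, Subgroup.closure_le]
        intro z hz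
        rw [Group.mem_conjugatesOfSet_iff] at hz
        obtain ⟨n, hn, hconj⟩ := hz
        obtain ⟨c, hc⟩ := isConj_iff.mp hconj
        obtain ⟨x', hx', y', hy', hc'⟩ := h1K c⁻¹
        have hc2 : c = y'⁻¹ * x'⁻¹ := by rw [← inv_inv c, hc']; group
        rw [← hc, hc2]
        have h5 : y'⁻¹ * x'⁻¹ * n * (y'⁻¹ * x'⁻¹)⁻¹ = y'⁻¹ * (x'⁻¹ * n * x'⁻¹⁻¹) * y'⁻¹⁻¹ := by
          group
        rw [h5]
        exact K.mul_mem (K.mul_mem (K.inv_mem hy')
          (hNK (hNconj x'⁻¹ (H₁.inv_mem hx') n hn))) (K.inv_mem (K.inv_mem hy'))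
      exact Group.isSolvable_of_isSolvable_injective (f := Subgroup.inclusion hle)
        (Subgroup.inclusion_injective hle)
  have hM : ∃ M : Subgroup G, M.Normal ∧ M ≠ ⊥ ∧ Group.IsSolvable M := by
    by_cases hp2 : p ∣ H₂.index
    · have hp3 : ¬ p ∣ H₃.index := by
        intro h
        have h1 := Nat.dvd_gcd hp2 h
        rw [Nat.Coprime.gcd_eq_one hcop] at h1
        exact hp.one_lt.ne' (Nat.dvd_one.mp h1)
      exact key H₃ h₃ h13 hp3
    · exact key H₂ h₂ h12 hp2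
  obtain ⟨M, hMn, hMne, hMs⟩ := hM
  haveI := hMn
  have hcard : Nat.card (G ⧸ M) < n := by
    have h1 := Subgroup.card_mul_index M
    have h2 : 1 < Nat.card M := by
      rcases Nat.lt_or_ge 1 (Nat.card M) with h | h
      · exact h
      · exfalso
        apply hMne
        apply Subgroup.card_eq_one.mp
        have := Nat.card_pos (α := M)
        omega
    have h3 : M.index = Nat.card (G ⧸ M) := rfl
    have h4 : 0 < M.index := Nat.pos_of_ne_zero Subgroup.index_ne_zero_of_finite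
    rw [← h3, ← hn, ← h1]
    nlinarith
  have hsurj := QuotientGroup.mk'_surjective M
  have himg : ∀ K : Subgroup G, Group.IsSolvable K →
      Group.IsSolvable (K.map (QuotientGroup.mk' M)) := by
    intro K hK
    exact Group.isSolvable_of_surjective
      (MonoidHom.subgroupMap_surjective (QuotientGroup.mk' M) K)
  have hfac : ∀ K : Subgroup G, (∀ g : G, ∃ x ∈ H₁, ∃ y ∈ K, g = x * y) →
      ∀ q : G ⧸ M, ∃ x ∈ H₁.map (QuotientGroup.mk' M), ∃ y ∈ K.map (QuotientGroup.mk' M),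
        q = x * y := by
    intro K hK q
    obtain ⟨g, rfl⟩ := hsurj q
    obtain ⟨x, hx, y, hy, rfl⟩ := hK g
    exact ⟨_, ⟨x, hx, rfl⟩, _, ⟨y, hy, rfl⟩, map_mul _ _ _⟩
  haveI hQ : Group.IsSolvable (G ⧸ M) :=
    ih _ hcard (G ⧸ M) rfl _ _ _ (himg H₁ h₁) (himg H₂ h₂) (himg H₃ h₃)
      (hfac H₂ h12) (hfac H₃ h13)
      (Nat.Coprime.coprime_dvd_left (Subgroup.index_map_dvd H₂ hsurj)
        (Nat.Coprime.coprime_dvd_right (Subgroup.index_map_dvd H₃ hsurj) hcop))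
  exact Group.isSolvable_of_ker_le_range (M.subtype) (QuotientGroup.mk' M)
    (by rw [QuotientGroup.ker_mk', Subgroup.range_subtype])

theorem three_solvable {G : Type u} [Group G] [Finite G] (H₁ H₂ H₃ : Subgroup G)
    (h₁ : Group.IsSolvable H₁) (h₂ : Group.IsSolvable H₂) (h₃ : Group.IsSolvable H₃)
    (h12 : ∀ g : G, ∃ x ∈ H₁, ∃ y ∈ H₂, g = x * y) (h13 : ∀ g : G, ∃ x ∈ H₁, ∃ y ∈ H₃, g = x * y)
    (hcop : H₂.index.Coprime H₃.index) : Group.IsSolvable G :=
  three_solvable_aux _ G rfl H₁ H₂ H₃ h₁ h₂ h₃ h12 h13 hcop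

end Cfsg.Agent.Lib.Helper1
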