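import Mathlib
import Cfsg.Agent.Lib.Lead.Char8
import Cfsg.Agent.Lib.Helper1.ThreeSolvable
import Cfsg.Agent.Lib.Helper1.SylowSystem2

/-!
# P. Hall's converse: Hall `p`-complements for every prime imply solvability (helper1)
-/

set_option autoImplicit false
open Pointwise

namespace Cfsg.Agent.Lib.Helper1

universe u

theorem factorization_card_of_index {G : Type*} [Group G] [Finite G] (H : Subgroup G)
    (p q a : ℕ) (hp : p.Prime) (hqp : q ≠ p) (hH : H.index = p ^ a) :
    (Nat.card H).factorization q = (Nat.card G).factorization q := by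
  have h1 := Subgroup.card_mul_index H
  rw [hH] at h1
  rw [← h1, Nat.factorization_mul (Nat.card_pos (α := H)).ne' (pow_ne_zero _ hp.pos.ne'),
    Finsupp.add_apply, Nat.Prime.factorization_pow hp, Finsupp.single_apply, if_neg (Ne.symm hqp),
    add_zero]

theorem hall_converse_aux : ∀ (n : ℕ) (G : Type u) [Group G] [Finite G], Nat.card G = n →
    (∀ p : ℕ, p.Prime → ∃ H : Subgroup G, H.index = p ^ (Nat.card G).factorization p) →
    Group.IsSolvable G := by
  intro n
  induction n using Nat.strong_induction_on with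
  | _ n ih =>
  intro G _ _ hn h
  classical
  have hG0 : Nat.card G ≠ 0 := (Nat.card_pos (α := G)).ne'
  by_cases h3 : 2 < (Nat.card G).primeFactors.card
  · obtain ⟨p₁, hp₁, p₂, hp₂, p₃, hp₃, h12, h13, h23⟩ := Finset.two_lt_card.mp h3
    have hcompl : ∀ p ∈ (Nat.card G).primeFactors, ∀ H : Subgroup G,
        H.index = p ^ (Nat.card G).factorization p → Group.IsSolvable H := by
      intro p hp H hH
      obtain ⟨hpp, hpd, _⟩ := Nat.mem_primeFactors.mp hp
      have hlt : Nat.card H < n := by
        have h1 := Subgroup.card_mul_index H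
        have hfac : (Nat.card G).factorization p ≠ 0 := by
          intro h0
          rcases (Nat.factorization_eq_zero_iff _ _).mp h0 with h' | h' | h'
          · exact h' hpp
          · exact h' hpd
          · exact hG0 h'
        have h2 : 1 < H.index := by rw [hH]; exact Nat.one_lt_pow hfac hpp.one_lt
        have h4 : 0 < Nat.card H := Nat.card_pos
        rw [← hn, ← h1]
        nlinarith
      apply ih _ hlt H rfl
      intro q hq
      by_cases hqp : q = p
      · subst hqp
        refine ⟨⊤, ?_⟩
        have hc := coprime_card_of_index H q hq hH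
        have h0 : (Nat.card H).factorization q = 0 := by
          apply Nat.factorization_eq_zero_of_not_dvd
          intro hd
          exact hq.one_lt.ne' (Nat.Coprime.eq_one_of_dvd hc.symm hd)
        rw [Subgroup.index_top, h0, pow_zero]
      · obtain ⟨Hq, hHq⟩ := h q hq
        refine ⟨Hq.subgroupOf H, ?_⟩
        have hcop : Hq.index.Coprime H.index := by
          rw [hHq, hH]
          exact Nat.Coprime.pow _ _ ((Nat.coprime_primes hq hpp).mpr hqp)
        have h1 := index_inf_of_coprime Hq H hcop
        have h2 := Subgroup.relIndex_mul_index (inf_le_right : Hq ⊓ H ≤ H)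
        rw [Subgroup.inf_relIndex_right, h1] at h2
        have hpos : 0 < H.index := Nat.pos_of_ne_zero Subgroup.index_ne_zero_of_finite
        have h3 : Hq.relIndex H = Hq.index := Nat.eq_of_mul_eq_mul_right hpos h2
        show Hq.relIndex H = _
        rw [h3, hHq, factorization_card_of_index H p q _ hpp hqp hH]
    obtain ⟨H₁, hH₁⟩ := h p₁ (Nat.prime_of_mem_primeFactors hp₁)
    obtain ⟨H₂, hH₂⟩ := h p₂ (Nat.prime_of_mem_primeFactors hp₂)
    obtain ⟨H₃, hH₃⟩ := h p₃ (Nat.prime_of_mem_primeFactors hp₃)
    have hc : ∀ p q : ℕ, p.Prime → q.Prime → p ≠ q → ∀ a b : ℕ, (p ^ a).Coprime (q ^ b) :=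
      fun p q hp hq hne a b => Nat.Coprime.pow _ _ ((Nat.coprime_primes hp hq).mpr hne)
    have hpp₁ := Nat.prime_of_mem_primeFactors hp₁
    have hpp₂ := Nat.prime_of_mem_primeFactors hp₂
    have hpp₃ := Nat.prime_of_mem_primeFactors hp₃
    refine three_solvable H₁ H₂ H₃ (hcompl p₁ hp₁ H₁ hH₁) (hcompl p₂ hp₂ H₂ hH₂)
      (hcompl p₃ hp₃ H₃ hH₃) ?_ ?_ ?_
    · intro g
      exact exists_mul_of_coprime_index H₁ H₂ (by rw [hH₁, hH₂]; exact hc _ _ hpp₁ hpp₂ h12 _ _) g
    · intro g
      exact exists_mul_of_coprime_index H₁ H₃ (by rw [hH₁, hH₃]; exact hc _ _ hpp₁ hpp₃ h13 _ _) g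
    · rw [hH₂, hH₃]; exact hc _ _ hpp₂ hpp₃ h23 _ _
  · push Not at h3
    have hprod := Nat.prod_factorization_pow_eq_self hG0
    rw [Finsupp.prod, Nat.support_factorization] at hprod
    obtain ⟨p, q, hp, hq, a, b, hab⟩ : ∃ p q : ℕ, p.Prime ∧ q.Prime ∧ ∃ a b : ℕ,
        Nat.card G = p ^ a * q ^ b := by
      rcases Nat.lt_or_ge (Nat.card G).primeFactors.card 1 with h0 | h0
      · have hT : (Nat.card G).primeFactors = ∅ := Finset.card_eq_zero.mp (by omega)
        rw [hT, Finset.prod_empty] at hprod
        exact ⟨2, 3, Nat.prime_two, Nat.prime_three, 0, 0, by rw [← hprod]; norm_num⟩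
      · rcases Nat.lt_or_ge (Nat.card G).primeFactors.card 2 with h1 | h1
        · obtain ⟨p, hT⟩ := Finset.card_eq_one.mp (by omega : (Nat.card G).primeFactors.card = 1)
          have hp : p.Prime := Nat.prime_of_mem_primeFactors (by rw [hT]; exact Finset.mem_singleton_self p)
          rw [hT, Finset.prod_singleton] at hprod
          exact ⟨p, 2, hp, Nat.prime_two, (Nat.card G).factorization p, 0, by rw [pow_zero, mul_one]; exact hprod.symm⟩
        · obtain ⟨p, q, hne, hT⟩ :=
            Finset.card_eq_two.mp (by omega : (Nat.card G).primeFactors.card = 2)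
          have hp : p.Prime := Nat.prime_of_mem_primeFactors (by rw [hT]; simp)
          have hq : q.Prime := Nat.prime_of_mem_primeFactors (by rw [hT]; simp)
          rw [hT, Finset.prod_pair hne] at hprod
          exact ⟨p, q, hp, hq, _, _, hprod.symm⟩
    exact Cfsg.Agent.Lib.Lead.burnside_paqb p q a b hp hq hab

theorem hall_converse {G : Type u} [Group G] [Finite G]
    (h : ∀ p : ℕ, p.Prime → ∃ H : Subgroup G, H.index = p ^ (Nat.card G).factorization p) :
    Group.IsSolvable G :=
  hall_converse_aux _ G rfl h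

end Cfsg.Agent.Lib.Helper1
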