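import Mathlib
import Cfsg.Prelude.Def_Solvable
import Cfsg.Agent.Lib.Lead.Basic
import Cfsg.Agent.Lib.Lead.Coprime
import Cfsg.Agent.Lib.Lead.CoprimeSylow
import Cfsg.Agent.Lib.Lead.PFrat
import Cfsg.Agent.Lib.Helper4.PPrime
import Cfsg.Agent.Lib.Helper1.CoreFree

/-!
# Groups with an abelian maximal subgroup (Herstein) (helper1)
-/

set_option autoImplicit false
open Pointwise

namespace Cfsg.Agent.Lib.Helper1

open scoped commutatorElement

theorem commutator_le_of_normal_coatom {G : Type*} [Group G] [Finite G] (M : Subgroup G)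
    [M.Normal] (hM : IsCoatom M) : _root_.commutator G ≤ M := by
  have hprime : (Nat.card (G ⧸ M)).Prime := Cfsg.Agent.Lib.Lead.index_prime_of_normal_coatom M hM
  haveI : Fact (Nat.card (G ⧸ M)).Prime := ⟨hprime⟩
  have hcyc : IsCyclic (G ⧸ M) := isCyclic_of_prime_card rfl
  have hcomm : ∀ x y : G ⧸ M, x * y = y * x := fun x y => (IsCyclic.commGroup).mul_comm x y
  rw [commutator_def, Subgroup.commutator_le]
  intro x _ y _
  apply (QuotientGroup.eq_one_iff _).mp
  show (QuotientGroup.mk' M) ⁅x, y⁆ = 1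
  rw [map_commutatorElement, commutatorElement_eq_one_iff_commute]
  exact hcomm _ _

theorem commutator_eq_bot_of_comm {G : Type*} [Group G] (A : Subgroup G)
    (hab : ∀ x ∈ A, ∀ y ∈ A, x * y = y * x) : ⁅A, A⁆ = ⊥ := by
  apply Subgroup.commutator_eq_bot_iff_le_centralizer.mpr
  intro x hx
  rw [Subgroup.mem_centralizer_iff]
  intro y hy
  exact hab y hy x hx

theorem derived_two_of_normal_abelian_coatom {G : Type*} [Group G] [Finite G] (A : Subgroup G)
    [A.Normal] (hA : IsCoatom A) (hab : ∀ x ∈ A, ∀ y ∈ A, x * y = y * x) :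
    derivedSeries G 2 = ⊥ := by
  have h1 : derivedSeries G 1 ≤ A := by
    rw [derivedSeries_one]; exact commutator_le_of_normal_coatom A hA
  rw [derivedSeries_succ, eq_bot_iff, ← commutator_eq_bot_of_comm A hab]
  exact Subgroup.commutator_mono h1 h1

theorem derived_two_of_abelian_sup {G : Type*} [Group G] (K A : Subgroup G) [K.Normal]
    (hsup : K ⊔ A = ⊤) (hK : ∀ x ∈ K, ∀ y ∈ K, x * y = y * x)
    (hA : ∀ x ∈ A, ∀ y ∈ A, x * y = y * x) : derivedSeries G 2 = ⊥ := by
  have h1 : derivedSeries G 1 ≤ K := by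
    rw [derivedSeries_one, commutator_def, Subgroup.commutator_le]
    intro x _ y _
    obtain ⟨k, hk, a, ha, hx⟩ := exists_mul_of_sup_eq_top K A hsup x
    obtain ⟨k', hk', a', ha', hy⟩ := exists_mul_of_sup_eq_top K A hsup y
    apply (QuotientGroup.eq_one_iff _).mp
    show (QuotientGroup.mk' K) ⁅x, y⁆ = 1
    have hk1 : (QuotientGroup.mk' K) k = 1 := (QuotientGroup.eq_one_iff k).mpr hk
    have hk1' : (QuotientGroup.mk' K) k' = 1 := (QuotientGroup.eq_one_iff k').mpr hk'
    rw [map_commutatorElement, hx, hy, map_mul, map_mul, hk1, hk1', one_mul, one_mul,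
      ← map_commutatorElement]
    have : ⁅a, a'⁆ = 1 := commutatorElement_eq_one_iff_commute.mpr (hA a ha a' ha')
    rw [this, map_one]
  rw [derivedSeries_succ, eq_bot_iff, ← commutator_eq_bot_of_comm K hK]
  exact Subgroup.commutator_mono h1 h1

open Cfsg.Agent.Lib.Lead in
theorem derived_two_of_malnormal_abelian_coatom {G : Type*} [Group G] [Finite G]
    (A : Subgroup G) (hA : IsCoatom A) (hab : ∀ x ∈ A, ∀ y ∈ A, x * y = y * x)
    (hmal : ∀ g : G, g ∉ A → A ⊓ MulAut.conj g • A = ⊥) : derivedSeries G 2 = ⊥ := by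
  classical
  have hcent : ∀ a ∈ A, a ≠ 1 → ∀ y : G, y * a = a * y → y ∈ A := by
    intro a ha ha1 y hy
    by_contra hyA
    have h1 := hmal y hyA
    have h2 : a ∈ A ⊓ MulAut.conj y • A := by
      refine Subgroup.mem_inf.mpr ⟨ha, ?_⟩
      rw [mem_conj_smul]
      have : y⁻¹ * a * y = a := by rw [mul_assoc, ← hy]; group
      rw [this]; exact ha
    rw [h1, Subgroup.mem_bot] at h2
    exact ha1 h2
  have hsyl : ∀ p : ℕ, p.Prime → p ∣ Nat.card A → ∃ N : Subgroup G, N.Normal ∧
      (Nat.card N).Coprime p ∧ ∃ k, N.index = p ^ k ∧ p ^ k ∣ Nat.card A := by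
    intro p hp hpd
    haveI : Fact p.Prime := ⟨hp⟩
    obtain ⟨x, hx⟩ := exists_prime_orderOf_dvd_card' (G := A) p hpd
    have hxo : orderOf (x : G) = p := by rw [Subgroup.orderOf_coe]; exact hx
    have hx1 : (x : G) ≠ 1 := by
      intro h
      rw [h, orderOf_one] at hxo
      exact hp.one_lt.ne hxo
    have hzp : IsPGroup p (Subgroup.zpowers (x : G)) :=
      IsPGroup.of_card (n := 1) (by rw [Nat.card_zpowers, hxo, pow_one])
    obtain ⟨P, hP⟩ := hzp.exists_le_sylow
    have hxP : (x : G) ∈ (P : Subgroup G) := hP (Subgroup.mem_zpowers _)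
    haveI : Nontrivial (P : Subgroup G) :=
      ⟨⟨⟨(x : G), hxP⟩, 1, fun h => hx1 (congrArg Subtype.val h)⟩⟩
    have hcen := IsPGroup.bot_lt_center P.2
    obtain ⟨z, hz, hz1⟩ : ∃ z ∈ Subgroup.center (P : Subgroup G), z ≠ 1 := by
      by_contra h
      push Not at h
      exact hcen.ne ((Subgroup.eq_bot_iff_forall _).mpr h).symm
    have hzx : (z : G) * (x : G) = (x : G) * (z : G) := by
      have := Subgroup.mem_center_iff.mp hz ⟨(x : G), hxP⟩
      exact (congrArg Subtype.val this).symm
    have hzA : (z : G) ∈ A := hcent (x : G) x.2 hx1 (z : G) hzx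
    have hz1' : (z : G) ≠ 1 := fun h => hz1 (Subtype.ext h)
    have hPA : (P : Subgroup G) ≤ A := by
      intro y hy
      apply hcent (z : G) hzA hz1' y
      have := Subgroup.mem_center_iff.mp hz ⟨y, hy⟩
      exact congrArg Subtype.val this
    have hNA : Subgroup.normalizer ((P : Subgroup G) : Set G) ≤ A := by
      intro y hy
      by_contra hyA
      have h1 := hmal y hyA
      have h2 : y * (z : G) * y⁻¹ ∈ (P : Subgroup G) :=
        (Subgroup.mem_normalizer_iff.mp hy (z : G)).mp z.2
      have h3 : y * (z : G) * y⁻¹ ∈ A ⊓ MulAut.conj y • A :=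
        Subgroup.mem_inf.mpr ⟨hPA h2, conj_mem_conj_smul hzA⟩
      rw [h1, Subgroup.mem_bot] at h3
      apply hz1'
      have : (z : G) = y⁻¹ * (y * (z : G) * y⁻¹) * y := by group
      rw [this, h3]; group
    have hNC : Subgroup.normalizer ((P : Subgroup G) : Set G) ≤
        Subgroup.centralizer ((P : Subgroup G) : Set G) := by
      intro y hy
      rw [Subgroup.mem_centralizer_iff]
      intro h hh
      exact hab h (hPA hh) y (hNA hy)
    have hc := MonoidHom.ker_transferSylow_isComplement' P hNC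
    refine ⟨(MonoidHom.transferSylow P hNC).ker, inferInstance, ?_, ?_⟩
    · have := MonoidHom.not_dvd_card_ker_transferSylow P hNC
      exact ((Nat.Prime.coprime_iff_not_dvd hp).mpr this).symm
    · obtain ⟨k, hk⟩ := IsPGroup.iff_card.mp P.2
      refine ⟨k, ?_, ?_⟩
      · rw [hc.symm.index_eq_card, hk]
      · rw [← hk]; exact Subgroup.card_dvd_of_le hPA
  obtain ⟨f, hf⟩ : ∃ f : ℕ → Subgroup G, f = fun p => Cfsg.pPrimeCore p G := ⟨_, rfl⟩
  have hfn : ∀ p, (f p).Normal := fun p => by
    rw [hf]; exact Cfsg.Agent.Lib.Helper4.pPrimeCore_normal' p G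
  have hfc : ∀ p, (Nat.card (f p)).Coprime p := fun p => by
    rw [hf]; exact Cfsg.Agent.Lib.Helper4.pPrimeCore_coprime p G
  have hApos : Nat.card A ≠ 0 := (Nat.card_pos (α := A)).ne'
  have hfi : ∀ p ∈ (Nat.card A).primeFactors, (f p).index ≤ p ^ (Nat.card A).factorization p := by
    intro p hp
    obtain ⟨hpp, hpd, _⟩ := Nat.mem_primeFactors.mp hp
    obtain ⟨N, hNn, hNc, k, hk, hkd⟩ := hsyl p hpp hpd
    have h1 : N ≤ f p := by rw [hf]; exact Cfsg.Agent.Lib.Helper4.le_pPrimeCore hNn hNc
    have h2 : (f p).index ∣ N.index := Subgroup.index_dvd_of_le h1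
    have h3 : k ≤ (Nat.card A).factorization p := (hpp.pow_dvd_iff_le_factorization hApos).mp hkd
    calc (f p).index ≤ N.index :=
          Nat.le_of_dvd (Nat.pos_of_ne_zero Subgroup.index_ne_zero_of_finite) h2
      _ = p ^ k := hk
      _ ≤ p ^ (Nat.card A).factorization p := Nat.pow_le_pow_right hpp.pos h3
  obtain ⟨K, hK⟩ : ∃ K : Subgroup G, K = (Nat.card A).primeFactors.inf f := ⟨_, rfl⟩
  have hKle : ∀ p ∈ (Nat.card A).primeFactors, K ≤ f p := fun p hp => hK ▸ Finset.inf_le hp
  haveI hKn : K.Normal := by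
    rw [hK, Finset.inf_eq_iInf]
    exact Subgroup.normal_iInf_normal (fun p => Subgroup.normal_iInf_normal (fun _ => hfn p))
  have hKidx : K.index ≤ Nat.card A := by
    have key : ∀ T : Finset ℕ, T ⊆ (Nat.card A).primeFactors →
        (T.inf f).index ≤ ∏ p ∈ T, p ^ (Nat.card A).factorization p := by
      intro T
      induction T using Finset.induction_on with
      | empty => intro _; simp
      | insert q T hq ih =>
        intro hsub
        rw [Finset.inf_insert, Finset.prod_insert hq]
        calc (f q ⊓ T.inf f).index ≤ (f q).index * (T.inf f).index := Subgroup.index_inf_le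
          _ ≤ _ := Nat.mul_le_mul (hfi q (hsub (Finset.mem_insert_self q T)))
              (ih (fun x hx => hsub (Finset.mem_insert_of_mem hx)))
    have h1 := key _ (Finset.Subset.refl _)
    rw [← hK] at h1
    have h2 : ∏ p ∈ (Nat.card A).primeFactors, p ^ (Nat.card A).factorization p = Nat.card A := by
      have := Nat.prod_factorization_pow_eq_self hApos
      rw [Finsupp.prod, Nat.support_factorization] at this
      exact this
    rwa [h2] at h1
  have hKA : K ⊓ A = ⊥ := by
    rw [Subgroup.eq_bot_iff_forall]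
    intro x hx
    obtain ⟨hxK, hxA⟩ := Subgroup.mem_inf.mp hx
    by_contra hx1
    have ho : orderOf x ≠ 1 := fun h => hx1 (orderOf_eq_one_iff.mp h)
    obtain ⟨p, hp, hpd⟩ := Nat.exists_prime_and_dvd ho
    have hpA : p ∣ Nat.card A := hpd.trans (Subgroup.orderOf_dvd_natCard A hxA)
    have hpm : p ∈ (Nat.card A).primeFactors := Nat.mem_primeFactors.mpr ⟨hp, hpA, hApos⟩
    have h1 : orderOf x ∣ Nat.card (f p) := Subgroup.orderOf_dvd_natCard (f p) (hKle p hpm hxK)
    have h2 := Nat.Coprime.eq_one_of_dvd (hfc p).symm (hpd.trans h1)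
    exact hp.one_lt.ne' h2
  have hcard : Nat.card K * Nat.card A = Nat.card G := by
    have h1 := card_sup_of_normal_of_disjoint K A hKA
    have h2 : Nat.card (K ⊔ A : Subgroup G) ≤ Nat.card G := Subgroup.card_le_card_group _
    have h3 := Subgroup.card_mul_index K
    apply le_antisymm (h1 ▸ h2)
    rw [← h3]; exact Nat.mul_le_mul_left _ hKidx
  have hsup : K ⊔ A = ⊤ := by
    apply Subgroup.eq_top_of_card_eq
    rw [card_sup_of_normal_of_disjoint K A hKA, hcard]
  have hcop : (Nat.card A).Coprime (Nat.card K) := by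
    by_contra h
    obtain ⟨p, hp, hpd⟩ := Nat.exists_prime_and_dvd h
    have hpA := hpd.trans (Nat.gcd_dvd_left _ _)
    have hpK := hpd.trans (Nat.gcd_dvd_right _ _)
    have hpm : p ∈ (Nat.card A).primeFactors := Nat.mem_primeFactors.mpr ⟨hp, hpA, hApos⟩
    have h1 : Nat.card K ∣ Nat.card (f p) := Subgroup.card_dvd_of_le (hKle p hpm)
    exact hp.one_lt.ne' (Nat.Coprime.eq_one_of_dvd (hfc p).symm (hpK.trans h1))
  have hinv : ∀ K₁ : Subgroup G, K₁ ≤ K →
      A ≤ Subgroup.normalizer ((K₁ : Subgroup G) : Set G) → K₁ = ⊥ ∨ K₁ = K := by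
    intro K₁ hle hnorm
    have hdis : K₁ ⊓ A = ⊥ := le_bot_iff.mp (hKA ▸ inf_le_inf_right A hle)
    have hc1 := card_sup_of_le_normalizer hnorm hdis
    rcases eq_or_ne (K₁ ⊔ A) A with h | h
    · left
      have h1 : K₁ ≤ A := h ▸ le_sup_left
      exact le_bot_iff.mp (hdis ▸ le_inf le_rfl h1)
    · right
      have htop : K₁ ⊔ A = ⊤ := hA.2 _ (lt_of_le_of_ne le_sup_right (Ne.symm h))
      rw [htop, Subgroup.card_top, ← hcard] at hc1
      have h2 : Nat.card K₁ = Nat.card K := (Nat.eq_of_mul_eq_mul_right Nat.card_pos hc1).symm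
      exact Subgroup.eq_of_le_of_card_ge hle h2.ge
  have hKab : ∀ x ∈ K, ∀ y ∈ K, x * y = y * x := by
    by_cases hKbot : K = ⊥
    · intro x hx y hy
      rw [hKbot, Subgroup.mem_bot] at hx hy
      rw [hx, hy]
    have hKcard : Nat.card K ≠ 1 := fun h => hKbot (Subgroup.card_eq_one.mp h)
    obtain ⟨r, hr, hrd⟩ := Nat.exists_prime_and_dvd hKcard
    haveI : Fact r.Prime := ⟨hr⟩
    have hAK : A ≤ Subgroup.normalizer ((K : Subgroup G) : Set G) := by
      rw [Subgroup.normalizer_eq_top_iff.mpr hKn]; exact le_top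
    have hsolvA : Group.IsSolvable A := by
      letI : CommGroup A :=
        { (inferInstance : Group A) with mul_comm := fun a b => Subtype.ext (hab a a.2 b b.2) }
      infer_instance
    obtain ⟨R, hR⟩ := exists_invariant_sylow A K hAK hcop (Or.inl hsolvA) r
    have hRne : (R : Subgroup K).map K.subtype ≠ ⊥ := by
      intro h
      rw [Subgroup.map_eq_bot_iff_of_injective _ K.subtype_injective] at h
      exact Sylow.ne_bot_of_dvd_card R hrd h
    have hReq : (R : Subgroup K).map K.subtype = K :=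
      (hinv _ (Subgroup.map_subtype_le _) hR).resolve_left hRne
    have hKr : IsPGroup r K := by
      have h1 : IsPGroup r ((R : Subgroup K).map K.subtype) := R.2.map K.subtype
      rwa [hReq] at h1
    haveI : Nontrivial K := (Subgroup.nontrivial_iff_ne_bot K).mpr hKbot
    have hcen := IsPGroup.bot_lt_center hKr
    haveI hZn : ((Subgroup.center K).map K.subtype).Normal :=
      ConjAct.normal_of_characteristic_of_normal
    have hZne : (Subgroup.center K).map K.subtype ≠ ⊥ := by
      intro h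
      rw [Subgroup.map_eq_bot_iff_of_injective _ K.subtype_injective] at h
      exact hcen.ne h.symm
    have hZeq := (hinv _ (Subgroup.map_subtype_le _)
      (by rw [Subgroup.normalizer_eq_top_iff.mpr hZn]; exact le_top)).resolve_left hZne
    intro x hx y hy
    have hx' : x ∈ (Subgroup.center K).map K.subtype := by rw [hZeq]; exact hx
    obtain ⟨x', hx'c, rfl⟩ := hx'
    have := Subgroup.mem_center_iff.mp hx'c ⟨y, hy⟩
    exact (congrArg Subtype.val this).symm
  exact derived_two_of_abelian_sup K A hsup hKab hab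

end Cfsg.Agent.Lib.Helper1
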