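import Mathlib

set_option autoImplicit false

namespace Cfsg.Agent.Lib.Helper1

open scoped commutatorElement

theorem mc_lcs_stable {G : Type*} [Group G] (k : ℕ)
    (h : (⊤ : Subgroup G).lowerCentralSeries (k + 1) = (⊤ : Subgroup G).lowerCentralSeries k) :
    ∀ m, k ≤ m →
      (⊤ : Subgroup G).lowerCentralSeries m = (⊤ : Subgroup G).lowerCentralSeries k := by
  intro m hm
  induction m, hm using Nat.le_induction with
  | base => rfl
  | succ m hm ih =>
    rw [Subgroup.lowerCentralSeries_succ, ih, ← Subgroup.lowerCentralSeries_succ, h]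

theorem mc_lcs_strict {G : Type*} [Group G] [Group.IsNilpotent G] (k : ℕ)
    (hk : k < Group.nilpotencyClass G) :
    (⊤ : Subgroup G).lowerCentralSeries (k + 1) < (⊤ : Subgroup G).lowerCentralSeries k := by
  refine lt_of_le_of_ne (Subgroup.lowerCentralSeries_antitone _ (Nat.le_succ k)) ?_
  intro h
  have h1 := mc_lcs_stable k h (Group.nilpotencyClass G) hk.le
  rw [Subgroup.lowerCentralSeries_nilpotencyClass] at h1
  have h2 := (Subgroup.lowerCentralSeries_eq_bot_iff_nilpotencyClass_le (G := G) (n := k)).mp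
    h1.symm
  omega

theorem mc_not_cyclic {G : Type*} [Group G]
    (hc : IsCyclic (G ⧸ (⊤ : Subgroup G).lowerCentralSeries 1)) :
    (⊤ : Subgroup G).lowerCentralSeries 1 ≤ (⊤ : Subgroup G).lowerCentralSeries 2 := by
  obtain ⟨L2, hL2⟩ : ∃ L2, L2 = (⊤ : Subgroup G).lowerCentralSeries 2 := ⟨_, rfl⟩
  haveI : L2.Normal := by rw [hL2]; infer_instance
  have hcent : ∀ u ∈ (⊤ : Subgroup G).lowerCentralSeries 1, ∀ g : G,
      (QuotientGroup.mk' L2 u) * (QuotientGroup.mk' L2 g) =
        (QuotientGroup.mk' L2 g) * (QuotientGroup.mk' L2 u) := by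
    intro u hu g
    have h1 : ⁅u, g⁆ ∈ L2 := by
      rw [hL2, Subgroup.lowerCentralSeries_succ]
      exact Subgroup.commutator_mem_commutator hu (Subgroup.mem_top g)
    have h2 : QuotientGroup.mk' L2 ⁅u, g⁆ = 1 := (QuotientGroup.eq_one_iff _).mpr h1
    rw [commutatorElement_def, map_mul, map_mul, map_mul, map_inv, map_inv] at h2
    have h3 := mul_inv_eq_one.mp h2
    exact mul_inv_eq_iff_eq_mul.mp h3
  obtain ⟨q, hq⟩ := hc.exists_generator
  obtain ⟨x, rfl⟩ := QuotientGroup.mk_surjective q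
  have hdec : ∀ a : G, ∃ i : ℤ, ∃ u ∈ (⊤ : Subgroup G).lowerCentralSeries 1, a = x ^ i * u := by
    intro a
    obtain ⟨i, hi⟩ := Subgroup.mem_zpowers_iff.mp
      (hq (a : G ⧸ (⊤ : Subgroup G).lowerCentralSeries 1))
    refine ⟨i, (x ^ i)⁻¹ * a, ?_, by group⟩
    have h1 : ((x ^ i : G) : G ⧸ (⊤ : Subgroup G).lowerCentralSeries 1) =
        (a : G ⧸ (⊤ : Subgroup G).lowerCentralSeries 1) := by
      rw [QuotientGroup.mk_zpow]; exact hi
    exact QuotientGroup.eq.mp h1
  rw [← hL2]
  have hL1' : (⊤ : Subgroup G).lowerCentralSeries 1 = ⁅(⊤ : Subgroup G), ⊤⁆ := rfl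
  rw [hL1', Subgroup.commutator_le]
  intro a _ b _
  obtain ⟨i, u, hu, rfl⟩ := hdec a
  obtain ⟨j, v, hv, rfl⟩ := hdec b
  apply (QuotientGroup.eq_one_iff _).mp
  show QuotientGroup.mk' L2 ⁅x ^ i * u, x ^ j * v⁆ = 1
  rw [commutatorElement_def, map_mul, map_mul, map_mul, map_inv, map_inv]
  rw [mul_inv_eq_one, mul_inv_eq_iff_eq_mul]
  rw [map_mul, map_mul]
  have hAB : QuotientGroup.mk' L2 (x ^ i) * QuotientGroup.mk' L2 (x ^ j) =
      QuotientGroup.mk' L2 (x ^ j) * QuotientGroup.mk' L2 (x ^ i) := by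
    rw [← map_mul, ← map_mul, zpow_mul_comm]
  have hUB := hcent u hu (x ^ j)
  have hVA := hcent v hv (x ^ i)
  have hUV := hcent u hu v
  obtain ⟨A, hA⟩ : ∃ A, A = QuotientGroup.mk' L2 (x ^ i) := ⟨_, rfl⟩
  obtain ⟨B, hB⟩ : ∃ B, B = QuotientGroup.mk' L2 (x ^ j) := ⟨_, rfl⟩
  obtain ⟨U, hU⟩ : ∃ U, U = QuotientGroup.mk' L2 u := ⟨_, rfl⟩
  obtain ⟨V, hV⟩ : ∃ V, V = QuotientGroup.mk' L2 v := ⟨_, rfl⟩
  simp only [← hA, ← hB, ← hU, ← hV] at hAB hUB hVA hUV ⊢
  calc A * U * (B * V) = A * (U * B) * V := by simp only [mul_assoc]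
    _ = A * (B * U) * V := by rw [hUB]
    _ = (A * B) * (U * V) := by simp only [mul_assoc]
    _ = (B * A) * (V * U) := by rw [hAB, hUV]
    _ = B * (A * V) * U := by simp only [mul_assoc]
    _ = B * (V * A) * U := by rw [hVA]
    _ = B * V * (A * U) := by simp only [mul_assoc]

theorem mc_exponents {G : Type*} [Group G] [Finite G] {p : ℕ} (hp : p.Prime) (m : ℕ)
    (hG : Nat.card G = p ^ m) [Group.IsNilpotent G] :
    ∃ e : ℕ → ℕ, (∀ k, Nat.card ((⊤ : Subgroup G).lowerCentralSeries k) = p ^ e k) ∧ e 0 = m ∧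
      (∀ k, k < Group.nilpotencyClass G → e (k + 1) < e k) ∧
      e (Group.nilpotencyClass G) = 0 ∧
      (2 ≤ Group.nilpotencyClass G → e 1 + 2 ≤ m) := by
  have h1 : ∀ k, ∃ e, Nat.card ((⊤ : Subgroup G).lowerCentralSeries k) = p ^ e := fun k => by
    have h2 := Subgroup.card_subgroup_dvd_card ((⊤ : Subgroup G).lowerCentralSeries k)
    rw [hG] at h2
    obtain ⟨e, -, he⟩ := (Nat.dvd_prime_pow hp).mp h2
    exact ⟨e, he⟩
  choose e he using h1
  have hstrict : ∀ k, k < Group.nilpotencyClass G → e (k + 1) < e k := by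
    intro k hk
    by_contra hcon
    push Not at hcon
    have hlt := mc_lcs_strict (G := G) k hk
    have hle : Nat.card ((⊤ : Subgroup G).lowerCentralSeries k) ≤
        Nat.card ((⊤ : Subgroup G).lowerCentralSeries (k + 1)) := by
      rw [he, he]; exact Nat.pow_le_pow_right hp.pos hcon
    exact (ne_of_lt hlt) (Subgroup.eq_of_le_of_card_ge hlt.le hle)
  refine ⟨e, he, ?_, hstrict, ?_, ?_⟩
  · have h0 := he 0
    rw [Subgroup.lowerCentralSeries_zero, Subgroup.card_top, hG] at h0
    exact (Nat.pow_right_injective hp.two_le h0).symm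
  · have h0 := he (Group.nilpotencyClass G)
    rw [Subgroup.lowerCentralSeries_nilpotencyClass, Subgroup.card_bot] at h0
    by_contra hne
    have h3 : 1 < p ^ e (Group.nilpotencyClass G) := Nat.one_lt_pow hne hp.one_lt
    omega
  · intro hc2
    by_contra hcon
    push Not at hcon
    have hidx : ((⊤ : Subgroup G).lowerCentralSeries 1).index * p ^ e 1 = p ^ m := by
      rw [← he 1, ← hG]; exact Subgroup.index_mul_card _
    have he1m : e 1 ≤ m :=
      (Nat.pow_dvd_pow_iff_le_right hp.one_lt).mp ⟨_, by rw [mul_comm]; exact hidx.symm⟩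
    have hidx' : ((⊤ : Subgroup G).lowerCentralSeries 1).index = p ^ (m - e 1) := by
      have h3 : p ^ m = p ^ (m - e 1) * p ^ e 1 := by rw [← pow_add]; congr 1; omega
      rw [h3] at hidx
      exact Nat.eq_of_mul_eq_mul_right (pow_pos hp.pos _) hidx
    have hcyc : IsCyclic (G ⧸ (⊤ : Subgroup G).lowerCentralSeries 1) := by
      rcases Nat.lt_or_ge (m - e 1) 1 with h | h
      · have h4 : Nat.card (G ⧸ (⊤ : Subgroup G).lowerCentralSeries 1) = 1 := by
          rw [← Subgroup.index_eq_card, hidx', show m - e 1 = 0 by omega, pow_zero]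
        haveI : Subsingleton (G ⧸ (⊤ : Subgroup G).lowerCentralSeries 1) :=
          (Nat.card_eq_one_iff_unique.mp h4).1
        exact isCyclic_of_subsingleton
      · haveI : Fact p.Prime := ⟨hp⟩
        apply isCyclic_of_prime_card (p := p)
        rw [← Subgroup.index_eq_card, hidx', show m - e 1 = 1 by omega, pow_one]
    have h12 := mc_not_cyclic hcyc
    exact absurd h12 (not_le_of_gt (mc_lcs_strict (G := G) 1 (by omega)))

theorem mc_lower (e : ℕ → ℕ) (c : ℕ) (hs : ∀ k, k < c → e (k + 1) < e k) :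
    ∀ j, j ≤ c → j ≤ e (c - j) := by
  intro j
  induction j with
  | zero => intro _; exact Nat.zero_le _
  | succ j ih =>
    intro hj
    have h1 := ih (by omega)
    have h2 := hs (c - (j + 1)) (by omega)
    rw [show c - (j + 1) + 1 = c - j by omega] at h2
    omega

theorem mc_upper (e : ℕ → ℕ) (c m : ℕ) (hs : ∀ k, k < c → e (k + 1) < e k)
    (h1 : e 1 + 2 ≤ m) : ∀ k, 1 ≤ k → k ≤ c → e k + k + 1 ≤ m := by
  intro k hk
  induction k, hk using Nat.le_induction with
  | base => intro _; omega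
  | succ k hk ih =>
    intro hkc
    have h2 := ih (by omega)
    have h3 := hs k (by omega)
    omega

theorem mc_normal_index {G : Type*} [Group G] [Finite G] {p : ℕ} [Fact p.Prime] (n : ℕ)
    (hG : Nat.card G = p ^ n) (hcl : Group.nilpotencyClass G = n - 1) (hn : 3 ≤ n)
    (N : Subgroup G) [N.Normal] (r : ℕ) (hr : 2 ≤ r) (hN : N.index = p ^ r) :
    N = (⊤ : Subgroup G).lowerCentralSeries (r - 1) := by
  have hp : p.Prime := Fact.out
  haveI : Group.IsNilpotent G := (IsPGroup.of_card hG).isNilpotent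
  obtain ⟨e, he, he0, hes, hec, he1⟩ := mc_exponents hp n hG
  rw [hcl] at hes hec he1
  have hr_le : r ≤ n := by
    have h1 := Subgroup.index_dvd_card N
    rw [hN, hG] at h1
    exact (Nat.pow_dvd_pow_iff_le_right hp.one_lt).mp h1
  have hlow := mc_lower e (n - 1) hes (n - 1 - (r - 1)) (by omega)
  rw [show n - 1 - (n - 1 - (r - 1)) = r - 1 by omega] at hlow
  have hup := mc_upper e (n - 1) n hes (he1 (by omega)) (r - 1) (by omega) (by omega)
  have hek : e (r - 1) = n - r := by omega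
  have hQcard : Nat.card (G ⧸ N) = p ^ r := by rw [← Subgroup.index_eq_card, hN]
  haveI : Group.IsNilpotent (G ⧸ N) := (IsPGroup.of_card hQcard).isNilpotent
  obtain ⟨e', he', he0', hes', hec', he1'⟩ := mc_exponents hp r hQcard
  obtain ⟨c', hc'⟩ : ∃ c', c' = Group.nilpotencyClass (G ⧸ N) := ⟨_, rfl⟩
  rw [← hc'] at hes' hec' he1'
  have hclQ : c' ≤ r - 1 := by
    by_contra hcon
    push Not at hcon
    have h2 : 2 ≤ c' := by omega
    have hlow' := mc_lower e' c' hes' (c' - 1) (by omega)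
    rw [show c' - (c' - 1) = 1 by omega] at hlow'
    have h3 := he1' h2
    omega
  rw [hc'] at hclQ
  have hbot := (Subgroup.lowerCentralSeries_eq_bot_iff_nilpotencyClass_le (G := G ⧸ N)).mpr hclQ
  have hle : (⊤ : Subgroup G).lowerCentralSeries (r - 1) ≤ N := by
    intro g hg
    have h1 : QuotientGroup.mk' N g ∈
        ((⊤ : Subgroup G).lowerCentralSeries (r - 1)).map (QuotientGroup.mk' N) :=
      Subgroup.mem_map_of_mem _ hg
    rw [Subgroup.map_lowerCentralSeries,
      Subgroup.map_top_of_surjective _ (QuotientGroup.mk'_surjective N), hbot,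
      Subgroup.mem_bot] at h1
    exact (QuotientGroup.eq_one_iff g).mp h1
  symm
  apply Subgroup.eq_of_le_of_card_ge hle
  rw [he, hek]
  have h3 := Subgroup.index_mul_card N
  rw [hN, hG] at h3
  have h4 : p ^ n = p ^ r * p ^ (n - r) := by rw [← pow_add]; congr 1; omega
  rw [h4] at h3
  exact le_of_eq (Nat.eq_of_mul_eq_mul_left (pow_pos hp.pos r) h3)

theorem mc_count {G : Type*} [Group G] [Finite G] {p : ℕ} [Fact p.Prime] (n : ℕ)
    (hG : Nat.card G = p ^ n) (hn : 2 ≤ n) (L : Subgroup G) [L.Normal]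
    (hL : Nat.card L = p ^ (n - 2)) (hnc : ¬ IsCyclic (G ⧸ L))
    (hLle : ∀ N : Subgroup G, N.Normal → N.index = p → L ≤ N) :
    Nat.card {N : Subgroup G // N.Normal ∧ N.index = p} = p + 1 := by
  classical
  have hp : p.Prime := Fact.out
  have hQ : Nat.card (G ⧸ L) = p ^ 2 := by
    rw [← Subgroup.index_eq_card]
    have h1 := Subgroup.index_mul_card L
    rw [hL, hG] at h1
    have h2 : p ^ n = p ^ 2 * p ^ (n - 2) := by rw [← pow_add]; congr 1; omega
    rw [h2] at h1
    exact Nat.eq_of_mul_eq_mul_right (pow_pos hp.pos _) h1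
  have hord : ∀ g : G, g ∉ L → orderOf (QuotientGroup.mk' L g) = p := by
    intro g hg
    have h1 : orderOf (QuotientGroup.mk' L g) ∣ p ^ 2 := hQ ▸ orderOf_dvd_natCard _
    obtain ⟨k, hk, hk'⟩ := (Nat.dvd_prime_pow hp).mp h1
    have hk0 : k ≠ 0 := by
      rintro rfl
      rw [pow_zero, orderOf_eq_one_iff] at hk'
      exact hg ((QuotientGroup.eq_one_iff g).mp hk')
    have hk2 : k ≠ 2 := by
      rintro rfl
      apply hnc
      exact isCyclic_of_orderOf_eq_card (QuotientGroup.mk' L g) (by rw [hk', hQ])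
    have hk1 : k = 1 := by omega
    rw [hk', hk1, pow_one]
  have hφidx : ∀ g : G, g ∉ L →
      ((Subgroup.zpowers (QuotientGroup.mk' L g)).comap (QuotientGroup.mk' L)).index = p := by
    intro g hg
    rw [Subgroup.index_comap_of_surjective _ (QuotientGroup.mk'_surjective L)]
    have h1 := Subgroup.index_mul_card (Subgroup.zpowers (QuotientGroup.mk' L g))
    rw [Nat.card_zpowers, hord g hg, hQ, pow_two] at h1
    exact Nat.eq_of_mul_eq_mul_right hp.pos h1
  have hφn : ∀ g : G, g ∉ L →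
      ((Subgroup.zpowers (QuotientGroup.mk' L g)).comap (QuotientGroup.mk' L)).Normal := by
    intro g hg
    apply Subgroup.normal_of_index_eq_minFac_card
    rw [hφidx g hg, hG, hp.pow_minFac (by omega)]
  let φ : {g : G // g ∉ L} → {N : Subgroup G // N.Normal ∧ N.index = p} := fun g =>
    ⟨(Subgroup.zpowers (QuotientGroup.mk' L g.1)).comap (QuotientGroup.mk' L),
      hφn g.1 g.2, hφidx g.1 g.2⟩
  have hfiber : ∀ (N : {N : Subgroup G // N.Normal ∧ N.index = p}) (g : {g : G // g ∉ L}),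
      φ g = N ↔ g.1 ∈ N.1 := by
    intro N g
    constructor
    · intro h
      rw [← h]
      show QuotientGroup.mk' L g.1 ∈ Subgroup.zpowers (QuotientGroup.mk' L g.1)
      exact Subgroup.mem_zpowers _
    · intro h
      apply Subtype.ext
      show (Subgroup.zpowers (QuotientGroup.mk' L g.1)).comap (QuotientGroup.mk' L) = N.1
      have hle : (Subgroup.zpowers (QuotientGroup.mk' L g.1)).comap (QuotientGroup.mk' L) ≤
          N.1 := by
        intro x hx
        obtain ⟨i, hi⟩ := Subgroup.mem_zpowers_iff.mp (Subgroup.mem_comap.mp hx)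
        have h1 : QuotientGroup.mk' L (g.1 ^ i) = QuotientGroup.mk' L x := by
          rw [map_zpow]; exact hi
        have h2 : (g.1 ^ i)⁻¹ * x ∈ L := QuotientGroup.eq.mp h1
        have h3 : (g.1 ^ i)⁻¹ * x ∈ N.1 := hLle N.1 N.2.1 N.2.2 h2
        have h4 : g.1 ^ i ∈ N.1 := N.1.zpow_mem h i
        have h5 := N.1.mul_mem h4 h3
        rwa [mul_inv_cancel_left] at h5
      have h1 := Subgroup.relIndex_mul_index hle
      rw [N.2.2, hφidx g.1 g.2] at h1
      have h2 : ((Subgroup.zpowers (QuotientGroup.mk' L g.1)).comap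
          (QuotientGroup.mk' L)).relIndex N.1 = 1 := by
        have h3 : ((Subgroup.zpowers (QuotientGroup.mk' L g.1)).comap
            (QuotientGroup.mk' L)).relIndex N.1 * p = 1 * p := by rw [h1, one_mul]
        exact Nat.eq_of_mul_eq_mul_right hp.pos h3
      exact le_antisymm hle (Subgroup.relIndex_eq_one.mp h2)
  haveI : Fintype {N : Subgroup G // N.Normal ∧ N.index = p} := Fintype.ofFinite _
  have hcount : Nat.card {g : G // g ∉ L} =
      ∑ N : {N : Subgroup G // N.Normal ∧ N.index = p},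
        Nat.card {g : {g : G // g ∉ L} // φ g = N} := by
    rw [← Nat.card_sigma]
    exact Nat.card_congr (Equiv.sigmaFiberEquiv φ).symm
  have hNcard : ∀ N : {N : Subgroup G // N.Normal ∧ N.index = p},
      Nat.card N.1 = p * p ^ (n - 2) := by
    intro N
    have h3 := Subgroup.index_mul_card N.1
    rw [N.2.2, hG] at h3
    have h4 : p ^ n = p * (p * p ^ (n - 2)) := by
      rw [← pow_succ', ← pow_succ']; congr 1; omega
    rw [h4] at h3
    exact Nat.eq_of_mul_eq_mul_left hp.pos h3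
  have hfib : ∀ N : {N : Subgroup G // N.Normal ∧ N.index = p},
      Nat.card {g : {g : G // g ∉ L} // φ g = N} + p ^ (n - 2) = p * p ^ (n - 2) := by
    intro N
    have hLN : L ≤ N.1 := hLle N.1 N.2.1 N.2.2
    have e1 : {g : {g : G // g ∉ L} // φ g = N} ≃ {x : N.1 // (x : G) ∉ L} :=
      { toFun := fun g => ⟨⟨g.1.1, (hfiber N g.1).mp g.2⟩, g.1.2⟩
        invFun := fun x => ⟨⟨x.1.1, x.2⟩, (hfiber N ⟨x.1.1, x.2⟩).mpr x.1.2⟩
        left_inv := fun g => rfl
        right_inv := fun x => rfl }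
    have e2 : {x : N.1 // (x : G) ∈ L} ≃ L :=
      { toFun := fun x => ⟨x.1.1, x.2⟩
        invFun := fun y => ⟨⟨y.1, hLN y.2⟩, y.2⟩
        left_inv := fun x => rfl
        right_inv := fun y => rfl }
    have h1 := Nat.card_congr (Equiv.sumCompl (fun x : N.1 => (x : G) ∈ L))
    rw [Nat.card_sum, Nat.card_congr e2, ← Nat.card_congr e1, hL, hNcard N] at h1
    omega
  have htot : Nat.card {g : G // g ∉ L} + p ^ (n - 2) = p * (p * p ^ (n - 2)) := by
    have h1 := Nat.card_congr (Equiv.sumCompl (fun x : G => x ∈ L))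
    rw [Nat.card_sum, hL, hG] at h1
    have h4 : p ^ n = p * (p * p ^ (n - 2)) := by
      rw [← pow_succ', ← pow_succ']; congr 1; omega
    omega
  obtain ⟨q, hq⟩ : ∃ q, q = p ^ (n - 2) := ⟨_, rfl⟩
  have hqpos : 0 < q := by rw [hq]; exact pow_pos hp.pos _
  rw [← hq] at hfib htot
  obtain ⟨F, hF⟩ : ∃ F, F + q = p * q := by
    obtain ⟨s, hs⟩ : ∃ s, p = s + 1 := ⟨p - 1, by have := hp.pos; omega⟩
    exact ⟨s * q, by rw [hs]; ring⟩
  have hfibF : ∀ N : {N : Subgroup G // N.Normal ∧ N.index = p},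
      Nat.card {g : {g : G // g ∉ L} // φ g = N} = F := by
    intro N
    have := hfib N
    omega
  rw [hcount, Finset.sum_congr rfl (fun N _ => hfibF N), Finset.sum_const, Finset.card_univ,
    smul_eq_mul, ← Nat.card_eq_fintype_card] at htot
  obtain ⟨t, ht⟩ : ∃ t, t = Nat.card {N : Subgroup G // N.Normal ∧ N.index = p} := ⟨_, rfl⟩
  rw [← ht] at htot ⊢
  have hFpos : 0 < F := by
    have h2 : 2 * q ≤ p * q := Nat.mul_le_mul_right q hp.two_le
    omega
  have E3 : p * F + p * q = p * (p * q) := by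
    calc p * F + p * q = p * (F + q) := by ring
      _ = p * (p * q) := by rw [hF]
  have E4 : (p + 1) * F = p * F + F := by ring
  have E5 : t * F = (p + 1) * F := by omega
  exact Nat.eq_of_mul_eq_mul_right hFpos E5

theorem mc_main {G : Type*} [Group G] [Finite G] {p : ℕ} [Fact p.Prime] (n : ℕ)
    (hG : Nat.card G = p ^ n) (hcl : Group.nilpotencyClass G = n - 1) (hn : 3 ≤ n) :
    (∀ (N : Subgroup G) [N.Normal] (r : ℕ), 2 ≤ r → N.index = p ^ r →
      N = (⊤ : Subgroup G).lowerCentralSeries (r - 1)) ∧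
    Nat.card {N : Subgroup G // N.Normal ∧ N.index = p} = p + 1 := by
  have hp : p.Prime := Fact.out
  refine ⟨fun N hN r hr hidx => mc_normal_index n hG hcl hn N r hr hidx, ?_⟩
  haveI : Group.IsNilpotent G := (IsPGroup.of_card hG).isNilpotent
  obtain ⟨e, he, he0, hes, hec, he1⟩ := mc_exponents hp n hG
  rw [hcl] at hes hec he1
  have hlow := mc_lower e (n - 1) hes (n - 2) (by omega)
  rw [show n - 1 - (n - 2) = 1 by omega] at hlow
  have hup := he1 (by omega)
  have he1' : e 1 = n - 2 := by omega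
  apply mc_count n hG (by omega) ((⊤ : Subgroup G).lowerCentralSeries 1)
  · rw [he, he1']
  · intro hcyc
    have h12 := mc_not_cyclic hcyc
    exact absurd h12 (not_le_of_gt (mc_lcs_strict (G := G) 1 (by rw [hcl]; omega)))
  · intro N hN hidx
    haveI := hN
    haveI : IsCyclic (G ⧸ N) := isCyclic_of_prime_card (p := p) (by
      rw [← Subgroup.index_eq_card]; exact hidx)
    have hL1' : (⊤ : Subgroup G).lowerCentralSeries 1 = ⁅(⊤ : Subgroup G), ⊤⁆ := rfl
    rw [hL1', Subgroup.commutator_le]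
    intro a _ b _
    apply (QuotientGroup.eq_one_iff _).mp
    show QuotientGroup.mk' N ⁅a, b⁆ = 1
    rw [commutatorElement_def, map_mul, map_mul, map_mul, map_inv, map_inv]
    rw [mul_inv_eq_one, mul_inv_eq_iff_eq_mul]
    exact mul_comm' _ _

end Cfsg.Agent.Lib.Helper1
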