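import Mathlib

set_option autoImplicit false

namespace Cfsg.Agent.Lib.Helper1

/-- Normal form `s + t α + u β + w αβ` with coefficients coming from a commutative ring, of norm one. -/
def OsNF {R K : Type*} [Ring R] [CommRing K] (φ : K →+* R) (α β : R) (k : K) (z : R) : Prop :=
  ∃ s t u w : K, s * s + s * w * k - t * u * k = 1 ∧
    z = φ s + φ t * α + φ u * β + φ w * (α * β)

theorem osNF_one {R K : Type*} [Ring R] [CommRing K] (φ : K →+* R) (α β : R) (k : K) :
    OsNF φ α β k 1 :=
  ⟨1, 0, 0, 0, by ring, by simp⟩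

theorem osNF_mul_add_a {R K : Type*} [Ring R] [CommRing K] (φ : K →+* R) (α β : R) (k : K)
    (hαα : α * α = 0) (hk : φ k = α * β + β * α) (z : R) (hz : OsNF φ α β k z) :
    OsNF φ α β k (z * (1 + α)) := by
  obtain ⟨s, t, u, w, hN, rfl⟩ := hz
  refine ⟨s + u * k, t + s + w * k, u, w - u, by linear_combination hN, ?_⟩
  rw [← sub_eq_zero]
  have h : (φ s + φ t * α + φ u * β + φ w * (α * β)) * (1 + α) -
      (φ (s + u * k) + φ (t + s + w * k) * α + φ u * β + φ (w - u) * (α * β))
      = φ t * (α * α) - φ w * β * (α * α) := by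
    simp only [map_add, map_mul, map_sub, hk]; noncomm_ring
  rw [h, hαα]; simp

theorem osNF_mul_sub_a {R K : Type*} [Ring R] [CommRing K] (φ : K →+* R) (α β : R) (k : K)
    (hαα : α * α = 0) (hk : φ k = α * β + β * α) (z : R) (hz : OsNF φ α β k z) :
    OsNF φ α β k (z * (1 - α)) := by
  obtain ⟨s, t, u, w, hN, rfl⟩ := hz
  refine ⟨s - u * k, t - s - w * k, u, w + u, by linear_combination hN, ?_⟩
  rw [← sub_eq_zero]
  have h : (φ s + φ t * α + φ u * β + φ w * (α * β)) * (1 - α) -
      (φ (s - u * k) + φ (t - s - w * k) * α + φ u * β + φ (w + u) * (α * β))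
      = - (φ t * (α * α)) + φ w * β * (α * α) := by
    simp only [map_add, map_mul, map_sub, hk]; noncomm_ring
  rw [h, hαα]; simp

theorem osNF_mul_add_b {R K : Type*} [Ring R] [CommRing K] (φ : K →+* R) (α β : R) (k : K)
    (hββ : β * β = 0) (z : R) (hz : OsNF φ α β k z) :
    OsNF φ α β k (z * (1 + β)) := by
  obtain ⟨s, t, u, w, hN, rfl⟩ := hz
  refine ⟨s, t, u + s, w + t, by linear_combination hN, ?_⟩
  rw [← sub_eq_zero]
  have h : (φ s + φ t * α + φ u * β + φ w * (α * β)) * (1 + β) -
      (φ s + φ t * α + φ (u + s) * β + φ (w + t) * (α * β))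
      = φ u * (β * β) + φ w * α * (β * β) := by
    simp only [map_add, map_mul, map_sub]; noncomm_ring
  rw [h, hββ]; simp

theorem osNF_mul_sub_b {R K : Type*} [Ring R] [CommRing K] (φ : K →+* R) (α β : R) (k : K)
    (hββ : β * β = 0) (z : R) (hz : OsNF φ α β k z) :
    OsNF φ α β k (z * (1 - β)) := by
  obtain ⟨s, t, u, w, hN, rfl⟩ := hz
  refine ⟨s, t, u - s, w - t, by linear_combination hN, ?_⟩
  rw [← sub_eq_zero]
  have h : (φ s + φ t * α + φ u * β + φ w * (α * β)) * (1 - β) -
      (φ s + φ t * α + φ (u - s) * β + φ (w - t) * (α * β))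
      = - (φ u * (β * β)) - φ w * α * (β * β) := by
    simp only [map_add, map_mul, map_sub]; noncomm_ring
  rw [h, hββ]; simp

theorem osNF_central {R K : Type*} [Ring R] [CommRing K] (φ : K →+* R) (α β : R) (k : K)
    (hαα : α * α = 0) (hββ : β * β = 0) (hk : φ k = α * β + β * α)
    (hφα : ∀ s, φ s * α = α * φ s) (hφβ : ∀ s, φ s * β = β * φ s)
    (hS : ∀ f : R, f * α = α * f → f * β = β * f → f = 0 ∨ ∀ g, f * g = 0 → g = 0)
    (hc : α * β + β * α ≠ 0)
    (z : R) (hz : OsNF φ α β k z)
    (hzα : z * α = α * z) (hzβ : z * β = β * z) : z * z = 1 := by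
  obtain ⟨s, t, u, w, hN, rfl⟩ := hz
  have hα0 : α ≠ 0 := by rintro rfl; exact hc (by simp)
  have hβ0 : β ≠ 0 := by rintro rfl; exact hc (by simp)
  have kill : ∀ (f g : R), f * α = α * f → f * β = β * f → g ≠ 0 → f * g = 0 → f = 0 :=
    fun f g h1 h2 hg h => (hS f h1 h2).resolve_right (fun h' => hg (h' g h))
  have hαα' : ∀ x : R, x * α * α = 0 := fun x => by rw [mul_assoc, hαα, mul_zero]
  have hββ' : ∀ x : R, x * β * β = 0 := fun x => by rw [mul_assoc, hββ, mul_zero]
  have X1 : ∀ v : K, φ v * (α * β * α) = 0 → φ v = 0 := by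
    intro v hv
    have h1 : φ (v * k) * α = 0 := by
      rw [map_mul, hk]
      have : φ v * (α * β + β * α) * α = φ v * (α * β * α) + φ v * β * (α * α) := by noncomm_ring
      rw [this, hv, hαα]; simp
    have h2 : φ (v * k) = 0 := kill _ α (hφα _) (hφβ _) hα0 h1
    rw [map_mul, hk] at h2
    exact kill _ _ (hφα v) (hφβ v) hc h2
  have X2 : ∀ v : K, φ v * (β * α * β) = 0 → φ v = 0 := by
    intro v hv
    have h1 : φ (v * k) * β = 0 := by
      rw [map_mul, hk]
      have : φ v * (α * β + β * α) * β = φ v * (β * α * β) + φ v * α * (β * β) := by noncomm_ring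
      rw [this, hv, hββ]; simp
    have h2 : φ (v * k) = 0 := kill _ β (hφα _) (hφβ _) hβ0 h1
    rw [map_mul, hk] at h2
    exact kill _ _ (hφα v) (hφβ v) hc h2
  have hU : φ u = 0 := by
    apply X1
    have h1 : α * (φ s + φ t * α + φ u * β + φ w * (α * β)) * α = 0 := by
      rw [← hzα, mul_assoc, hαα, mul_zero]
    have h2 : α * (φ s + φ t * α + φ u * β + φ w * (α * β)) * α = φ u * (α * β * α) := by
      simp only [mul_add, add_mul, ← mul_assoc, ← hφα, hαα', zero_mul, add_zero, zero_add]
    rw [← h2]; exact h1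
  have hT : φ t = 0 := by
    apply X2
    have h1 : β * (φ s + φ t * α + φ u * β + φ w * (α * β)) * β = 0 := by
      rw [← hzβ, mul_assoc, hββ, mul_zero]
    have h2 : β * (φ s + φ t * α + φ u * β + φ w * (α * β)) * β = φ t * (β * α * β) := by
      simp only [mul_add, add_mul, ← mul_assoc, ← hφβ, hββ', zero_mul, add_zero, zero_add]
    rw [← h2]; exact h1
  have hW : φ w = 0 := by
    apply X1
    have h1 := hzα
    rw [hU, hT] at h1
    simp only [zero_mul, add_zero, mul_add, add_mul, ← mul_assoc, ← hφα, hαα'] at h1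
    have h3 : φ w * α * β * α = 0 := by
      have := h1.trans (add_zero _).symm
      exact add_left_cancel this
    simp only [← mul_assoc]; exact h3
  have hN' := congrArg φ hN
  simp only [map_add, map_sub, map_mul, map_one, hU, hT, hW, zero_mul, mul_zero, add_zero,
    sub_zero] at hN'
  rw [hU, hT, hW]
  simpa using hN'

theorem os_aeval_comm {R : Type*} [Ring R] (c a : R) (h : c * a = a * c) (s : Polynomial ℤ) :
    Polynomial.aeval c s * a = a * Polynomial.aeval c s := by
  induction s using Polynomial.induction_on' with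
  | add p q hp hq => rw [map_add, add_mul, mul_add, hp, hq]
  | monomial n z =>
    rw [Polynomial.aeval_monomial]
    have h1 : c ^ n * a = a * c ^ n := (Commute.pow_left (show Commute c a from h) n).eq
    rw [mul_assoc, h1, ← mul_assoc, Algebra.commutes, mul_assoc]

end Cfsg.Agent.Lib.Helper1
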