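import Mathlib
import Cfsg.Agent.Lib.Helper1.OS1
import Cfsg.Agent.Lib.Helper1.GT4
import Cfsg.Agent.Lib.Helper6.Solv

set_option autoImplicit false

namespace Cfsg.Agent.Lib.Helper1

/-- automorphisms of a commutative group as additive endomorphisms -/
noncomputable def osE (V : Type*) [CommGroup V] : MulAut V →* AddMonoid.End (Additive V) where
  toFun ξ := MonoidHom.toAdditive ξ.toMonoidHom
  map_one' := rfl
  map_mul' _ _ := rfl

theorem osE_injective (V : Type*) [CommGroup V] : Function.Injective (osE V) := by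
  intro ξ η h
  ext v
  exact congrArg (fun f : AddMonoid.End (Additive V) => f (Additive.ofMul v)) h

theorem os_ker {V : Type*} [CommGroup V] (ξ η : MulAut V)
    (hirr : ∀ V₁ : Subgroup V, (∀ v ∈ V₁, ξ v ∈ V₁) → (∀ v ∈ V₁, η v ∈ V₁) → V₁ = ⊥ ∨ V₁ = ⊤)
    (f : AddMonoid.End (Additive V))
    (h1 : ∀ x, f x = 0 → f (osE V ξ x) = 0) (h2 : ∀ x, f x = 0 → f (osE V η x) = 0) :
    f = 0 ∨ ∀ x, f x = 0 → x = 0 := by
  let K : Subgroup V :=
    { carrier := {v | f (Additive.ofMul v) = 0}
      mul_mem' := by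
        intro a b ha hb
        have ha' : f (Additive.ofMul a) = 0 := ha
        have hb' : f (Additive.ofMul b) = 0 := hb
        show f (Additive.ofMul (a * b)) = 0
        rw [ofMul_mul, map_add, ha', hb', add_zero]
      one_mem' := by
        show f (Additive.ofMul 1) = 0
        rw [ofMul_one, map_zero]
      inv_mem' := by
        intro a ha
        have ha' : f (Additive.ofMul a) = 0 := ha
        show f (Additive.ofMul a⁻¹) = 0
        rw [ofMul_inv, map_neg, ha', neg_zero] }
  rcases hirr K (fun v hv => h1 _ hv) (fun v hv => h2 _ hv) with h | h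
  · right
    intro x hx
    have : Additive.toMul x ∈ K := hx
    rw [h, Subgroup.mem_bot] at this
    exact this
  · left
    ext x
    have : Additive.toMul x ∈ K := by rw [h]; exact Subgroup.mem_top _
    exact this

theorem os_quad_pow {V : Type*} [CommGroup V] {p : ℕ} (hVp : ∀ v : V, v ^ p = 1)
    (ζ : MulAut V) (hζ : ∀ v, ζ (ζ v) * v = ζ v * ζ v) : ζ ^ p = 1 := by
  have key : ∀ (n : ℕ) (v : V), (ζ ^ n) v = v * (ζ v * v⁻¹) ^ n := by
    intro n
    induction n with
    | zero => intro v; simp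
    | succ n ih =>
      intro v
      rw [pow_succ, MulAut.mul_apply, ih (ζ v)]
      have h1 : ζ (ζ v) * (ζ v)⁻¹ = ζ v * v⁻¹ := by
        rw [eq_mul_inv_of_mul_eq (hζ v), mul_right_comm, mul_inv_cancel_right]
      rw [h1, pow_succ, ← mul_assoc ((ζ v * v⁻¹) ^ n), mul_comm v, inv_mul_cancel_right, mul_comm]
  ext v
  rw [key, hVp, mul_one]; rfl

theorem os_ring1 {R : Type*} [Ring R] (e : R) : (e - 1) * (e - 1) = (e * e + 1) - (e + e) := by
  noncomm_ring

theorem os_ring2 {R : Type*} [Ring R] (α : R) : (1 + α) * (1 - α) = 1 - α * α := by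
  noncomm_ring

theorem os_ring3 {R : Type*} [Ring R] (α β : R) :
    (α * β + β * α) * α - α * (α * β + β * α) = β * (α * α) - (α * α) * β := by
  noncomm_ring

theorem os_ct {V : Type*} [CommGroup V] [Finite V] {p : ℕ} [Fact p.Prime] (hp2 : p ≠ 2)
    (hVp : ∀ v : V, v ^ p = 1)
    {H : Type*} [Group H] [Finite H] [Group.IsSolvable H] (hodd : Odd (Nat.card H))
    (ρ : H →* MulAut V) (a b : H)
    (hqa : ∀ v, ρ a (ρ a v) * v = ρ a v * ρ a v)
    (hqb : ∀ v, ρ b (ρ b v) * v = ρ b v * ρ b v)
    (hirr : ∀ V₁ : Subgroup V, (∀ v ∈ V₁, ρ a v ∈ V₁) → (∀ v ∈ V₁, ρ b v ∈ V₁) →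
      V₁ = ⊥ ∨ V₁ = ⊤) :
    ρ a = 1 ∧ ρ b = 1 := by
  classical
  have hp : p.Prime := Fact.out
  obtain ⟨ξ, hξ⟩ : ∃ ξ, ξ = ρ a := ⟨_, rfl⟩
  obtain ⟨η, hη⟩ : ∃ η, η = ρ b := ⟨_, rfl⟩
  rw [← hξ] at hqa hirr ⊢
  rw [← hη] at hqb hirr ⊢
  obtain ⟨eξ, heξ⟩ : ∃ e, e = osE V ξ := ⟨_, rfl⟩
  obtain ⟨eη, heη⟩ : ∃ e, e = osE V η := ⟨_, rfl⟩
  have hq1 : eξ * eξ + 1 = eξ + eξ := by rw [heξ]; exact AddMonoidHom.ext fun x => hqa x
  have hq2 : eη * eη + 1 = eη + eη := by rw [heη]; exact AddMonoidHom.ext fun x => hqb x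
  obtain ⟨α, hα⟩ : ∃ α, α = eξ - 1 := ⟨_, rfl⟩
  obtain ⟨β, hβ⟩ : ∃ β, β = eη - 1 := ⟨_, rfl⟩
  have hαα : α * α = 0 := by
    rw [hα, os_ring1, hq1, sub_self]
  have hββ : β * β = 0 := by
    rw [hβ, os_ring1, hq2, sub_self]
  have heξ' : eξ = 1 + α := by rw [hα]; abel
  have heη' : eη = 1 + β := by rw [hβ]; abel
  by_cases hc : α * β + β * α = 0
  · have hαβ : α * β = - (β * α) := eq_neg_of_add_eq_zero_left hc
    have hβα : β * α = - (α * β) := eq_neg_of_add_eq_zero_right hc
    have hα0 : α = 0 := by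
      have key := os_ker ξ η hirr α ?_ ?_
      · rcases key with h | h
        · exact h
        · ext x
          exact h (α x) (show (α * α) x = 0 by rw [hαα]; rfl)
      · intro x hx
        rw [← heξ, heξ']
        show α (x + α x) = 0
        rw [map_add, hx, zero_add]
        exact map_zero α
      · intro x hx
        rw [← heη, heη']
        show α (x + β x) = 0
        rw [map_add, hx, zero_add]
        show (α * β) x = 0
        rw [hαβ]
        show - (β (α x)) = 0
        rw [hx, map_zero, neg_zero]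
    have hβ0 : β = 0 := by
      have key := os_ker ξ η hirr β ?_ ?_
      · rcases key with h | h
        · exact h
        · ext x
          exact h (β x) (show (β * β) x = 0 by rw [hββ]; rfl)
      · intro x hx
        rw [← heξ, heξ']
        show β (x + α x) = 0
        rw [map_add, hx, zero_add]
        show (β * α) x = 0
        rw [hβα]
        show - (α (β x)) = 0
        rw [hx, map_zero, neg_zero]
      · intro x hx
        rw [← heη, heη']
        show β (x + β x) = 0
        rw [map_add, hx, zero_add]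
        exact map_zero β
    refine ⟨osE_injective V ?_, osE_injective V ?_⟩
    · rw [← heξ, heξ', hα0, add_zero, map_one]
    · rw [← heη, heη', hβ0, add_zero, map_one]
  · have hS : ∀ f : AddMonoid.End (Additive V), f * α = α * f → f * β = β * f →
        f = 0 ∨ ∀ g, f * g = 0 → g = 0 := by
      intro f hfα hfβ
      have hfξ : f * eξ = eξ * f := by rw [heξ', mul_add, add_mul, hfα, mul_one, one_mul]
      have hfη : f * eη = eη * f := by rw [heη', mul_add, add_mul, hfβ, mul_one, one_mul]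
      have key := os_ker ξ η hirr f ?_ ?_
      · rcases key with h | h
        · left; exact h
        · right
          intro g hg
          ext x
          exact h (g x) (show (f * g) x = 0 by rw [hg]; rfl)
      · intro x hx
        rw [← heξ]
        show (f * eξ) x = 0
        rw [hfξ]
        show eξ (f x) = 0
        rw [hx, map_zero]
      · intro x hx
        rw [← heη]
        show (f * eη) x = 0
        rw [hfη]
        show eη (f x) = 0
        rw [hx, map_zero]
    by_contra hcon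
    obtain ⟨Γ, hΓ⟩ : ∃ Γ : Subgroup (MulAut V), Γ = Subgroup.closure {ξ, η} := ⟨_, rfl⟩
    have hξΓ : ξ ∈ Γ := by rw [hΓ]; exact Subgroup.subset_closure (by simp)
    have hηΓ : η ∈ Γ := by rw [hΓ]; exact Subgroup.subset_closure (by simp)
    have hΓmap : Γ = (Subgroup.closure {a, b}).map ρ := by
      rw [hΓ, MonoidHom.map_closure, Set.image_pair, hξ, hη]
    haveI : Group.IsSolvable ↥Γ := by
      rw [hΓmap]
      exact Group.isSolvable_of_surjective (ρ.subgroupMap_surjective (Subgroup.closure {a, b}))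
    have hΓodd : Odd (Nat.card ↥Γ) := by
      rw [hΓmap]
      exact hodd.of_dvd_nat ((Subgroup.card_map_dvd _ ρ).trans (Subgroup.card_subgroup_dvd_card _))
    haveI : Nontrivial ↥Γ := by
      by_contra hnt
      rw [not_nontrivial_iff_subsingleton] at hnt
      apply hcon
      constructor
      · exact congrArg Subtype.val (Subsingleton.elim (⟨ξ, hξΓ⟩ : ↥Γ) 1)
      · exact congrArg Subtype.val (Subsingleton.elim (⟨η, hηΓ⟩ : ↥Γ) 1)
    obtain ⟨N₀, hN₀n, hN₀1, hN₀c⟩ :=
      Cfsg.Agent.Lib.Helper6.exists_abelian_normal_of_solvable (G := ↥Γ)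
    have hN₀card : Nat.card ↥N₀ ≠ 1 := fun h => hN₀1 (Subgroup.card_eq_one.mp h)
    obtain ⟨r, hr, hrd⟩ := Nat.exists_prime_and_dvd hN₀card
    haveI : Fact r.Prime := ⟨hr⟩
    obtain ⟨y₀, hy₀⟩ := exists_prime_orderOf_dvd_card' (G := ↥N₀) r hrd
    let M : Subgroup ↥Γ :=
      { carrier := {y | y ∈ N₀ ∧ y ^ r = 1}
        mul_mem' := by
          rintro x y ⟨hx, hx'⟩ ⟨hy, hy'⟩
          refine ⟨N₀.mul_mem hx hy, ?_⟩
          rw [(show Commute x y from hN₀c x hx y hy).mul_pow, hx', hy', one_mul]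
        one_mem' := ⟨N₀.one_mem, one_pow _⟩
        inv_mem' := by
          rintro x ⟨hx, hx'⟩
          exact ⟨N₀.inv_mem hx, by rw [inv_pow, hx', inv_one]⟩ }
    have hMmem : ∀ y : ↥Γ, y ∈ M ↔ y ∈ N₀ ∧ y ^ r = 1 := fun y => Iff.rfl
    have hMn : M.Normal := by
      constructor
      intro y hy g
      rw [hMmem] at hy ⊢
      refine ⟨hN₀n.conj_mem y hy.1 g, ?_⟩
      rw [conj_pow, hy.2, mul_one, mul_inv_cancel]
    have hM1 : M ≠ ⊥ := by
      intro h
      have h1 : y₀ ^ r = 1 := by rw [← hy₀]; exact pow_orderOf_eq_one y₀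
      have hmem : (y₀ : ↥Γ) ∈ M := ⟨y₀.2, congrArg Subtype.val h1⟩
      rw [h, Subgroup.mem_bot] at hmem
      have h2 : y₀ = 1 := Subtype.ext hmem
      rw [h2, orderOf_one] at hy₀
      exact hr.one_lt.ne hy₀
    have hMc : ∀ x y : ↥M, x * y = y * x := fun x y => Subtype.ext (hN₀c x.1 x.2.1 y.1 y.2.1)
    have hVnt : Nontrivial V := by
      by_contra hnt
      rw [not_nontrivial_iff_subsingleton] at hnt
      exact hcon ⟨by ext v; exact Subsingleton.elim _ _, by ext v; exact Subsingleton.elim _ _⟩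
    have hVp' : IsPGroup p V := fun v => ⟨1, by rw [pow_one]; exact hVp v⟩
    by_cases hrp : r = p
    · have hMp : IsPGroup p ↥M := fun g => ⟨1, by rw [pow_one, ← hrp]; exact Subtype.ext g.2.2⟩
      have hdvd : p ∣ Nat.card V := by
        obtain ⟨n, hn0, hn⟩ := (IsPGroup.nontrivial_iff_card hVp').mp hVnt
        rw [hn]; exact dvd_pow_self p hn0.ne'
      obtain ⟨v₀, hv₀, hv₀1⟩ := hMp.exists_fixed_point_of_prime_dvd_card_of_fixed_point V hdvd
        (a := (1 : V)) (by
          rw [MulAction.mem_fixedPoints]; intro m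
          show ((m : ↥Γ) : MulAut V) 1 = 1
          exact map_one _)
      let F : Subgroup V :=
        { carrier := {v | ∀ m : ↥Γ, m ∈ M → (m : MulAut V) v = v}
          mul_mem' := by intro x y hx hy m hm; rw [map_mul, hx m hm, hy m hm]
          one_mem' := by intro m hm; exact map_one _
          inv_mem' := by intro x hx m hm; rw [map_inv, hx m hm] }
      have hFξ : ∀ g : ↥Γ, ∀ v ∈ F, (g : MulAut V) v ∈ F := by
        intro g v hv m hm
        have h1 : g⁻¹ * m * g ∈ M := by
          have := hMn.conj_mem m hm g⁻¹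
          rwa [inv_inv] at this
        have h2 := hv _ h1
        have h3 : ((g : MulAut V))⁻¹ ((m : MulAut V) ((g : MulAut V) v)) = v := h2
        have h4 := congrArg (fun w => (g : MulAut V) w) h3
        simpa using h4
      rcases hirr F (fun v hv => hFξ ⟨ξ, hξΓ⟩ v hv) (fun v hv => hFξ ⟨η, hηΓ⟩ v hv) with h | h
      · have hmem : v₀ ∈ F := by
          intro m hm
          have := hv₀
          rw [MulAction.mem_fixedPoints] at this
          exact this ⟨m, hm⟩
        rw [h, Subgroup.mem_bot] at hmem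
        exact hv₀1 hmem.symm
      · apply hM1
        rw [eq_bot_iff]
        intro m hm
        rw [Subgroup.mem_bot]
        apply Subtype.ext
        ext v
        have : v ∈ F := by rw [h]; exact Subgroup.mem_top v
        exact this m hm
    · have hMcop : (Nat.card ↥M).Coprime p := by
        have hMr : IsPGroup r ↥M := fun g => ⟨1, by rw [pow_one]; exact Subtype.ext g.2.2⟩
        obtain ⟨n, hn⟩ := IsPGroup.iff_card.mp hMr
        rw [hn]
        exact Nat.Coprime.pow_left _ ((Nat.coprime_primes hr hp).mpr hrp)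
      have hcentral : ∀ (ζ : ↥Γ), (∀ v, (ζ : MulAut V) ((ζ : MulAut V) v) * v
            = (ζ : MulAut V) v * (ζ : MulAut V) v) →
          ∀ m : ↥Γ, m ∈ M → (ζ : MulAut V) * (m : MulAut V) = (m : MulAut V) * (ζ : MulAut V) := by
        intro ζ hζ m hm
        haveI := hMn
        have hζp : (MulAut.conjNormal ζ : MulAut ↥M) ^ p = 1 := by
          rw [← map_pow]
          have : ζ ^ p = 1 := Subtype.ext (os_quad_pow hVp _ hζ)
          rw [this, map_one]
        have hfrob := quad_frob hp2 hMc (fun x y : V => mul_comm x y) hMcop hVp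
          (MulAut.conjNormal ζ) hζp
          (Γ.subtype.comp M.subtype) (ζ : MulAut V) ?_ hζ ⟨m, hm⟩
        · have h1 : (ζ : MulAut V) * m * (ζ : MulAut V)⁻¹ * (m : MulAut V)⁻¹ = 1 := by
            ext v
            exact hfrob v
          calc (ζ : MulAut V) * m
              = ((ζ : MulAut V) * m * (ζ : MulAut V)⁻¹ * (m : MulAut V)⁻¹) * (m * ζ) := by group
            _ = m * ζ := by rw [h1, one_mul]
        · intro n v
          show (ζ : MulAut V) (((n : ↥Γ) : MulAut V) v)
            = ((ζ * (n : ↥Γ) * ζ⁻¹ : ↥Γ) : MulAut V) ((ζ : MulAut V) v)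
          show _ = (ζ : MulAut V) (((n : ↥Γ) : MulAut V) ((ζ : MulAut V)⁻¹ ((ζ : MulAut V) v)))
          rw [MulAut.inv_apply_self]
      obtain ⟨z, hzM, hz1⟩ : ∃ z ∈ M, z ≠ 1 := by
        by_contra hno
        push Not at hno
        exact hM1 ((Subgroup.eq_bot_iff_forall M).mpr hno)
      have hzξ := hcentral ⟨ξ, hξΓ⟩ hqa z hzM
      have hzη := hcentral ⟨η, hηΓ⟩ hqb z hzM
      obtain ⟨φ, hφ⟩ : ∃ φ : Polynomial ℤ →+* AddMonoid.End (Additive V),
          φ = (Polynomial.aeval (α * β + β * α) :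
            Polynomial ℤ →ₐ[ℤ] AddMonoid.End (Additive V)).toRingHom := ⟨_, rfl⟩
      have hcα : (α * β + β * α) * α = α * (α * β + β * α) := by
        rw [← sub_eq_zero, os_ring3, hαα]; simp
      have hcβ : (α * β + β * α) * β = β * (α * β + β * α) := by
        rw [← sub_eq_zero, add_comm (α * β), os_ring3, hββ]; simp
      have hk : φ Polynomial.X = α * β + β * α := by rw [hφ]; simp
      have hφα : ∀ s, φ s * α = α * φ s := fun s => by rw [hφ]; exact os_aeval_comm _ α hcα s
      have hφβ : ∀ s, φ s * β = β * φ s := fun s => by rw [hφ]; exact os_aeval_comm _ β hcβ s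
      have hinvξ : osE V ξ⁻¹ = 1 - α := by
        have h1 : osE V ξ⁻¹ * (1 + α) = 1 := by
          rw [← heξ', heξ, ← map_mul, inv_mul_cancel, map_one]
        calc osE V ξ⁻¹ = osE V ξ⁻¹ * ((1 + α) * (1 - α)) := by
              rw [os_ring2, hαα, sub_zero, mul_one]
          _ = (osE V ξ⁻¹ * (1 + α)) * (1 - α) := by rw [mul_assoc]
          _ = 1 - α := by rw [h1, one_mul]
      have hinvη : osE V η⁻¹ = 1 - β := by
        have h1 : osE V η⁻¹ * (1 + β) = 1 := by
          rw [← heη', heη, ← map_mul, inv_mul_cancel, map_one]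
        calc osE V η⁻¹ = osE V η⁻¹ * ((1 + β) * (1 - β)) := by
              rw [os_ring2, hββ, sub_zero, mul_one]
          _ = (osE V η⁻¹ * (1 + β)) * (1 - β) := by rw [mul_assoc]
          _ = 1 - β := by rw [h1, one_mul]
      have hNF : ∀ g ∈ Γ, OsNF φ α β Polynomial.X (osE V g) := by
        intro g hg
        rw [hΓ] at hg
        refine Subgroup.closure_induction_right
          (p := fun g _ => OsNF φ α β Polynomial.X (osE V g)) ?_ ?_ ?_ hg
        · rw [map_one]; exact osNF_one _ _ _ _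
        · intro x _ y hy ih
          rw [map_mul]
          rcases hy with h | h
          · rw [h, ← heξ, heξ']; exact osNF_mul_add_a φ α β _ hαα hk _ ih
          · rw [Set.mem_singleton_iff.mp h, ← heη, heη']; exact osNF_mul_add_b φ α β _ hββ _ ih
        · intro x _ y hy ih
          rw [map_mul]
          rcases hy with h | h
          · rw [h, hinvξ]; exact osNF_mul_sub_a φ α β _ hαα hk _ ih
          · rw [Set.mem_singleton_iff.mp h, hinvη]; exact osNF_mul_sub_b φ α β _ hββ _ ih
      have hzα : osE V z * α = α * osE V z := by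
        rw [hα, heξ, mul_sub, sub_mul, mul_one, one_mul, ← map_mul, ← map_mul]
        exact congrArg (fun t => osE V t - osE V z) hzξ.symm
      have hzβ : osE V z * β = β * osE V z := by
        rw [hβ, heη, mul_sub, sub_mul, mul_one, one_mul, ← map_mul, ← map_mul]
        exact congrArg (fun t => osE V t - osE V z) hzη.symm
      have hsq := osNF_central φ α β Polynomial.X hαα hββ hk hφα hφβ hS hc (osE V z)
        (hNF z z.2) hzα hzβ
      have hz2 : (z : MulAut V) * z = 1 := osE_injective V (by rw [map_mul, hsq, map_one])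
      have hz2' : z ^ 2 = 1 := Subtype.ext (by rw [pow_two]; exact hz2)
      have hord : orderOf z ∣ 2 := orderOf_dvd_of_pow_eq_one hz2'
      have hord2 : orderOf z ∣ Nat.card ↥Γ := orderOf_dvd_natCard z
      have h1 : orderOf z ∣ Nat.gcd 2 (Nat.card ↥Γ) := Nat.dvd_gcd hord hord2
      have h2 : Nat.gcd 2 (Nat.card ↥Γ) = 1 := Nat.coprime_two_left.mpr hΓodd
      rw [h2] at h1
      exact hz1 (orderOf_eq_one_iff.mp (Nat.dvd_one.mp h1))

theorem os_ct' {V : Type*} [Group V] [Finite V] (hVc : ∀ x y : V, x * y = y * x)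
    {p : ℕ} [Fact p.Prime] (hp2 : p ≠ 2)
    (hVp : ∀ v : V, v ^ p = 1)
    {H : Type*} [Group H] [Finite H] [Group.IsSolvable H] (hodd : Odd (Nat.card H))
    (ρ : H →* MulAut V) (a b : H)
    (hqa : ∀ v, ρ a (ρ a v) * v = ρ a v * ρ a v)
    (hqb : ∀ v, ρ b (ρ b v) * v = ρ b v * ρ b v)
    (hirr : ∀ V₁ : Subgroup V, (∀ v ∈ V₁, ρ a v ∈ V₁) → (∀ v ∈ V₁, ρ b v ∈ V₁) →
      V₁ = ⊥ ∨ V₁ = ⊤) :
    ρ a = 1 ∧ ρ b = 1 := by
  letI : CommGroup V := { (inferInstance : Group V) with mul_comm := hVc }
  exact os_ct hp2 hVp hodd ρ a b hqa hqb hirr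

end Cfsg.Agent.Lib.Helper1
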