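import Mathlib
import Cfsg.Agent.Lib.Helper1.OS2
import Cfsg.Agent.Lib.Helper6.Comm

set_option autoImplicit false
open scoped commutatorElement

namespace Cfsg.Agent.Lib.Helper1

universe u

theorem os_quad_conj {G : Type*} [Group G] (a v : G) (h : ⁅⁅v, a⁆, a⁆ = 1)
    (hc : (a * (a * v * a⁻¹) * a⁻¹) * (a * v * a⁻¹) = (a * v * a⁻¹) * (a * (a * v * a⁻¹) * a⁻¹)) :
    (a * (a * v * a⁻¹) * a⁻¹) * v = (a * v * a⁻¹) * (a * v * a⁻¹) := by
  rw [commutatorElement_def, commutatorElement_def] at h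
  have h1 : a * (v * a * v⁻¹ * a⁻¹) * a⁻¹ = v * a * v⁻¹ * a⁻¹ := by
    calc a * (v * a * v⁻¹ * a⁻¹) * a⁻¹
        = ((v * a * v⁻¹ * a⁻¹) * a * (v * a * v⁻¹ * a⁻¹)⁻¹ * a⁻¹)⁻¹ * (v * a * v⁻¹ * a⁻¹) := by
          group
      _ = v * a * v⁻¹ * a⁻¹ := by rw [h, inv_one, one_mul]
  have h2 : (a * v * a⁻¹) * (a * (a * v * a⁻¹) * a⁻¹)⁻¹ = v * (a * v * a⁻¹)⁻¹ := by
    calc (a * v * a⁻¹) * (a * (a * v * a⁻¹) * a⁻¹)⁻¹ = a * (v * a * v⁻¹ * a⁻¹) * a⁻¹ := by group
      _ = v * a * v⁻¹ * a⁻¹ := h1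
      _ = v * (a * v * a⁻¹)⁻¹ := by group
  calc (a * (a * v * a⁻¹) * a⁻¹) * v
      = (a * (a * v * a⁻¹) * a⁻¹) * (v * (a * v * a⁻¹)⁻¹) * (a * v * a⁻¹) := by group
    _ = (a * (a * v * a⁻¹) * a⁻¹) * ((a * v * a⁻¹) * (a * (a * v * a⁻¹) * a⁻¹)⁻¹)
          * (a * v * a⁻¹) := by rw [h2]
    _ = ((a * (a * v * a⁻¹) * a⁻¹) * (a * v * a⁻¹)) * (a * (a * v * a⁻¹) * a⁻¹)⁻¹
          * (a * v * a⁻¹) := by group
    _ = ((a * v * a⁻¹) * (a * (a * v * a⁻¹) * a⁻¹)) * (a * (a * v * a⁻¹) * a⁻¹)⁻¹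
          * (a * v * a⁻¹) := by rw [hc]
    _ = (a * v * a⁻¹) * (a * v * a⁻¹) := by group

theorem os_pow_conj {G : Type*} [Group G] (h x v : G) (hv : v * h = h * v)
    (hx : x * h = h * x * v) : ∀ k : ℕ, x * h ^ k = h ^ k * x * v ^ k := by
  intro k
  induction k with
  | zero => simp
  | succ k ih =>
    have hvk : v ^ k * h = h * v ^ k := (Commute.pow_left (show Commute v h from hv) k).eq
    calc x * h ^ (k + 1) = (x * h ^ k) * h := by rw [pow_succ, mul_assoc]
      _ = h ^ k * x * (v ^ k * h) := by rw [ih, mul_assoc]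
      _ = h ^ k * x * (h * v ^ k) := by rw [hvk]
      _ = h ^ k * (x * h) * v ^ k := by group
      _ = h ^ k * (h * x * v) * v ^ k := by rw [hx]
      _ = h ^ (k + 1) * x * v ^ (k + 1) := by group

theorem os_eq_one_of_coprime {G : Type*} [Group G] {p : ℕ} (v : G) (n k : ℕ) (h1 : v ^ n = 1)
    (h2 : v ^ p ^ k = 1) (hcop : n.Coprime p) : v = 1 := by
  have hd1 : orderOf v ∣ n := orderOf_dvd_of_pow_eq_one h1
  have hd2 : orderOf v ∣ p ^ k := orderOf_dvd_of_pow_eq_one h2
  have hd : orderOf v ∣ Nat.gcd n (p ^ k) := Nat.dvd_gcd hd1 hd2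
  rw [Nat.Coprime.gcd_eq_one (Nat.Coprime.pow_right k hcop)] at hd
  exact orderOf_eq_one_iff.mp (Nat.dvd_one.mp hd)

theorem os_centralize_of_comm {G : Type*} [Group G] {p : ℕ} (h x : G) (k : ℕ)
    (hcop : (orderOf h).Coprime p)
    (hv : ((h * x)⁻¹ * (x * h)) * h = h * ((h * x)⁻¹ * (x * h)))
    (hvp : ((h * x)⁻¹ * (x * h)) ^ p ^ k = 1) : x * h = h * x := by
  have hx : x * h = h * x * ((h * x)⁻¹ * (x * h)) := by group
  have h1 := os_pow_conj h x _ hv hx (orderOf h)
  rw [pow_orderOf_eq_one, mul_one, one_mul] at h1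
  have h2 : ((h * x)⁻¹ * (x * h)) ^ orderOf h = 1 := by
    have := h1.symm
    rwa [mul_eq_left] at this
  have h3 := os_eq_one_of_coprime _ _ k h2 hvp hcop
  rw [h3, mul_one] at hx
  exact hx

theorem os_kl_core (p : ℕ) [Fact p.Prime] (hp2 : p ≠ 2) (n : ℕ) :
    ∀ (G : Type u) [Group G] [Finite G] [Group.IsSolvable G], Odd (Nat.card G) → Nat.card G ≤ n →
    ∀ (B : Subgroup G) [B.Normal], IsPGroup p B →
    ∀ (a b : G), (∀ x ∈ B, ⁅⁅x, a⁆, a⁆ = 1) → (∀ x ∈ B, ⁅⁅x, b⁆, b⁆ = 1) →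
      B ⊔ Subgroup.closure {a, b} = ⊤ →
      ∀ h ∈ Subgroup.closure {a, b}, (orderOf h).Coprime p →
        h ∈ Subgroup.centralizer (B : Set G) := by
  induction n with
  | zero =>
    intro G _ _ _ _ hcard
    have := Nat.card_pos (α := G)
    omega
  | succ n ih =>
    intro G _ _ _ hodd hcard B hBn hB a b hqa hqb htop h hh hcop
    classical
    have hp : p.Prime := Fact.out
    by_cases hB1 : B = ⊥
    · rw [Subgroup.mem_centralizer_iff]
      intro x hx
      rw [hB1] at hx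
      have hx1 : x = 1 := Subgroup.mem_bot.mp hx
      rw [hx1, one_mul, mul_one]
    let Z₁ : Subgroup G :=
      { carrier := {z | z ∈ B ∧ (∀ x ∈ B, x * z = z * x) ∧ z ^ p = 1}
        mul_mem' := by
          rintro x y ⟨hx, hxc, hxp⟩ ⟨hy, hyc, hyp⟩
          refine ⟨B.mul_mem hx hy, ?_, ?_⟩
          · intro w hw
            rw [← mul_assoc, hxc w hw, mul_assoc, hyc w hw, mul_assoc]
          · rw [(show Commute x y from (hyc x hx)).mul_pow, hxp, hyp, one_mul]
        one_mem' := ⟨B.one_mem, fun x _ => by simp, one_pow _⟩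
        inv_mem' := by
          rintro x ⟨hx, hxc, hxp⟩
          refine ⟨B.inv_mem hx, ?_, by rw [inv_pow, hxp, inv_one]⟩
          intro w hw
          have := hxc w hw
          rw [eq_inv_mul_iff_mul_eq, ← mul_assoc, ← this, mul_inv_cancel_right] }
    have hZ₁n : Z₁.Normal := by
      constructor
      rintro z ⟨hz, hzc, hzp⟩ g
      refine ⟨hBn.conj_mem z hz g, ?_, by rw [conj_pow, hzp, mul_one, mul_inv_cancel]⟩
      intro x hx
      have hx' : g⁻¹ * x * g ∈ B := by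
        have := hBn.conj_mem x hx g⁻¹
        rwa [inv_inv] at this
      have h1 := hzc _ hx'
      calc x * (g * z * g⁻¹) = g * (g⁻¹ * x * g * z) * g⁻¹ := by group
        _ = g * (z * (g⁻¹ * x * g)) * g⁻¹ := by rw [h1]
        _ = g * z * g⁻¹ * x := by group
    have hZ₁1 : Z₁ ≠ ⊥ := by
      haveI : Nontrivial ↥B := (Subgroup.nontrivial_iff_ne_bot B).mpr hB1
      haveI := hB.center_nontrivial
      have hcp : IsPGroup p ↥(Subgroup.center ↥B) := hB.to_subgroup _
      obtain ⟨k, hk0, hk⟩ := (IsPGroup.nontrivial_iff_card hcp).mp inferInstance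
      have hdvd : p ∣ Nat.card ↥(Subgroup.center ↥B) := by rw [hk]; exact dvd_pow_self p hk0.ne'
      obtain ⟨z, hz⟩ := exists_prime_orderOf_dvd_card' p hdvd
      intro hbot
      have hmem : ((z : ↥B) : G) ∈ Z₁ := by
        refine ⟨(z : ↥B).2, ?_, ?_⟩
        · intro x hx
          have := Subgroup.mem_center_iff.mp z.2 ⟨x, hx⟩
          exact congrArg Subtype.val this
        · have h1 : z ^ p = 1 := by rw [← hz]; exact pow_orderOf_eq_one z
          exact congrArg (fun t : ↥(Subgroup.center ↥B) => ((t : ↥B) : G)) h1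
      rw [hbot, Subgroup.mem_bot] at hmem
      have hz1 : z = 1 := Subtype.ext (Subtype.ext hmem)
      rw [hz1, orderOf_one] at hz
      exact hp.one_lt.ne hz
    have hfin2 : ({W : Subgroup G | W.Normal ∧ W ≤ Z₁ ∧ W ≠ ⊥} : Set (Subgroup G)).Finite :=
      Set.toFinite _
    have hne2 : ({W : Subgroup G | W.Normal ∧ W ≤ Z₁ ∧ W ≠ ⊥} : Set (Subgroup G)).Nonempty :=
      ⟨Z₁, hZ₁n, le_rfl, hZ₁1⟩
    obtain ⟨V, ⟨hVn, hVZ, hV1⟩, hVmin⟩ := hfin2.exists_minimal hne2
    haveI := hVn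
    have hVB : V ≤ B := fun v hv => (hVZ hv).1
    have hVcent : ∀ v ∈ V, ∀ x ∈ B, x * v = v * x := fun v hv => (hVZ hv).2.1
    have hVp : ∀ v ∈ V, v ^ p = 1 := fun v hv => (hVZ hv).2.2
    have hVc : ∀ x y : ↥V, x * y = y * x := fun x y =>
      Subtype.ext (hVcent y.1 y.2 x.1 (hVB x.2))
    have hVpt : ∀ v : ↥V, v ^ p = 1 := fun v => Subtype.ext (hVp v.1 v.2)
    have hquadV : ∀ c : G, (∀ x ∈ B, ⁅⁅x, c⁆, c⁆ = 1) → ∀ v : ↥V,
        (MulAut.conjNormal c : MulAut ↥V) ((MulAut.conjNormal c : MulAut ↥V) v) * v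
          = (MulAut.conjNormal c : MulAut ↥V) v * (MulAut.conjNormal c : MulAut ↥V) v := by
      intro c hqc v
      apply Subtype.ext
      have hx : c * (v : G) * c⁻¹ ∈ V := hVn.conj_mem _ v.2 c
      have hy : c * (c * (v : G) * c⁻¹) * c⁻¹ ∈ V := hVn.conj_mem _ hx c
      exact os_quad_conj c (v : G) (hqc _ (hVB v.2)) (hVcent _ hx _ (hVB hy))
    have hirr : ∀ V₁ : Subgroup ↥V,
        (∀ v ∈ V₁, (MulAut.conjNormal a : MulAut ↥V) v ∈ V₁) →
        (∀ v ∈ V₁, (MulAut.conjNormal b : MulAut ↥V) v ∈ V₁) → V₁ = ⊥ ∨ V₁ = ⊤ := by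
      intro V₁ h1 h2
      have hWV : V₁.map V.subtype ≤ V := by
        rintro _ ⟨v, -, rfl⟩; exact v.2
      have hgen : ∀ c : G, (∀ v ∈ V₁, (MulAut.conjNormal c : MulAut ↥V) v ∈ V₁) →
          c ∈ Subgroup.normalizer ((V₁.map V.subtype : Subgroup G) : Set G) := by
        intro c hc
        apply Cfsg.Agent.Lib.Helper6.mem_normalizer_of_conj_mem
        rintro _ ⟨v, hv, rfl⟩
        exact ⟨_, hc v hv, rfl⟩
      have hBW : B ≤ Subgroup.normalizer ((V₁.map V.subtype : Subgroup G) : Set G) := by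
        intro x hx
        apply Cfsg.Agent.Lib.Helper6.mem_normalizer_of_conj_mem
        intro d hd
        have : x * d * x⁻¹ = d := by rw [hVcent d (hWV hd) x hx, mul_inv_cancel_right]
        rw [this]; exact hd
      have hcl : Subgroup.closure {a, b} ≤
          Subgroup.normalizer ((V₁.map V.subtype : Subgroup G) : Set G) := by
        rw [Subgroup.closure_le]
        rintro c (rfl | rfl)
        · exact hgen _ h1
        · exact hgen _ h2
      have hWn : (V₁.map V.subtype).Normal := by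
        rw [← Subgroup.normalizer_eq_top_iff, eq_top_iff, ← htop]
        exact sup_le hBW hcl
      by_cases hW1 : V₁.map V.subtype = ⊥
      · left
        exact (Subgroup.map_eq_bot_iff_of_injective _ V.subtype_injective).mp hW1
      · right
        have hVW : V ≤ V₁.map V.subtype := hVmin ⟨hWn, hWV.trans hVZ, hW1⟩ hWV
        rw [eq_top_iff]
        intro v _
        obtain ⟨v', hv', hvv⟩ := hVW v.2
        have : v' = v := Subtype.ext hvv
        rw [← this]; exact hv'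
    obtain ⟨hρa, hρb⟩ := os_ct' hVc hp2 hVpt hodd (MulAut.conjNormal : G →* MulAut ↥V) a b
      (hquadV a hqa) (hquadV b hqb) hirr
    have hcentV : ∀ c : G, (MulAut.conjNormal c : MulAut ↥V) = 1 →
        c ∈ Subgroup.centralizer (V : Set G) := by
      intro c hc
      rw [Subgroup.mem_centralizer_iff]
      intro v hv
      have h1 := congrArg (fun f : MulAut ↥V => ((f ⟨v, hv⟩ : ↥V) : G)) hc
      have h2 : c * v * c⁻¹ = v := h1
      calc v * c = (c * v * c⁻¹) * c := by rw [h2]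
        _ = c * v := by group
    have hCtop : Subgroup.centralizer (V : Set G) = ⊤ := by
      rw [eq_top_iff, ← htop]
      refine sup_le ?_ ?_
      · intro x hx
        rw [Subgroup.mem_centralizer_iff]
        intro v hv
        exact (hVcent v hv x hx).symm
      · rw [Subgroup.closure_le]
        rintro c (rfl | rfl)
        · exact hcentV _ hρa
        · exact hcentV _ hρb
    have hVcentral : ∀ v ∈ V, ∀ g : G, v * g = g * v := by
      intro v hv g
      have hg : g ∈ Subgroup.centralizer (V : Set G) := by rw [hCtop]; exact Subgroup.mem_top g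
      exact Subgroup.mem_centralizer_iff.mp hg v hv
    -- the quotient
    have hsurj := QuotientGroup.mk'_surjective V
    have hcardQ : Nat.card (G ⧸ V) ≤ n := by
      have h1 := Subgroup.card_eq_card_quotient_mul_card_subgroup V
      have h2 : 1 < Nat.card ↥V := (Subgroup.one_lt_card_iff_ne_bot V).mpr hV1
      have h3 : 0 < Nat.card (G ⧸ V) := Nat.card_pos
      nlinarith
    have hoddQ : Odd (Nat.card (G ⧸ V)) := hodd.of_dvd_nat (Subgroup.card_quotient_dvd_card V)
    haveI hBQn : (B.map (QuotientGroup.mk' V)).Normal := hBn.map _ hsurj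
    have hBQ : IsPGroup p ↥(B.map (QuotientGroup.mk' V)) := hB.map _
    have hq' : ∀ c : G, (∀ x ∈ B, ⁅⁅x, c⁆, c⁆ = 1) →
        ∀ x ∈ B.map (QuotientGroup.mk' V), ⁅⁅x, QuotientGroup.mk' V c⁆, QuotientGroup.mk' V c⁆ = 1 := by
      rintro c hc _ ⟨x, hx, rfl⟩
      rw [← map_commutatorElement, ← map_commutatorElement, hc x hx, map_one]
    have htop' : B.map (QuotientGroup.mk' V) ⊔
        Subgroup.closure {QuotientGroup.mk' V a, QuotientGroup.mk' V b} = ⊤ := by
      rw [← Set.image_pair, ← MonoidHom.map_closure, ← Subgroup.map_sup, htop,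
        Subgroup.map_top_of_surjective _ hsurj]
    have hh' : QuotientGroup.mk' V h ∈
        Subgroup.closure {QuotientGroup.mk' V a, QuotientGroup.mk' V b} := by
      rw [← Set.image_pair, ← MonoidHom.map_closure]
      exact Subgroup.mem_map_of_mem _ hh
    have hcop' : (orderOf (QuotientGroup.mk' V h)).Coprime p :=
      Nat.Coprime.coprime_dvd_left (orderOf_map_dvd _ h) hcop
    have hres := ih (G ⧸ V) hoddQ hcardQ (B.map (QuotientGroup.mk' V)) hBQ
      (QuotientGroup.mk' V a) (QuotientGroup.mk' V b) (hq' a hqa) (hq' b hqb) htop'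
      (QuotientGroup.mk' V h) hh' hcop'
    rw [Subgroup.mem_centralizer_iff] at hres ⊢
    intro x hx
    have h1 := hres _ (Subgroup.mem_map_of_mem _ hx)
    have h2 : (h * x)⁻¹ * (x * h) ∈ V := by
      rw [← QuotientGroup.eq]
      exact h1.symm
    exact os_centralize_of_comm h x 1 hcop (hVcentral _ h2 h) (by rw [pow_one]; exact hVp _ h2)

end Cfsg.Agent.Lib.Helper1
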