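import Mathlib
import Cfsg.Prelude
import Cfsg.Agent.Lib.Helper1.OS3
import Cfsg.Agent.Lib.Lead.BaerSuzuki
import Cfsg.Agent.Lib.Helper4.Basic

set_option autoImplicit false
open scoped commutatorElement

namespace Cfsg.Agent.Lib.Helper1

universe u

theorem os_kl {G : Type u} [Group G] [Finite G] [Group.IsSolvable G] (hodd : Odd (Nat.card G))
    (p : ℕ) [Fact p.Prime] (hp2 : p ≠ 2) (B : Subgroup G) [hBn : B.Normal] (hB : IsPGroup p B)
    (a b : G) (hqa : ∀ x ∈ B, ⁅⁅x, a⁆, a⁆ = 1) (hqb : ∀ x ∈ B, ⁅⁅x, b⁆, b⁆ = 1)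
    (h : G) (hh : h ∈ Subgroup.closure {a, b}) (hcop : (orderOf h).Coprime p) :
    h ∈ Subgroup.centralizer (B : Set G) := by
  obtain ⟨G₁, hG₁⟩ : ∃ G₁ : Subgroup G, G₁ = B ⊔ Subgroup.closure {a, b} := ⟨_, rfl⟩
  have hBG₁ : B ≤ G₁ := hG₁ ▸ le_sup_left
  have hclG₁ : Subgroup.closure {a, b} ≤ G₁ := hG₁ ▸ le_sup_right
  have haG₁ : a ∈ G₁ := hclG₁ (Subgroup.subset_closure (by simp))
  have hbG₁ : b ∈ G₁ := hclG₁ (Subgroup.subset_closure (by simp))
  have hodd₁ : Odd (Nat.card ↥G₁) := hodd.of_dvd_nat (Subgroup.card_subgroup_dvd_card G₁)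
  have hB₁ : IsPGroup p ↥(B.subgroupOf G₁) := hB.comap_subtype
  have himg : (Subgroup.closure {(⟨a, haG₁⟩ : ↥G₁), ⟨b, hbG₁⟩}).map G₁.subtype
      = Subgroup.closure {a, b} := by
    rw [MonoidHom.map_closure, Set.image_pair]; rfl
  have htop : B.subgroupOf G₁ ⊔ Subgroup.closure {(⟨a, haG₁⟩ : ↥G₁), ⟨b, hbG₁⟩} = ⊤ := by
    apply Subgroup.map_injective G₁.subtype_injective
    rw [Subgroup.map_sup, himg, Subgroup.map_subgroupOf_eq_of_le hBG₁, ← MonoidHom.range_eq_map,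
      Subgroup.range_subtype, hG₁]
  have hh₁ : (⟨h, hclG₁ hh⟩ : ↥G₁) ∈ Subgroup.closure {(⟨a, haG₁⟩ : ↥G₁), ⟨b, hbG₁⟩} := by
    have h1 : h ∈ (Subgroup.closure {(⟨a, haG₁⟩ : ↥G₁), ⟨b, hbG₁⟩}).map G₁.subtype := by
      rw [himg]; exact hh
    obtain ⟨y, hy, hyh⟩ := h1
    have : y = ⟨h, hclG₁ hh⟩ := Subtype.ext hyh
    rw [← this]; exact hy
  have hcop₁ : (orderOf (⟨h, hclG₁ hh⟩ : ↥G₁)).Coprime p := by
    rw [← orderOf_injective G₁.subtype G₁.subtype_injective]; exact hcop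
  have hres := os_kl_core p hp2 (Nat.card ↥G₁) ↥G₁ hodd₁ le_rfl (B.subgroupOf G₁) hB₁
    ⟨a, haG₁⟩ ⟨b, hbG₁⟩
    (fun x hx => Subtype.ext (hqa x.1 hx)) (fun x hx => Subtype.ext (hqb x.1 hx)) htop
    ⟨h, hclG₁ hh⟩ hh₁ hcop₁
  rw [Subgroup.mem_centralizer_iff] at hres ⊢
  intro x hx
  exact congrArg Subtype.val (hres ⟨x, hBG₁ hx⟩ hx)

theorem os_pstable {G : Type u} [Group G] [Finite G] [Group.IsSolvable G]
    (hodd : Odd (Nat.card G))
    (p : ℕ) [Fact p.Prime] (hp2 : p ≠ 2) (B : Subgroup G) [hBn : B.Normal] (hB : IsPGroup p B)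
    (a : G) (hqa : ∀ x ∈ B, ⁅⁅x, a⁆, a⁆ = 1) :
    (QuotientGroup.mk a : G ⧸ Subgroup.centralizer (B : Set G)) ∈
      Cfsg.pCore p (G ⧸ Subgroup.centralizer (B : Set G)) := by
  classical
  have hp : p.Prime := Fact.out
  have hsurj := QuotientGroup.mk'_surjective (Subgroup.centralizer (B : Set G))
  have key : ∀ g : G, IsPGroup p ↥((Subgroup.closure {a, g * a * g⁻¹}).map
      (QuotientGroup.mk' (Subgroup.centralizer (B : Set G)))) := by
    intro g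
    have hqb : ∀ x ∈ B, ⁅⁅x, g * a * g⁻¹⁆, g * a * g⁻¹⁆ = 1 := by
      intro x hx
      have hx' : g⁻¹ * x * g ∈ B := by
        have := hBn.conj_mem x hx g⁻¹
        rwa [inv_inv] at this
      have h1 := hqa _ hx'
      have h2 : ⁅⁅x, g * a * g⁻¹⁆, g * a * g⁻¹⁆ = g * ⁅⁅g⁻¹ * x * g, a⁆, a⁆ * g⁻¹ := by
        simp only [commutatorElement_def]; group
      rw [h2, h1]; group
    rintro ⟨y, hy⟩
    obtain ⟨h, hh, rfl⟩ := hy
    have hn0 : orderOf h ≠ 0 := (orderOf_pos h).ne'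
    obtain ⟨j, m, hm, hnm⟩ := Nat.exists_eq_pow_mul_and_not_dvd hn0 p hp.ne_one
    have hh' : h ^ p ^ j ∈ Subgroup.closure {a, g * a * g⁻¹} := Subgroup.pow_mem _ hh _
    have hcop : (orderOf (h ^ p ^ j)).Coprime p := by
      have h1 : orderOf (h ^ p ^ j) ∣ m := by
        apply orderOf_dvd_of_pow_eq_one
        rw [← pow_mul, ← hnm, pow_orderOf_eq_one]
      exact Nat.Coprime.coprime_dvd_left h1 ((Nat.Prime.coprime_iff_not_dvd hp).mpr hm).symm
    have hcent := os_kl hodd p hp2 B hB a (g * a * g⁻¹) hqa hqb _ hh' hcop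
    refine ⟨j, ?_⟩
    apply Subtype.ext
    show (QuotientGroup.mk' (Subgroup.centralizer (B : Set G)) h) ^ p ^ j = 1
    rw [← map_pow]
    exact (QuotientGroup.eq_one_iff _).mpr hcent
  obtain ⟨N, hNn, hNp, hXN⟩ := Cfsg.Agent.Lib.Lead.baer_suzuki (p := p)
    (Subgroup.zpowers (QuotientGroup.mk' (Subgroup.centralizer (B : Set G)) a)) (by
      intro gbar
      obtain ⟨g, rfl⟩ := hsurj gbar
      have hEq : Subgroup.zpowers (QuotientGroup.mk' (Subgroup.centralizer (B : Set G)) a) ⊔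
          (Subgroup.zpowers (QuotientGroup.mk' (Subgroup.centralizer (B : Set G)) a)).map
            (MulAut.conj (QuotientGroup.mk' (Subgroup.centralizer (B : Set G)) g)).toMonoidHom
          = (Subgroup.closure {a, g * a * g⁻¹}).map
              (QuotientGroup.mk' (Subgroup.centralizer (B : Set G))) := by
        rw [MonoidHom.map_closure, Set.image_pair, MonoidHom.map_zpowers,
          Subgroup.zpowers_eq_closure, Subgroup.zpowers_eq_closure, ← Subgroup.closure_union,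
          Set.singleton_union]
        congr 2
      rw [hEq]; exact key g)
  exact Cfsg.Agent.Lib.Helper4.le_pCore hNn hNp (hXN (Subgroup.mem_zpowers _))

theorem os_mem_pCore_of_quot {G : Type u} [Group G] [Finite G] (p : ℕ) [Fact p.Prime]
    (N : Subgroup G) [N.Normal] (hN : IsPGroup p N) (a : G)
    (ha : (QuotientGroup.mk a : G ⧸ N) ∈ Cfsg.pCore p (G ⧸ N)) : a ∈ Cfsg.pCore p G := by
  haveI := Cfsg.pCore_normal p (G ⧸ N)
  have hKn : ((Cfsg.pCore p (G ⧸ N)).comap (QuotientGroup.mk' N)).Normal := inferInstance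
  have hKp : IsPGroup p ↥((Cfsg.pCore p (G ⧸ N)).comap (QuotientGroup.mk' N)) := by
    rintro ⟨y, hy⟩
    obtain ⟨i, hi⟩ := Cfsg.Agent.Lib.Helper4.pCore_isPGroup p (G ⧸ N) ⟨QuotientGroup.mk' N y, hy⟩
    have hi' : (QuotientGroup.mk' N y) ^ p ^ i = 1 := congrArg Subtype.val hi
    rw [← map_pow] at hi'
    have hyN : y ^ p ^ i ∈ N := (QuotientGroup.eq_one_iff _).mp hi'
    obtain ⟨j, hj⟩ := hN ⟨y ^ p ^ i, hyN⟩
    have hj' : (y ^ p ^ i) ^ p ^ j = 1 := congrArg Subtype.val hj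
    refine ⟨i + j, Subtype.ext ?_⟩
    show y ^ p ^ (i + j) = 1
    rw [pow_add, pow_mul]; exact hj'
  exact Cfsg.Agent.Lib.Helper4.le_pCore hKn hKp ha

theorem os_quot_transfer {G : Type u} [Group G] (p : ℕ) (K K' : Subgroup G) [hK : K.Normal]
    [hK' : K'.Normal] (h : K = K') (x : G)
    (hx : (QuotientGroup.mk x : G ⧸ K) ∈ Cfsg.pCore p (G ⧸ K)) :
    (QuotientGroup.mk x : G ⧸ K') ∈ Cfsg.pCore p (G ⧸ K') := by
  subst h; exact hx

theorem os_pprime_part {G : Type*} [Group G] [Finite G] (p : ℕ) [Fact p.Prime] (y : G) :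
    ∃ j : ℕ, (orderOf (y ^ p ^ j)).Coprime p := by
  have hp : p.Prime := Fact.out
  have hn0 : orderOf y ≠ 0 := (orderOf_pos y).ne'
  obtain ⟨j, m, hm, hnm⟩ := Nat.exists_eq_pow_mul_and_not_dvd hn0 p hp.ne_one
  refine ⟨j, ?_⟩
  have h1 : orderOf (y ^ p ^ j) ∣ m := by
    apply orderOf_dvd_of_pow_eq_one
    rw [← pow_mul, ← hnm, pow_orderOf_eq_one]
  exact Nat.Coprime.coprime_dvd_left h1 ((Nat.Prime.coprime_iff_not_dvd hp).mpr hm).symm

end Cfsg.Agent.Lib.Helper1
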