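import Mathlib
import Cfsg.Prelude
import Cfsg.Agent.Lib.Helper1.OS4

set_option autoImplicit false
open scoped commutatorElement

namespace Cfsg.Agent.Lib.Helper1

universe u

theorem os_cyc_quad {G : Type*} [Group G] [Finite G] {p : ℕ} [Fact p.Prime] (a : G) (k : ℕ)
    (hak : a ^ p ^ k = 1) (D : Subgroup G) (hD : IsCyclic D) (V : Subgroup G)
    (hVa : ∀ v ∈ V, a * v * a⁻¹ ∈ V) (hVp : ∀ v ∈ V, v ^ p = 1)
    (hVD : ∀ v ∈ V, ⁅v, a⁆ ∈ D) (v : G) (hv : v ∈ V) : ⁅⁅v, a⁆, a⁆ = 1 := by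
  classical
  have hp : p.Prime := Fact.out
  obtain ⟨w, hw⟩ : ∃ w, w = ⁅v, a⁆ := ⟨_, rfl⟩
  rw [← hw]
  have hwV : w ∈ V := by
    rw [hw, commutatorElement_def]
    have : v * a * v⁻¹ * a⁻¹ = v * (a * v * a⁻¹)⁻¹ := by group
    rw [this]; exact V.mul_mem hv (V.inv_mem (hVa v hv))
  have hwD : w ∈ D := hw ▸ hVD v hv
  have hw'D : a * w * a⁻¹ ∈ D := by
    have h1 : a * w * a⁻¹ = ⁅a * v * a⁻¹, a⁆ := by
      rw [hw, commutatorElement_def, commutatorElement_def]; group
    rw [h1]; exact hVD _ (hVa v hv)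
  have hw'V : a * w * a⁻¹ ∈ V := hVa w hwV
  have hwp : w ^ p = 1 := hVp w hwV
  have hw'p : (a * w * a⁻¹) ^ p = 1 := hVp _ hw'V
  have hgoal : a * w * a⁻¹ = w → ⁅w, a⁆ = 1 := by
    intro h
    rw [commutatorElement_def]
    calc w * a * w⁻¹ * a⁻¹ = w * (a * w * a⁻¹)⁻¹ := by group
      _ = 1 := by rw [h, mul_inv_cancel]
  apply hgoal
  by_cases hw1 : w = 1
  · rw [hw1]; group
  have hord : orderOf w = p := orderOf_eq_prime hwp hw1
  have hmem : a * w * a⁻¹ ∈ Subgroup.zpowers w := by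
    haveI := hD
    haveI : Fintype ↥D := Fintype.ofFinite _
    have hcard := IsCyclic.card_pow_eq_one_le (α := ↥D) hp.pos
    have hsub : (Finset.univ.filter (fun d : ↥D => (d : G) ∈ Subgroup.zpowers w)) ⊆
        Finset.univ.filter (fun d : ↥D => d ^ p = 1) := by
      intro d hd
      rw [Finset.mem_filter] at hd ⊢
      refine ⟨Finset.mem_univ _, ?_⟩
      obtain ⟨i, hi⟩ := Subgroup.mem_zpowers_iff.mp hd.2
      apply Subtype.ext
      show (d : G) ^ p = 1
      rw [← hi, ← zpow_natCast, ← zpow_mul, mul_comm, zpow_mul, zpow_natCast, hwp, one_zpow]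
    have hc1 : p ≤ (Finset.univ.filter (fun d : ↥D => (d : G) ∈ Subgroup.zpowers w)).card := by
      have := Finset.card_le_card_of_injOn (s := Finset.range p)
        (t := Finset.univ.filter (fun d : ↥D => (d : G) ∈ Subgroup.zpowers w))
        (fun i => (⟨w ^ i, D.pow_mem hwD i⟩ : ↥D))
        (by
          intro i _
          simp only [Finset.coe_filter, Finset.mem_univ, true_and, Set.mem_ofPred_eq]
          exact Subgroup.pow_mem _ (Subgroup.mem_zpowers w) i)
        (by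
          intro i hi j hj hij
          have hi' : i ∈ Set.Iio (orderOf w) := by
            rw [hord]; simpa using hi
          have hj' : j ∈ Set.Iio (orderOf w) := by
            rw [hord]; simpa using hj
          exact pow_injOn_Iio_orderOf hi' hj' (congrArg Subtype.val hij))
      rwa [Finset.card_range] at this
    have heq := Finset.eq_of_subset_of_card_le hsub (hcard.trans hc1)
    have h2 : (⟨a * w * a⁻¹, hw'D⟩ : ↥D) ∈
        Finset.univ.filter (fun d : ↥D => (d : G) ∈ Subgroup.zpowers w) := by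
      rw [heq, Finset.mem_filter]
      exact ⟨Finset.mem_univ _, Subtype.ext hw'p⟩
    exact (Finset.mem_filter.mp h2).2
  obtain ⟨j, hj⟩ := Subgroup.mem_zpowers_iff.mp hmem
  have hiter : ∀ m : ℕ, a ^ m * w * (a ^ m)⁻¹ = w ^ (j ^ m) := by
    intro m
    induction m with
    | zero => simp
    | succ m ih =>
      calc a ^ (m + 1) * w * (a ^ (m + 1))⁻¹ = a * (a ^ m * w * (a ^ m)⁻¹) * a⁻¹ := by
            rw [pow_succ']; group
        _ = a * w ^ (j ^ m) * a⁻¹ := by rw [ih]
        _ = (a * w * a⁻¹) ^ (j ^ m) := by rw [conj_zpow]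
        _ = w ^ (j ^ (m + 1)) := by rw [← hj, ← zpow_mul, pow_succ']
  have h3 := hiter (p ^ k)
  rw [hak, one_mul, inv_one, mul_one] at h3
  have h4 : w ^ (j ^ (p ^ k) - 1) = 1 := by rw [zpow_sub, zpow_one, ← h3, mul_inv_cancel]
  have h5 : (p : ℤ) ∣ j ^ (p ^ k) - 1 := by
    have := orderOf_dvd_iff_zpow_eq_one.mpr h4
    rwa [hord] at this
  have h6 : ((j : ZMod p)) = 1 := by
    have h7 : ((j ^ (p ^ k) - 1 : ℤ) : ZMod p) = 0 :=
      (ZMod.intCast_zmod_eq_zero_iff_dvd _ p).mpr h5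
    push_cast at h7
    rw [ZMod.pow_card_pow] at h7
    exact sub_eq_zero.mp h7
  have h8 : (p : ℤ) ∣ j - 1 := by
    rw [← ZMod.intCast_zmod_eq_zero_iff_dvd]; push_cast; rw [h6, sub_self]
  have h9 : w ^ (j - 1) = 1 := by
    rw [← hord] at h8; exact orderOf_dvd_iff_zpow_eq_one.mp h8
  rw [← hj]
  calc w ^ j = w ^ (j - 1) * w := by rw [← zpow_add_one, sub_add_cancel]
    _ = w := by rw [h9, one_mul]

/-- `a` is a `p`-element all of whose commutators with `B` lie in one cyclic subgroup. -/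
def OsCyc {G : Type*} [Group G] (p : ℕ) (B : Subgroup G) (a : G) : Prop :=
  (∃ k : ℕ, a ^ p ^ k = 1) ∧ ∃ D : Subgroup G, IsCyclic D ∧ ∀ x ∈ B, ⁅x, a⁆ ∈ D

theorem os_klc_core (p : ℕ) [Fact p.Prime] (hp2 : p ≠ 2) (n : ℕ) :
    ∀ (G : Type u) [Group G] [Finite G] [Group.IsSolvable G], Odd (Nat.card G) → Nat.card G ≤ n →
    ∀ (B : Subgroup G) [B.Normal], IsPGroup p B →
    ∀ (a b : G), OsCyc p B a → OsCyc p B b →
      B ⊔ Subgroup.closure {a, b} = ⊤ →
      ∀ h ∈ Subgroup.closure {a, b}, (orderOf h).Coprime p →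
        h ∈ Subgroup.centralizer (B : Set G) := by
  induction n with
  | zero =>
    intro G _ _ _ _ hcard
    have := Nat.card_pos (α := G)
    omega
  | succ n ih =>
    intro G _ _ _ hodd hcard B hBn hB a b hqa hqb htop h hh hcop
    classical
    have hp : p.Prime := Fact.out
    by_cases hB1 : B = ⊥
    · rw [Subgroup.mem_centralizer_iff]
      intro x hx
      rw [hB1] at hx
      have hx1 : x = 1 := Subgroup.mem_bot.mp hx
      rw [hx1, one_mul, mul_one]
    let Z₁ : Subgroup G :=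
      { carrier := {z | z ∈ B ∧ (∀ x ∈ B, x * z = z * x) ∧ z ^ p = 1}
        mul_mem' := by
          rintro x y ⟨hx, hxc, hxp⟩ ⟨hy, hyc, hyp⟩
          refine ⟨B.mul_mem hx hy, ?_, ?_⟩
          · intro w hw
            rw [← mul_assoc, hxc w hw, mul_assoc, hyc w hw, mul_assoc]
          · rw [(show Commute x y from (hyc x hx)).mul_pow, hxp, hyp, one_mul]
        one_mem' := ⟨B.one_mem, fun x _ => by simp, one_pow _⟩
        inv_mem' := by
          rintro x ⟨hx, hxc, hxp⟩
          refine ⟨B.inv_mem hx, ?_, by rw [inv_pow, hxp, inv_one]⟩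
          intro w hw
          have := hxc w hw
          rw [eq_inv_mul_iff_mul_eq, ← mul_assoc, ← this, mul_inv_cancel_right] }
    have hZ₁n : Z₁.Normal := by
      constructor
      rintro z ⟨hz, hzc, hzp⟩ g
      refine ⟨hBn.conj_mem z hz g, ?_, by rw [conj_pow, hzp, mul_one, mul_inv_cancel]⟩
      intro x hx
      have hx' : g⁻¹ * x * g ∈ B := by
        have := hBn.conj_mem x hx g⁻¹
        rwa [inv_inv] at this
      have h1 := hzc _ hx'
      calc x * (g * z * g⁻¹) = g * (g⁻¹ * x * g * z) * g⁻¹ := by group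
        _ = g * (z * (g⁻¹ * x * g)) * g⁻¹ := by rw [h1]
        _ = g * z * g⁻¹ * x := by group
    have hZ₁1 : Z₁ ≠ ⊥ := by
      haveI : Nontrivial ↥B := (Subgroup.nontrivial_iff_ne_bot B).mpr hB1
      haveI := hB.center_nontrivial
      have hcp : IsPGroup p ↥(Subgroup.center ↥B) := hB.to_subgroup _
      obtain ⟨k, hk0, hk⟩ := (IsPGroup.nontrivial_iff_card hcp).mp inferInstance
      have hdvd : p ∣ Nat.card ↥(Subgroup.center ↥B) := by rw [hk]; exact dvd_pow_self p hk0.ne'
      obtain ⟨z, hz⟩ := exists_prime_orderOf_dvd_card' p hdvd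
      intro hbot
      have hmem : ((z : ↥B) : G) ∈ Z₁ := by
        refine ⟨(z : ↥B).2, ?_, ?_⟩
        · intro x hx
          have := Subgroup.mem_center_iff.mp z.2 ⟨x, hx⟩
          exact congrArg Subtype.val this
        · have h1 : z ^ p = 1 := by rw [← hz]; exact pow_orderOf_eq_one z
          exact congrArg (fun t : ↥(Subgroup.center ↥B) => ((t : ↥B) : G)) h1
      rw [hbot, Subgroup.mem_bot] at hmem
      have hz1 : z = 1 := Subtype.ext (Subtype.ext hmem)
      rw [hz1, orderOf_one] at hz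
      exact hp.one_lt.ne hz
    have hfin2 : ({W : Subgroup G | W.Normal ∧ W ≤ Z₁ ∧ W ≠ ⊥} : Set (Subgroup G)).Finite :=
      Set.toFinite _
    have hne2 : ({W : Subgroup G | W.Normal ∧ W ≤ Z₁ ∧ W ≠ ⊥} : Set (Subgroup G)).Nonempty :=
      ⟨Z₁, hZ₁n, le_rfl, hZ₁1⟩
    obtain ⟨V, ⟨hVn, hVZ, hV1⟩, hVmin⟩ := hfin2.exists_minimal hne2
    haveI := hVn
    have hVB : V ≤ B := fun v hv => (hVZ hv).1
    have hVcent : ∀ v ∈ V, ∀ x ∈ B, x * v = v * x := fun v hv => (hVZ hv).2.1
    have hVp : ∀ v ∈ V, v ^ p = 1 := fun v hv => (hVZ hv).2.2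
    have hVc : ∀ x y : ↥V, x * y = y * x := fun x y =>
      Subtype.ext (hVcent y.1 y.2 x.1 (hVB x.2))
    have hVpt : ∀ v : ↥V, v ^ p = 1 := fun v => Subtype.ext (hVp v.1 v.2)
    have hquadV : ∀ c : G, OsCyc p B c → ∀ v : ↥V,
        (MulAut.conjNormal c : MulAut ↥V) ((MulAut.conjNormal c : MulAut ↥V) v) * v
          = (MulAut.conjNormal c : MulAut ↥V) v * (MulAut.conjNormal c : MulAut ↥V) v := by
      intro c hqc v
      obtain ⟨⟨k, hk⟩, D, hD, hDc⟩ := hqc
      apply Subtype.ext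
      have hx : c * (v : G) * c⁻¹ ∈ V := hVn.conj_mem _ v.2 c
      have hy : c * (c * (v : G) * c⁻¹) * c⁻¹ ∈ V := hVn.conj_mem _ hx c
      have hq := os_cyc_quad c k hk D hD V (fun u hu => hVn.conj_mem u hu c) hVp
        (fun u hu => hDc u (hVB hu)) (v : G) v.2
      exact os_quad_conj c (v : G) hq (hVcent _ hx _ (hVB hy))
    have hirr : ∀ V₁ : Subgroup ↥V,
        (∀ v ∈ V₁, (MulAut.conjNormal a : MulAut ↥V) v ∈ V₁) →
        (∀ v ∈ V₁, (MulAut.conjNormal b : MulAut ↥V) v ∈ V₁) → V₁ = ⊥ ∨ V₁ = ⊤ := by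
      intro V₁ h1 h2
      have hWV : V₁.map V.subtype ≤ V := by
        rintro _ ⟨v, -, rfl⟩; exact v.2
      have hgen : ∀ c : G, (∀ v ∈ V₁, (MulAut.conjNormal c : MulAut ↥V) v ∈ V₁) →
          c ∈ Subgroup.normalizer ((V₁.map V.subtype : Subgroup G) : Set G) := by
        intro c hc
        apply Cfsg.Agent.Lib.Helper6.mem_normalizer_of_conj_mem
        rintro _ ⟨v, hv, rfl⟩
        exact ⟨_, hc v hv, rfl⟩
      have hBW : B ≤ Subgroup.normalizer ((V₁.map V.subtype : Subgroup G) : Set G) := by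
        intro x hx
        apply Cfsg.Agent.Lib.Helper6.mem_normalizer_of_conj_mem
        intro d hd
        have : x * d * x⁻¹ = d := by rw [hVcent d (hWV hd) x hx, mul_inv_cancel_right]
        rw [this]; exact hd
      have hcl : Subgroup.closure {a, b} ≤
          Subgroup.normalizer ((V₁.map V.subtype : Subgroup G) : Set G) := by
        rw [Subgroup.closure_le]
        rintro c (rfl | rfl)
        · exact hgen _ h1
        · exact hgen _ h2
      have hWn : (V₁.map V.subtype).Normal := by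
        rw [← Subgroup.normalizer_eq_top_iff, eq_top_iff, ← htop]
        exact sup_le hBW hcl
      by_cases hW1 : V₁.map V.subtype = ⊥
      · left
        exact (Subgroup.map_eq_bot_iff_of_injective _ V.subtype_injective).mp hW1
      · right
        have hVW : V ≤ V₁.map V.subtype := hVmin ⟨hWn, hWV.trans hVZ, hW1⟩ hWV
        rw [eq_top_iff]
        intro v _
        obtain ⟨v', hv', hvv⟩ := hVW v.2
        have : v' = v := Subtype.ext hvv
        rw [← this]; exact hv'
    obtain ⟨hρa, hρb⟩ := os_ct' hVc hp2 hVpt hodd (MulAut.conjNormal : G →* MulAut ↥V) a b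
      (hquadV a hqa) (hquadV b hqb) hirr
    have hcentV : ∀ c : G, (MulAut.conjNormal c : MulAut ↥V) = 1 →
        c ∈ Subgroup.centralizer (V : Set G) := by
      intro c hc
      rw [Subgroup.mem_centralizer_iff]
      intro v hv
      have h1 := congrArg (fun f : MulAut ↥V => ((f ⟨v, hv⟩ : ↥V) : G)) hc
      have h2 : c * v * c⁻¹ = v := h1
      calc v * c = (c * v * c⁻¹) * c := by rw [h2]
        _ = c * v := by group
    have hCtop : Subgroup.centralizer (V : Set G) = ⊤ := by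
      rw [eq_top_iff, ← htop]
      refine sup_le ?_ ?_
      · intro x hx
        rw [Subgroup.mem_centralizer_iff]
        intro v hv
        exact (hVcent v hv x hx).symm
      · rw [Subgroup.closure_le]
        rintro c (rfl | rfl)
        · exact hcentV _ hρa
        · exact hcentV _ hρb
    have hVcentral : ∀ v ∈ V, ∀ g : G, v * g = g * v := by
      intro v hv g
      have hg : g ∈ Subgroup.centralizer (V : Set G) := by rw [hCtop]; exact Subgroup.mem_top g
      exact Subgroup.mem_centralizer_iff.mp hg v hv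
    -- the quotient
    have hsurj := QuotientGroup.mk'_surjective V
    have hcardQ : Nat.card (G ⧸ V) ≤ n := by
      have h1 := Subgroup.card_eq_card_quotient_mul_card_subgroup V
      have h2 : 1 < Nat.card ↥V := (Subgroup.one_lt_card_iff_ne_bot V).mpr hV1
      have h3 : 0 < Nat.card (G ⧸ V) := Nat.card_pos
      nlinarith
    have hoddQ : Odd (Nat.card (G ⧸ V)) := hodd.of_dvd_nat (Subgroup.card_quotient_dvd_card V)
    haveI hBQn : (B.map (QuotientGroup.mk' V)).Normal := hBn.map _ hsurj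
    have hBQ : IsPGroup p ↥(B.map (QuotientGroup.mk' V)) := hB.map _
    have hq' : ∀ c : G, OsCyc p B c →
        OsCyc p (B.map (QuotientGroup.mk' V)) (QuotientGroup.mk' V c) := by
      rintro c ⟨⟨k, hk⟩, D, hD, hDc⟩
      refine ⟨⟨k, by rw [← map_pow, hk, map_one]⟩, D.map (QuotientGroup.mk' V), ?_, ?_⟩
      · haveI := hD
        exact isCyclic_of_surjective _ ((QuotientGroup.mk' V).subgroupMap_surjective D)
      · rintro _ ⟨x, hx, rfl⟩
        rw [← map_commutatorElement]
        exact Subgroup.mem_map_of_mem _ (hDc x hx)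
    have htop' : B.map (QuotientGroup.mk' V) ⊔
        Subgroup.closure {QuotientGroup.mk' V a, QuotientGroup.mk' V b} = ⊤ := by
      rw [← Set.image_pair, ← MonoidHom.map_closure, ← Subgroup.map_sup, htop,
        Subgroup.map_top_of_surjective _ hsurj]
    have hh' : QuotientGroup.mk' V h ∈
        Subgroup.closure {QuotientGroup.mk' V a, QuotientGroup.mk' V b} := by
      rw [← Set.image_pair, ← MonoidHom.map_closure]
      exact Subgroup.mem_map_of_mem _ hh
    have hcop' : (orderOf (QuotientGroup.mk' V h)).Coprime p :=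
      Nat.Coprime.coprime_dvd_left (orderOf_map_dvd _ h) hcop
    have hres := ih (G ⧸ V) hoddQ hcardQ (B.map (QuotientGroup.mk' V)) hBQ
      (QuotientGroup.mk' V a) (QuotientGroup.mk' V b) (hq' a hqa) (hq' b hqb) htop'
      (QuotientGroup.mk' V h) hh' hcop'
    rw [Subgroup.mem_centralizer_iff] at hres ⊢
    intro x hx
    have h1 := hres _ (Subgroup.mem_map_of_mem _ hx)
    have h2 : (h * x)⁻¹ * (x * h) ∈ V := by
      rw [← QuotientGroup.eq]
      exact h1.symm
    exact os_centralize_of_comm h x 1 hcop (hVcentral _ h2 h) (by rw [pow_one]; exact hVp _ h2)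


theorem os_klc {G : Type u} [Group G] [Finite G] [Group.IsSolvable G] (hodd : Odd (Nat.card G))
    (p : ℕ) [Fact p.Prime] (hp2 : p ≠ 2) (B : Subgroup G) [hBn : B.Normal] (hB : IsPGroup p B)
    (a b : G) (hqa : OsCyc p B a) (hqb : OsCyc p B b)
    (h : G) (hh : h ∈ Subgroup.closure {a, b}) (hcop : (orderOf h).Coprime p) :
    h ∈ Subgroup.centralizer (B : Set G) := by
  obtain ⟨G₁, hG₁⟩ : ∃ G₁ : Subgroup G, G₁ = B ⊔ Subgroup.closure {a, b} := ⟨_, rfl⟩
  have hBG₁ : B ≤ G₁ := hG₁ ▸ le_sup_left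
  have hclG₁ : Subgroup.closure {a, b} ≤ G₁ := hG₁ ▸ le_sup_right
  have haG₁ : a ∈ G₁ := hclG₁ (Subgroup.subset_closure (by simp))
  have hbG₁ : b ∈ G₁ := hclG₁ (Subgroup.subset_closure (by simp))
  have hodd₁ : Odd (Nat.card ↥G₁) := hodd.of_dvd_nat (Subgroup.card_subgroup_dvd_card G₁)
  have hB₁ : IsPGroup p ↥(B.subgroupOf G₁) := hB.comap_subtype
  have himg : (Subgroup.closure {(⟨a, haG₁⟩ : ↥G₁), ⟨b, hbG₁⟩}).map G₁.subtype
      = Subgroup.closure {a, b} := by
    rw [MonoidHom.map_closure, Set.image_pair]; rfl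
  have htop : B.subgroupOf G₁ ⊔ Subgroup.closure {(⟨a, haG₁⟩ : ↥G₁), ⟨b, hbG₁⟩} = ⊤ := by
    apply Subgroup.map_injective G₁.subtype_injective
    rw [Subgroup.map_sup, himg, Subgroup.map_subgroupOf_eq_of_le hBG₁, ← MonoidHom.range_eq_map,
      Subgroup.range_subtype, hG₁]
  have hh₁ : (⟨h, hclG₁ hh⟩ : ↥G₁) ∈ Subgroup.closure {(⟨a, haG₁⟩ : ↥G₁), ⟨b, hbG₁⟩} := by
    have h1 : h ∈ (Subgroup.closure {(⟨a, haG₁⟩ : ↥G₁), ⟨b, hbG₁⟩}).map G₁.subtype := by
      rw [himg]; exact hh
    obtain ⟨y, hy, hyh⟩ := h1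
    have : y = ⟨h, hclG₁ hh⟩ := Subtype.ext hyh
    rw [← this]; exact hy
  have hcop₁ : (orderOf (⟨h, hclG₁ hh⟩ : ↥G₁)).Coprime p := by
    rw [← orderOf_injective G₁.subtype G₁.subtype_injective]; exact hcop
  have hres : ∀ (c : G) (hc : c ∈ G₁), OsCyc p B c → OsCyc p (B.subgroupOf G₁) (⟨c, hc⟩ : ↥G₁) := by
    rintro c hc ⟨⟨k, hk⟩, D, hD, hDc⟩
    refine ⟨⟨k, Subtype.ext hk⟩, D.subgroupOf G₁, ?_, ?_⟩
    · haveI := hD
      let f : ↥(D.subgroupOf G₁) →* ↥D :=
        { toFun := fun x => ⟨((x : ↥G₁) : G), x.2⟩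
          map_one' := rfl
          map_mul' := fun _ _ => rfl }
      refine isCyclic_of_injective f ?_
      intro x y hxy
      have h' := congrArg Subtype.val hxy
      exact Subtype.ext (Subtype.ext h')
    · intro x hx
      exact hDc x.1 hx
  have hfin := os_klc_core p hp2 (Nat.card ↥G₁) ↥G₁ hodd₁ le_rfl (B.subgroupOf G₁) hB₁
    ⟨a, haG₁⟩ ⟨b, hbG₁⟩ (hres a haG₁ hqa) (hres b hbG₁ hqb) htop
    ⟨h, hclG₁ hh⟩ hh₁ hcop₁
  rw [Subgroup.mem_centralizer_iff] at hfin ⊢
  intro x hx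
  exact congrArg Subtype.val (hfin ⟨x, hBG₁ hx⟩ hx)

theorem os_pstablec {G : Type u} [Group G] [Finite G] [Group.IsSolvable G]
    (hodd : Odd (Nat.card G))
    (p : ℕ) [Fact p.Prime] (hp2 : p ≠ 2) (B : Subgroup G) [hBn : B.Normal] (hB : IsPGroup p B)
    (a : G) (hqa : OsCyc p B a) :
    (QuotientGroup.mk a : G ⧸ Subgroup.centralizer (B : Set G)) ∈
      Cfsg.pCore p (G ⧸ Subgroup.centralizer (B : Set G)) := by
  classical
  have hp : p.Prime := Fact.out
  have hsurj := QuotientGroup.mk'_surjective (Subgroup.centralizer (B : Set G))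
  have key : ∀ g : G, IsPGroup p ↥((Subgroup.closure {a, g * a * g⁻¹}).map
      (QuotientGroup.mk' (Subgroup.centralizer (B : Set G)))) := by
    intro g
    have hqb : OsCyc p B (g * a * g⁻¹) := by
      obtain ⟨⟨k, hk⟩, D, hD, hDc⟩ := hqa
      refine ⟨⟨k, by rw [conj_pow, hk, mul_one, mul_inv_cancel]⟩,
        D.map (MulAut.conj g).toMonoidHom, ?_, ?_⟩
      · haveI := hD
        exact isCyclic_of_surjective _ ((MulAut.conj g).toMonoidHom.subgroupMap_surjective D)
      · intro x hx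
        have hx' : g⁻¹ * x * g ∈ B := by
          have := hBn.conj_mem x hx g⁻¹
          rwa [inv_inv] at this
        refine ⟨⁅g⁻¹ * x * g, a⁆, hDc _ hx', ?_⟩
        show g * ⁅g⁻¹ * x * g, a⁆ * g⁻¹ = ⁅x, g * a * g⁻¹⁆
        simp only [commutatorElement_def]; group
    rintro ⟨y, hy⟩
    obtain ⟨h, hh, rfl⟩ := hy
    obtain ⟨j, hcop⟩ := os_pprime_part p h
    have hh' : h ^ p ^ j ∈ Subgroup.closure {a, g * a * g⁻¹} := Subgroup.pow_mem _ hh _
    have hcent := os_klc hodd p hp2 B hB a (g * a * g⁻¹) hqa hqb _ hh' hcop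
    refine ⟨j, ?_⟩
    apply Subtype.ext
    show (QuotientGroup.mk' (Subgroup.centralizer (B : Set G)) h) ^ p ^ j = 1
    rw [← map_pow]
    exact (QuotientGroup.eq_one_iff _).mpr hcent
  obtain ⟨N, hNn, hNp, hXN⟩ := Cfsg.Agent.Lib.Lead.baer_suzuki (p := p)
    (Subgroup.zpowers (QuotientGroup.mk' (Subgroup.centralizer (B : Set G)) a)) (by
      intro gbar
      obtain ⟨g, rfl⟩ := hsurj gbar
      have hEq : Subgroup.zpowers (QuotientGroup.mk' (Subgroup.centralizer (B : Set G)) a) ⊔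
          (Subgroup.zpowers (QuotientGroup.mk' (Subgroup.centralizer (B : Set G)) a)).map
            (MulAut.conj (QuotientGroup.mk' (Subgroup.centralizer (B : Set G)) g)).toMonoidHom
          = (Subgroup.closure {a, g * a * g⁻¹}).map
              (QuotientGroup.mk' (Subgroup.centralizer (B : Set G))) := by
        rw [MonoidHom.map_closure, Set.image_pair, MonoidHom.map_zpowers,
          Subgroup.zpowers_eq_closure, Subgroup.zpowers_eq_closure, ← Subgroup.closure_union,
          Set.singleton_union]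
        congr 2
      rw [hEq]; exact key g)
  exact Cfsg.Agent.Lib.Helper4.le_pCore hNn hNp (hXN (Subgroup.mem_zpowers _))

end Cfsg.Agent.Lib.Helper1
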