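import Mathlib

set_option autoImplicit false

namespace Cfsg.Agent.Lib.Helper1

/-- If `x₀` is fixed and every other point has stabilizer index divisible by `d`, then
`|X| ≡ 1 (mod d)`. -/
theorem card_modEq_one_of_fixed_of_dvd {P X : Type*} [Group P] [MulAction P X] [Finite X]
    (d : ℕ) (x₀ : X) (hfix : ∀ g : P, g • x₀ = x₀)
    (h : ∀ x : X, x ≠ x₀ → d ∣ (MulAction.stabilizer P x).index) : Nat.card X ≡ 1 [MOD d] := by
  classical
  have : Fintype (Quotient (MulAction.orbitRel P X)) := Fintype.ofFinite _
  rw [Nat.card_congr (MulAction.selfEquivSigmaOrbits P X), Nat.card_sigma]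
  rw [← Finset.add_sum_erase Finset.univ _ (Finset.mem_univ (Quotient.mk'' x₀ : Quotient (MulAction.orbitRel P X)))]
  have hout : (Quotient.mk'' x₀ : Quotient (MulAction.orbitRel P X)).out = x₀ := by
    have h0 : (MulAction.orbitRel P X) (Quotient.mk'' x₀ : Quotient (MulAction.orbitRel P X)).out x₀ :=
      Quotient.exact' (Quotient.out_eq' _)
    rw [MulAction.orbitRel_apply] at h0
    obtain ⟨g, hg⟩ := h0
    rw [← hg]
    exact hfix g
  have h1 : Nat.card (MulAction.orbit P (Quotient.mk'' x₀ : Quotient (MulAction.orbitRel P X)).out) = 1 := by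
    rw [hout]
    have : MulAction.orbit P x₀ = {x₀} := by
      ext y
      constructor
      · rintro ⟨g, rfl⟩
        exact hfix g
      · intro hy
        rw [Set.mem_singleton_iff] at hy
        rw [hy]
        exact MulAction.mem_orbit_self x₀
    rw [this]
    simp
  rw [h1]
  have h2 : d ∣ ∑ ω ∈ Finset.univ.erase (Quotient.mk'' x₀ : Quotient (MulAction.orbitRel P X)),
      Nat.card (MulAction.orbit P ω.out) := by
    apply Finset.dvd_sum
    intro ω hω
    rw [Nat.card_coe_set_eq, ← MulAction.index_stabilizer]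
    apply h
    intro he
    apply (Finset.mem_erase.mp hω).1
    rw [← he]
    exact (Quotient.out_eq' ω).symm
  obtain ⟨c, hc⟩ := h2
  rw [hc]
  show (1 + d * c) % d = 1 % d
  simp

end Cfsg.Agent.Lib.Helper1
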