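import Mathlib
import Cfsg.Agent.Lib.Lead.Basic
import Cfsg.Agent.Lib.Lead.Hall
import Cfsg.Agent.Lib.Helper5.ChermakDelgado

set_option autoImplicit false
open Pointwise

namespace Cfsg.Agent.Lib.Helper1

universe u

theorem ph_main {G : Type u} [Group G] [Finite G] [Group.IsSolvable G] (H K A B : Subgroup G)
    (hHK : ∀ g : G, ∃ h ∈ H, ∃ k ∈ K, g = h * k) (hA : A ≤ H)
    (hAn : (A.subgroupOf H).Normal) (hB : B ≤ K) (hBn : (B.subgroupOf K).Normal)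
    (hAh : (Nat.card A).Coprime A.index) (hBh : (Nat.card B).Coprime B.index) (x y : G) :
    ∃ S : Subgroup G, (S : Set G) =
      ((MulAut.conj x • A : Subgroup G) : Set G) * ((MulAut.conj y • B : Subgroup G) : Set G) := by
  have hAc : ∀ h ∈ H, ∀ a ∈ A, h * a * h⁻¹ ∈ A := by
    intro h hh a ha
    have := hAn.conj_mem ⟨a, hA ha⟩ (Subgroup.mem_subgroupOf.mpr ha) ⟨h, hh⟩
    exact Subgroup.mem_subgroupOf.mp this
  have hBc : ∀ k ∈ K, ∀ b ∈ B, k * b * k⁻¹ ∈ B := by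
    intro k hk b hb
    have := hBn.conj_mem ⟨b, hB hb⟩ (Subgroup.mem_subgroupOf.mpr hb) ⟨k, hk⟩
    exact Subgroup.mem_subgroupOf.mp this
  obtain ⟨A', hA'⟩ : ∃ A' : Subgroup G, A' = MulAut.conj x • A := ⟨_, rfl⟩
  obtain ⟨B', hB'⟩ : ∃ B' : Subgroup G, B' = MulAut.conj y • B := ⟨_, rfl⟩
  rw [← hA', ← hB']
  have hcA : Nat.card A' = Nat.card A := by
    rw [hA']; exact Cfsg.Agent.Lib.Lead.card_conj_smul x A
  have hcB : Nat.card B' = Nat.card B := by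
    rw [hB']; exact Cfsg.Agent.Lib.Lead.card_conj_smul y B
  have hmA : ∀ z, z ∈ A' ↔ x⁻¹ * z * x ∈ A := by
    intro z; rw [hA']; exact Cfsg.Agent.Lib.Lead.mem_conj_smul
  have hmB : ∀ z, z ∈ B' ↔ y⁻¹ * z * y ∈ B := by
    intro z; rw [hB']; exact Cfsg.Agent.Lib.Lead.mem_conj_smul
  obtain ⟨a, ha⟩ : ∃ a, a = Nat.card A := ⟨_, rfl⟩
  obtain ⟨b, hb⟩ : ∃ b, b = Nat.card B := ⟨_, rfl⟩
  have hapos : 0 < a := by rw [ha]; exact Nat.card_pos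
  have hbpos : 0 < b := by rw [hb]; exact Nat.card_pos
  have hGa : Nat.card G = a * A.index := by rw [ha]; exact (Subgroup.card_mul_index A).symm
  have hGb : Nat.card G = b * B.index := by rw [hb]; exact (Subgroup.card_mul_index B).symm
  have hm_dvd : Nat.lcm a b ∣ Nat.card G :=
    Nat.lcm_dvd (Dvd.intro _ hGa.symm) (Dvd.intro _ hGb.symm)
  obtain ⟨n, hn⟩ := hm_dvd
  have hnA : n ∣ A.index := by
    obtain ⟨c, hc⟩ := Nat.dvd_lcm_left a b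
    have h1 : a * (c * n) = a * A.index := by rw [← hGa, hn, hc, mul_assoc]
    exact Dvd.intro_left c (Nat.eq_of_mul_eq_mul_left hapos h1)
  have hnB : n ∣ B.index := by
    obtain ⟨c, hc⟩ := Nat.dvd_lcm_right a b
    have h1 : b * (c * n) = b * B.index := by rw [← hGb, hn, hc, mul_assoc]
    exact Dvd.intro_left c (Nat.eq_of_mul_eq_mul_left hbpos h1)
  have hcopA : (Nat.card A).Coprime n := hAh.coprime_dvd_right hnA
  have hcopB : (Nat.card B).Coprime n := hBh.coprime_dvd_right hnB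
  have hcop : (Nat.lcm a b).Coprime n := by
    have h1 : (a * b).Coprime n := Nat.Coprime.mul_left (by rw [ha]; exact hcopA)
      (by rw [hb]; exact hcopB)
    exact Nat.Coprime.coprime_dvd_left (Nat.lcm_dvd_mul a b) h1
  obtain ⟨L₁, hL₁, hAL₁⟩ := Cfsg.Agent.Lib.Lead.hallD_all (Nat.card G) G rfl (Nat.lcm a b) n hn
    hcop A' (by rw [hcA]; exact hcopA)
  obtain ⟨L₂, hL₂, hBL₂⟩ := Cfsg.Agent.Lib.Lead.hallD_all (Nat.card G) G rfl (Nat.lcm a b) n hn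
    hcop B' (by rw [hcB]; exact hcopB)
  obtain ⟨g, hg⟩ := Cfsg.Agent.Lib.Lead.hallC_all (Nat.card G) G rfl (Nat.lcm a b) n hn hcop
    L₁ L₂ hL₁ hL₂
  obtain ⟨h₀, hh₀, k₀, hk₀, e₀⟩ := hHK (x⁻¹ * y)
  obtain ⟨h', hh', k', hk', e'⟩ := hHK (x⁻¹ * g⁻¹ * y)
  obtain ⟨h, hhdef⟩ : ∃ h, h = h' * h₀⁻¹ := ⟨_, rfl⟩
  obtain ⟨k, hkdef⟩ : ∃ k, k = k₀⁻¹ * k' := ⟨_, rfl⟩
  have hhH : h ∈ H := by rw [hhdef]; exact H.mul_mem hh' (H.inv_mem hh₀)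
  have hkK : k ∈ K := by rw [hkdef]; exact K.mul_mem (K.inv_mem hk₀) hk'
  have eg : g⁻¹ = (x * h * x⁻¹) * (y * k * y⁻¹) := by
    rw [hhdef, hkdef]
    calc g⁻¹ = x * (x⁻¹ * g⁻¹ * y) * y⁻¹ := by group
      _ = x * (h' * k') * y⁻¹ := by rw [e']
      _ = x * h' * h₀⁻¹ * (h₀ * k₀) * k₀⁻¹ * k' * y⁻¹ := by group
      _ = x * h' * h₀⁻¹ * (x⁻¹ * y) * k₀⁻¹ * k' * y⁻¹ := by rw [e₀]
      _ = _ := by group
  have eg' : g = (y * k⁻¹ * y⁻¹) * (x * h⁻¹ * x⁻¹) := by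
    have : g = (g⁻¹)⁻¹ := (inv_inv g).symm
    rw [this, eg]; group
  obtain ⟨L, hL⟩ : ∃ L : Subgroup G, L = MulAut.conj (x * h⁻¹ * x⁻¹) • L₁ := ⟨_, rfl⟩
  have hmL : ∀ z, z ∈ L ↔ (x * h⁻¹ * x⁻¹)⁻¹ * z * (x * h⁻¹ * x⁻¹) ∈ L₁ := by
    intro z; rw [hL]; exact Cfsg.Agent.Lib.Lead.mem_conj_smul
  have hcL : Nat.card L = Nat.lcm a b := by
    rw [hL, Cfsg.Agent.Lib.Lead.card_conj_smul, hL₁]
  have hAL : A' ≤ L := by
    intro z hz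
    rw [hmL]
    apply hAL₁
    rw [hmA] at hz ⊢
    have e : x⁻¹ * ((x * h⁻¹ * x⁻¹)⁻¹ * z * (x * h⁻¹ * x⁻¹)) * x = h * (x⁻¹ * z * x) * h⁻¹ := by
      group
    rw [e]
    exact hAc h hhH _ hz
  have hBL : B' ≤ L := by
    intro z hz
    rw [hmL]
    have h1 : (y * k⁻¹ * y⁻¹) * z * (y * k⁻¹ * y⁻¹)⁻¹ ∈ L₂ := by
      apply hBL₂
      rw [hmB] at hz ⊢
      have e : y⁻¹ * ((y * k⁻¹ * y⁻¹) * z * (y * k⁻¹ * y⁻¹)⁻¹) * y =
          k⁻¹ * (y⁻¹ * z * y) * (k⁻¹)⁻¹ := by group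
      rw [e]
      exact hBc k⁻¹ (K.inv_mem hkK) _ hz
    rw [← hg, Cfsg.Agent.Lib.Lead.mem_conj_smul] at h1
    have e : (x * h⁻¹ * x⁻¹)⁻¹ * z * (x * h⁻¹ * x⁻¹) =
        g⁻¹ * ((y * k⁻¹ * y⁻¹) * z * (y * k⁻¹ * y⁻¹)⁻¹) * g := by
      have e2 : g⁻¹ * ((y * k⁻¹ * y⁻¹) * z * (y * k⁻¹ * y⁻¹)⁻¹) * g =
          (g⁻¹ * (y * k⁻¹ * y⁻¹)) * z * ((y * k⁻¹ * y⁻¹)⁻¹ * g) := by group
      have e3 : g⁻¹ * (y * k⁻¹ * y⁻¹) = (x * h⁻¹ * x⁻¹)⁻¹ := by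
        rw [eg]; group
      have e4 : (y * k⁻¹ * y⁻¹)⁻¹ * g = x * h⁻¹ * x⁻¹ := by
        rw [eg']; group
      rw [e2, e3, e4]
    rw [e]
    exact h1
  refine ⟨L, ?_⟩
  symm
  apply Set.eq_of_subset_of_ncard_le ?_ ?_ (Set.toFinite _)
  · rintro _ ⟨u, hu, v, hv, rfl⟩
    exact L.mul_mem (hAL hu) (hBL hv)
  · have hprod := Cfsg.Agent.Lib.Helper5.card_mul_set_mul_card_inf A' B'
    rw [hcA, hcB, ← ha, ← hb] at hprod
    have hcdvd : Nat.card (A' ⊓ B' : Subgroup G) ∣ Nat.gcd a b := by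
      apply Nat.dvd_gcd
      · rw [ha, ← hcA]; exact Subgroup.card_dvd_of_le inf_le_left
      · rw [hb, ← hcB]; exact Subgroup.card_dvd_of_le inf_le_right
    have hcpos : 0 < Nat.card (A' ⊓ B' : Subgroup G) := Nat.card_pos
    obtain ⟨c, hc⟩ : ∃ c, c = Nat.card (A' ⊓ B' : Subgroup G) := ⟨_, rfl⟩
    obtain ⟨s, hs⟩ : ∃ s, s = Nat.card ((A' : Set G) * (B' : Set G) : Set G) := ⟨_, rfl⟩
    rw [← hc] at hcdvd hcpos hprod
    rw [← hs] at hprod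
    have hsl : Nat.lcm a b ≤ s := by
      obtain ⟨j, hj⟩ := hcdvd
      have h1 : c * s = c * (j * Nat.lcm a b) := by
        rw [mul_comm c s, hprod, ← Nat.gcd_mul_lcm, hj, mul_assoc]
      have h2 : s = j * Nat.lcm a b := Nat.eq_of_mul_eq_mul_left hcpos h1
      have hj1 : 1 ≤ j := by
        rcases Nat.eq_zero_or_pos j with h0 | h0
        · rw [h0, mul_zero] at hj
          exact absurd hj (Nat.gcd_pos_of_pos_left b hapos).ne'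
        · exact h0
      rw [h2]; exact Nat.le_mul_of_pos_left _ hj1
    have e1 : ((L : Set G)).ncard = Nat.card L := (Nat.card_coe_set_eq (L : Set G)).symm
    have e2 : ((A' : Set G) * (B' : Set G)).ncard = s := by
      rw [hs]; exact (Nat.card_coe_set_eq _).symm
    rw [e1, e2, hcL]
    exact hsl

end Cfsg.Agent.Lib.Helper1
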