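import Mathlib
import Cfsg.Prelude
import Cfsg.Agent.Lib.Helper6.Comm
import Cfsg.Agent.Lib.Lead.Nilpotent

set_option autoImplicit false

namespace Cfsg.Agent.Lib.Helper1

theorem imc_iff {G : Type*} [Group G] (A : Subgroup G) :
    IsMulCommutative A ↔ ∀ x ∈ A, ∀ y ∈ A, x * y = y * x := by
  constructor
  · intro h x hx y hy
    exact congrArg Subtype.val (h.is_comm.comm (⟨x, hx⟩ : ↥A) ⟨y, hy⟩)
  · intro h
    exact ⟨⟨fun x y => Subtype.ext (h x.1 x.2 y.1 y.2)⟩⟩

/-- relative Puig step inside `G`: generated by the abelian subgroups of `H` normalized by `X`. -/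
def puRelStep {G : Type*} [Group G] (H X : Subgroup G) : Subgroup G :=
  sSup {A : Subgroup G | A ≤ H ∧ IsMulCommutative A ∧ X ≤ Subgroup.normalizer (A : Set G)}

/-- relative Puig series of `H` inside `G`. -/
def puRelSeq {G : Type*} [Group G] (H : Subgroup G) : ℕ → Subgroup G
  | 0 => ⊥
  | n + 1 => puRelStep H (puRelSeq H n)

def puLower {G : Type*} [Group G] (H : Subgroup G) : Subgroup G := ⨆ n : ℕ, puRelSeq H (2 * n)

def puUpper {G : Type*} [Group G] (H : Subgroup G) : Subgroup G := ⨅ n : ℕ, puRelSeq H (2 * n + 1)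

section
variable {G : Type*} [Group G]

theorem puRelStep_anti (H : Subgroup G) {X Y : Subgroup G} (h : X ≤ Y) :
    puRelStep H Y ≤ puRelStep H X :=
  sSup_le_sSup (fun _ hA => ⟨hA.1, hA.2.1, h.trans hA.2.2⟩)

theorem puRelStep_mono {H H' : Subgroup G} (h : H ≤ H') (X : Subgroup G) :
    puRelStep H X ≤ puRelStep H' X :=
  sSup_le_sSup (fun _ hA => ⟨hA.1.trans h, hA.2.1, hA.2.2⟩)

theorem puRelStep_le (H X : Subgroup G) : puRelStep H X ≤ H := sSup_le (fun _ hA => hA.1)

theorem puRelSeq_le (H : Subgroup G) : ∀ n, puRelSeq H n ≤ H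
  | 0 => bot_le
  | _ + 1 => puRelStep_le H _

theorem puRelSeq_succ (H : Subgroup G) (n : ℕ) :
    puRelSeq H (n + 1) = puRelStep H (puRelSeq H n) := rfl

theorem puRelSeq_one (H : Subgroup G) : puRelSeq H 1 = H := by
  apply le_antisymm (puRelSeq_le H 1)
  intro x hx
  have hmem : Subgroup.zpowers x ∈ {A : Subgroup G | A ≤ H ∧ IsMulCommutative A ∧
      (⊥ : Subgroup G) ≤ Subgroup.normalizer (A : Set G)} :=
    ⟨(Subgroup.zpowers_le).mpr hx, inferInstance, bot_le⟩
  exact (le_sSup hmem) (Subgroup.mem_zpowers x)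

theorem puRelSeq_chain (H : Subgroup G) : ∀ n, puRelSeq H (2 * n) ≤ puRelSeq H (2 * n + 1) ∧
    puRelSeq H (2 * n + 2) ≤ puRelSeq H (2 * n + 1) := by
  intro n
  induction n with
  | zero => exact ⟨bot_le, puRelStep_anti H bot_le⟩
  | succ n ih =>
    have e1 : puRelSeq H (2 * (n + 1)) ≤ puRelSeq H (2 * (n + 1) + 1) := by
      show puRelStep H (puRelSeq H (2 * n + 1)) ≤ puRelStep H (puRelSeq H (2 * n + 2))
      apply sSup_le
      rintro A ⟨hAH, hAc, hAn⟩
      exact le_sSup ⟨hAH, hAc, ih.2.trans hAn⟩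
    exact ⟨e1, puRelStep_anti H e1⟩

theorem puRelSeq_even_mono (H : Subgroup G) : ∀ n, puRelSeq H (2 * n) ≤ puRelSeq H (2 * n + 2) ∧
    puRelSeq H (2 * n + 3) ≤ puRelSeq H (2 * n + 1) := by
  intro n
  induction n with
  | zero => exact ⟨bot_le, puRelStep_anti H bot_le⟩
  | succ n ih =>
    have e1 : puRelSeq H (2 * (n + 1)) ≤ puRelSeq H (2 * (n + 1) + 2) := by
      show puRelStep H (puRelSeq H (2 * n + 1)) ≤ puRelStep H (puRelSeq H (2 * n + 3))
      exact puRelStep_anti H ih.2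
    exact ⟨e1, puRelStep_anti H e1⟩

theorem puRelSeq_even_le (H : Subgroup G) {m n : ℕ} (h : m ≤ n) :
    puRelSeq H (2 * m) ≤ puRelSeq H (2 * n) := by
  induction h with
  | refl => exact le_rfl
  | step _ ih => exact ih.trans (puRelSeq_even_mono H _).1

theorem puRelSeq_odd_le (H : Subgroup G) {m n : ℕ} (h : m ≤ n) :
    puRelSeq H (2 * n + 1) ≤ puRelSeq H (2 * m + 1) := by
  induction h with
  | refl => exact le_rfl
  | step _ ih => exact ((puRelSeq_even_mono H _).2).trans ih

theorem puRelSeq_even_le_odd (H : Subgroup G) (m n : ℕ) :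
    puRelSeq H (2 * m) ≤ puRelSeq H (2 * n + 1) :=
  ((puRelSeq_even_le H (le_max_left m n)).trans (puRelSeq_chain H (max m n)).1).trans
    (puRelSeq_odd_le H (le_max_right m n))

theorem puLower_le_puUpper (H : Subgroup G) : puLower H ≤ puUpper H :=
  iSup_le (fun m => le_iInf (fun n => puRelSeq_even_le_odd H m n))

theorem puUpper_le (H : Subgroup G) : puUpper H ≤ H :=
  (iInf_le (fun n => puRelSeq H (2 * n + 1)) 0).trans (puRelSeq_le H _)

theorem pu_stab [Finite G] (H : Subgroup G) : ∃ k, ∀ n, k ≤ n →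
    puRelSeq H (2 * n) = puLower H ∧ puRelSeq H (2 * n + 1) = puUpper H := by
  obtain ⟨k, hk⟩ := WellFoundedGT.monotone_chain_condition
    (⟨fun n => puRelSeq H (2 * n), fun _ _ h => puRelSeq_even_le H h⟩ : ℕ →o Subgroup G)
  have hk' : ∀ m, k ≤ m → puRelSeq H (2 * k) = puRelSeq H (2 * m) := hk
  obtain ⟨j, hj⟩ := WellFoundedGT.monotone_chain_condition (α := (Subgroup G)ᵒᵈ)
    (⟨fun n => OrderDual.toDual (puRelSeq H (2 * n + 1)), fun _ _ h => puRelSeq_odd_le H h⟩ :
      ℕ →o (Subgroup G)ᵒᵈ)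
  have hj' : ∀ m, j ≤ m → puRelSeq H (2 * j + 1) = puRelSeq H (2 * m + 1) := hj
  refine ⟨max k j, fun n hn => ⟨?_, ?_⟩⟩
  · apply le_antisymm (le_iSup (fun n => puRelSeq H (2 * n)) n)
    apply iSup_le
    intro m
    rw [← hk' n (le_trans (le_max_left k j) hn)]
    by_cases hm : m ≤ k
    · exact puRelSeq_even_le H hm
    · rw [hk' m (by omega)]
  · apply le_antisymm _ (iInf_le (fun n => puRelSeq H (2 * n + 1)) n)
    apply le_iInf
    intro m
    rw [← hj' n (le_trans (le_max_right k j) hn)]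
    by_cases hm : m ≤ j
    · exact puRelSeq_odd_le H hm
    · rw [hj' m (by omega)]

theorem puUpper_eq [Finite G] (H : Subgroup G) : puUpper H = puRelStep H (puLower H) := by
  obtain ⟨k, hk⟩ := pu_stab H
  rw [← (hk k le_rfl).1, ← (hk k le_rfl).2]; rfl

theorem puLower_eq [Finite G] (H : Subgroup G) : puLower H = puRelStep H (puUpper H) := by
  obtain ⟨k, hk⟩ := pu_stab H
  rw [← (hk (k + 1) (by omega)).1, ← (hk k le_rfl).2]; rfl

theorem puRelStep_map {G' : Type*} [Group G'] (f : G →* G') (H X : Subgroup G) (hX : X ≤ H)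
    (hinj : ∀ a ∈ H, ∀ b ∈ H, f a = f b → a = b) :
    puRelStep (H.map f) (X.map f) = (puRelStep H X).map f := by
  apply le_antisymm
  · apply sSup_le
    rintro A' ⟨hA'H, hA'c, hA'n⟩
    have hAmap : (H ⊓ A'.comap f).map f = A' := by
      apply le_antisymm
      · rintro _ ⟨a, ha, rfl⟩; exact ha.2
      · intro y hy
        obtain ⟨a, ha, rfl⟩ := hA'H hy
        exact ⟨a, ⟨ha, hy⟩, rfl⟩
    rw [← hAmap]
    apply Subgroup.map_mono
    apply le_sSup
    refine ⟨inf_le_left, ?_, ?_⟩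
    · rw [imc_iff]
      intro a ha b hb
      apply hinj _ (H.mul_mem ha.1 hb.1) _ (H.mul_mem hb.1 ha.1)
      rw [map_mul, map_mul]
      exact (imc_iff A').mp hA'c _ ha.2 _ hb.2
    · intro x hx
      rw [Subgroup.mem_normalizer_iff]
      intro a
      have hfx : f x ∈ Subgroup.normalizer (A' : Set G') := hA'n (Subgroup.mem_map_of_mem f hx)
      rw [Subgroup.mem_normalizer_iff] at hfx
      constructor
      · rintro ⟨haH, haA⟩
        refine ⟨H.mul_mem (H.mul_mem (hX hx) haH) (H.inv_mem (hX hx)), ?_⟩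
        show f (x * a * x⁻¹) ∈ A'
        rw [map_mul, map_mul, map_inv]
        exact (hfx (f a)).mp haA
      · rintro ⟨haH, haA⟩
        have haH' : a ∈ H := by
          have := H.mul_mem (H.mul_mem (H.inv_mem (hX hx)) haH) (hX hx)
          have e : x⁻¹ * (x * a * x⁻¹) * x = a := by group
          rwa [e] at this
        refine ⟨haH', ?_⟩
        have h1 : f (x * a * x⁻¹) ∈ A' := haA
        rw [map_mul, map_mul, map_inv] at h1
        exact (hfx (f a)).mpr h1
  · rw [Subgroup.map_le_iff_le_comap]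
    apply sSup_le
    rintro A ⟨hAH, hAc, hAn⟩
    rw [← Subgroup.map_le_iff_le_comap]
    apply le_sSup
    refine ⟨Subgroup.map_mono hAH, ?_, ?_⟩
    · rw [imc_iff]
      rintro _ ⟨a, ha, rfl⟩ _ ⟨b, hb, rfl⟩
      rw [← map_mul, ← map_mul, (imc_iff A).mp hAc a ha b hb]
    · exact (Subgroup.map_mono hAn).trans (Subgroup.le_normalizer_map f)

theorem puRelSeq_map {G' : Type*} [Group G'] (f : G →* G') (H : Subgroup G)
    (hinj : ∀ a ∈ H, ∀ b ∈ H, f a = f b → a = b) :
    ∀ n, puRelSeq (H.map f) n = (puRelSeq H n).map f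
  | 0 => (Subgroup.map_bot f).symm
  | n + 1 => by
    show puRelStep (H.map f) (puRelSeq (H.map f) n) = (puRelStep H (puRelSeq H n)).map f
    rw [puRelSeq_map f H hinj n, puRelStep_map f H _ (puRelSeq_le H n) hinj]

theorem puLower_map {G' : Type*} [Group G'] (f : G →* G') (H : Subgroup G)
    (hinj : ∀ a ∈ H, ∀ b ∈ H, f a = f b → a = b) : puLower (H.map f) = (puLower H).map f := by
  unfold puLower
  rw [Subgroup.map_iSup]
  exact iSup_congr (fun n => puRelSeq_map f H hinj _)

theorem puUpper_map_inj {G' : Type*} [Group G'] (f : G →* G') (hf : Function.Injective f)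
    (H : Subgroup G) : puUpper (H.map f) = (puUpper H).map f := by
  unfold puUpper
  rw [Subgroup.map_iInf f hf]
  exact iInf_congr (fun n => puRelSeq_map f H (fun _ _ _ _ h => hf h) _)

theorem puUpper_map {G' : Type*} [Group G'] [Finite G] [Finite G'] (f : G →* G')
    (H : Subgroup G) (hinj : ∀ a ∈ H, ∀ b ∈ H, f a = f b → a = b) :
    puUpper (H.map f) = (puUpper H).map f := by
  obtain ⟨k, hk⟩ := pu_stab H
  obtain ⟨k', hk'⟩ := pu_stab (H.map f)
  rw [← (hk (max k k') (le_max_left _ _)).2, ← (hk' (max k k') (le_max_right _ _)).2]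
  exact puRelSeq_map f H hinj _

theorem puRelStep_top (X : Subgroup G) : puRelStep ⊤ X = Cfsg.puigStep X := by
  unfold puRelStep Cfsg.puigStep
  congr 1
  ext A
  simp

theorem puRelSeq_top : ∀ n, puRelSeq (⊤ : Subgroup G) n = Cfsg.puigSeq G n
  | 0 => rfl
  | n + 1 => by
    show puRelStep ⊤ (puRelSeq ⊤ n) = Cfsg.puigStep (Cfsg.puigSeq G n)
    rw [puRelSeq_top n, puRelStep_top]

theorem puLower_subtype (S : Subgroup G) :
    (Cfsg.puigLower ↥S).map S.subtype = puLower S := by
  have h1 : Cfsg.puigLower ↥S = puLower (⊤ : Subgroup ↥S) := by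
    unfold puLower Cfsg.puigLower
    exact iSup_congr (fun n => (puRelSeq_top _).symm)
  rw [h1, ← puLower_map S.subtype ⊤ (fun a _ b _ h => Subtype.ext h), ← MonoidHom.range_eq_map,
    Subgroup.range_subtype]

theorem puUpper_subtype (S : Subgroup G) :
    (Cfsg.puigSubgroup ↥S).map S.subtype = puUpper S := by
  have h1 : Cfsg.puigSubgroup ↥S = puUpper (⊤ : Subgroup ↥S) := by
    unfold puUpper Cfsg.puigSubgroup
    exact iInf_congr (fun n => (puRelSeq_top _).symm)
  rw [h1, ← puUpper_map_inj S.subtype S.subtype_injective ⊤, ← MonoidHom.range_eq_map,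
    Subgroup.range_subtype]

theorem puUpper_eq_of_le [Finite G] {H H' : Subgroup G} (hle : H' ≤ H) (hU : puUpper H ≤ H') :
    puUpper H' = puUpper H := by
  have hLU := puLower_le_puUpper H
  have p1 : ∀ n, puRelSeq H (2 * n) ≤ puRelSeq H' (2 * n) ∧
      puRelSeq H' (2 * n + 1) ≤ puRelSeq H (2 * n + 1) := by
    intro n
    induction n with
    | zero =>
      refine ⟨le_rfl, ?_⟩
      rw [show 2 * 0 + 1 = 1 from rfl, puRelSeq_one, puRelSeq_one]; exact hle
    | succ n ih =>
      have e1 : puRelSeq H (2 * (n + 1)) ≤ puRelSeq H' (2 * (n + 1)) := by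
        show puRelStep H (puRelSeq H (2 * n + 1)) ≤ puRelStep H' (puRelSeq H' (2 * n + 1))
        apply sSup_le
        rintro A ⟨hAH, hAc, hAn⟩
        have hA1 : A ≤ puRelSeq H (2 * (n + 1)) := le_sSup ⟨hAH, hAc, hAn⟩
        have hA2 : A ≤ H' :=
          hA1.trans ((le_iSup (fun m => puRelSeq H (2 * m)) (n + 1)).trans (hLU.trans hU))
        exact le_sSup ⟨hA2, hAc, ih.2.trans hAn⟩
      refine ⟨e1, ?_⟩
      show puRelStep H' (puRelSeq H' (2 * (n + 1))) ≤ puRelStep H (puRelSeq H (2 * (n + 1)))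
      exact (puRelStep_mono hle _).trans (puRelStep_anti H e1)
  have p2 : ∀ n, puRelSeq H' (2 * n) ≤ puLower H ∧ puUpper H ≤ puRelSeq H' (2 * n + 1) := by
    intro n
    induction n with
    | zero =>
      refine ⟨bot_le, ?_⟩
      rw [show 2 * 0 + 1 = 1 from rfl, puRelSeq_one]; exact hU
    | succ n ih =>
      have e1 : puRelSeq H' (2 * (n + 1)) ≤ puLower H := by
        rw [puLower_eq H]
        show puRelStep H' (puRelSeq H' (2 * n + 1)) ≤ puRelStep H (puUpper H)
        exact (puRelStep_anti H' ih.2).trans (puRelStep_mono hle _)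
      refine ⟨e1, ?_⟩
      show puUpper H ≤ puRelStep H' (puRelSeq H' (2 * (n + 1)))
      refine le_trans ?_ (puRelStep_anti H' e1)
      have h3 : puRelStep H (puLower H) ≤ puRelStep H' (puLower H) := by
        apply sSup_le
        rintro A ⟨hAH, hAc, hAn⟩
        have hA1 : A ≤ puUpper H := by rw [puUpper_eq H]; exact le_sSup ⟨hAH, hAc, hAn⟩
        exact le_sSup ⟨hA1.trans hU, hAc, hAn⟩
      rw [puUpper_eq H]
      exact h3
  apply le_antisymm
  · exact iInf_mono (fun n => (p1 n).2)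
  · exact le_iInf (fun n => (p2 n).2)

theorem puRelSeq_normalizer (H : Subgroup G) (n : ℕ) :
    Subgroup.normalizer (H : Set G) ≤ Subgroup.normalizer (puRelSeq H n : Set G) := by
  intro g hg
  rw [Subgroup.mem_normalizer_iff_map_conj_eq] at hg ⊢
  have h1 := puRelSeq_map (MulAut.conj g).toMonoidHom H
    (fun a _ b _ h => (MulAut.conj g).injective h) n
  have hg' : H.map (MulAut.conj g).toMonoidHom = H := hg
  rw [hg'] at h1
  exact h1.symm

theorem puUpper_normalizer (H : Subgroup G) :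
    Subgroup.normalizer (H : Set G) ≤ Subgroup.normalizer (puUpper H : Set G) := by
  intro g hg
  rw [Subgroup.mem_normalizer_iff_map_conj_eq] at hg ⊢
  have h1 := puUpper_map_inj (MulAut.conj g).toMonoidHom (MulAut.conj g).injective H
  have hg' : H.map (MulAut.conj g).toMonoidHom = H := hg
  rw [hg'] at h1
  exact h1.symm

theorem pu_normalizer_center (L : Subgroup G) :
    Subgroup.normalizer (L : Set G) ≤
      Subgroup.normalizer ((L ⊓ Subgroup.centralizer (L : Set G) : Subgroup G) : Set G) := by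
  intro g hg
  rw [Subgroup.mem_normalizer_iff] at hg ⊢
  have key : ∀ (g : G), (∀ h, h ∈ L ↔ g * h * g⁻¹ ∈ L) → ∀ z,
      z ∈ L ⊓ Subgroup.centralizer (L : Set G) →
      g * z * g⁻¹ ∈ L ⊓ Subgroup.centralizer (L : Set G) := by
    intro g hg z hz
    obtain ⟨hz1, hz2⟩ := Subgroup.mem_inf.mp hz
    refine Subgroup.mem_inf.mpr ⟨(hg z).mp hz1, ?_⟩
    rw [Subgroup.mem_centralizer_iff]
    intro l hl
    have hl' : g⁻¹ * l * g ∈ L := by
      rw [hg]
      have e : g * (g⁻¹ * l * g) * g⁻¹ = l := by group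
      rw [e]; exact hl
    have hc := Subgroup.mem_centralizer_iff.mp hz2 _ hl'
    calc l * (g * z * g⁻¹) = g * (g⁻¹ * l * g * z) * g⁻¹ := by group
      _ = g * (z * (g⁻¹ * l * g)) * g⁻¹ := by rw [hc]
      _ = g * z * g⁻¹ * l := by group
  intro z
  constructor
  · exact key g hg z
  · intro hz
    have hg' : ∀ h, h ∈ L ↔ g⁻¹ * h * g⁻¹⁻¹ ∈ L := by
      intro h
      rw [hg (g⁻¹ * h * g⁻¹⁻¹)]
      have e : g * (g⁻¹ * h * g⁻¹⁻¹) * g⁻¹ = h := by group
      rw [e]
    have := key g⁻¹ hg' _ hz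
    have e : g⁻¹ * (g * z * g⁻¹) * g⁻¹⁻¹ = z := by group
    rwa [e] at this

theorem pu_closure_comm (s : Set G) (hcomm : ∀ x ∈ s, ∀ y ∈ s, x * y = y * x) :
    IsMulCommutative (Subgroup.closure s) := by
  have h1 : Subgroup.closure s ≤ Subgroup.centralizer s :=
    (Subgroup.closure_le _).mpr
      (fun a ha => Subgroup.mem_centralizer_iff.mpr (fun b hb => hcomm b hb a ha))
  have h2 : Subgroup.closure s ≤ Subgroup.centralizer (Subgroup.closure s : Set G) :=
    (Subgroup.closure_le _).mpr (fun a ha => Subgroup.mem_centralizer_iff.mpr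
      (fun b hb => ((Subgroup.mem_centralizer_iff.mp (h1 hb)) a ha).symm))
  rw [imc_iff]
  intro a ha b hb
  exact Subgroup.mem_centralizer_iff.mp (h2 hb) a ha

end

end Cfsg.Agent.Lib.Helper1
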