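import Mathlib
import Cfsg.Prelude.Def_PLocal
import Cfsg.Agent.Lib.Helper1.HE2
import Cfsg.Agent.Lib.Helper5.SylowChain

set_option autoImplicit false

namespace Cfsg.Agent.Lib.Helper1

/-- explicit elements of the Heisenberg group of order `p³` -/
def hmk {p : ℕ} (a b c : ZMod p) : Heis 1 p := ⟨fun _ => a, fun _ => b, c⟩

theorem hmk_eta {p : ℕ} (x : Heis 1 p) : x = hmk (x.a 0) (x.b 0) x.c := by
  refine Heis.ext ?_ ?_ rfl
  · funext i; rw [Subsingleton.elim i 0]; rfl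
  · funext i; rw [Subsingleton.elim i 0]; rfl

theorem hmk_congr {p : ℕ} {a b c a' b' c' : ZMod p} (ha : a = a') (hb : b = b') (hc : c = c') :
    hmk a b c = hmk a' b' c' := by rw [ha, hb, hc]

theorem hmk_mem_of_eq {p : ℕ} (T : Subgroup (Heis 1 p)) {x y : Heis 1 p} (h : x ∈ T) (e : x = y) :
    y ∈ T := e ▸ h

theorem hmk_mul {p : ℕ} (a b c a' b' c' : ZMod p) :
    hmk a b c * hmk a' b' c' = hmk (a + a') (b + b') (c + c' + a * b') := by
  refine Heis.ext ?_ ?_ ?_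
  · rfl
  · rfl
  · rw [Heis.mul_c, Fin.sum_univ_one]; rfl

theorem hmk_inv {p : ℕ} (a b c : ZMod p) : (hmk a b c)⁻¹ = hmk (-a) (-b) (-c + a * b) := by
  refine Heis.ext ?_ ?_ ?_
  · rfl
  · rfl
  · rw [Heis.inv_c, Fin.sum_univ_one]; rfl

theorem hmk_pow {p : ℕ} [NeZero p] (a b c : ZMod p) (h : a * b = 0) (t : ZMod p) :
    (hmk a b c) ^ t.val = hmk (t * a) (t * b) (t * c) := by
  obtain ⟨h1, h2, h3⟩ := Heis.pow_formula (hmk a b c) t.val
  refine Heis.ext ?_ ?_ ?_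
  · rw [h1]; funext i
    show t.val • a = t * a
    rw [nsmul_eq_mul, ZMod.natCast_zmod_val]
  · rw [h2]; funext i
    show t.val • b = t * b
    rw [nsmul_eq_mul, ZMod.natCast_zmod_val]
  · rw [h3, Fin.sum_univ_one]
    show t.val • c + (∑ i ∈ Finset.range t.val, i) • (a * b) = t * c
    rw [h, smul_zero, add_zero, nsmul_eq_mul, ZMod.natCast_zmod_val]

theorem hmk_comm {p : ℕ} (a b c a' b' c' : ZMod p) :
    hmk a b c * hmk a' b' c' * (hmk a b c)⁻¹ * (hmk a' b' c')⁻¹ = hmk 0 0 (a * b' - a' * b) := by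
  rw [hmk_inv, hmk_inv, hmk_mul, hmk_mul, hmk_mul]
  apply hmk_congr <;> ring

/-- an automorphism exchanging the two coordinates -/
def heisSwap (p : ℕ) : Heis 1 p ≃* Heis 1 p where
  toFun x := hmk (x.b 0) (-(x.a 0)) (x.c - x.a 0 * x.b 0)
  invFun x := hmk (-(x.b 0)) (x.a 0) (x.c - x.a 0 * x.b 0)
  left_inv x := by
    show hmk (-(-(x.a 0))) (x.b 0) (x.c - x.a 0 * x.b 0 - x.b 0 * -(x.a 0)) = x
    conv_rhs => rw [hmk_eta x]
    apply hmk_congr <;> ring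
  right_inv x := by
    show hmk (x.a 0) (-(-(x.b 0))) (x.c - x.a 0 * x.b 0 - -(x.b 0) * x.a 0) = x
    conv_rhs => rw [hmk_eta x]
    apply hmk_congr <;> ring
  map_mul' x y := by
    show hmk (x.b 0 + y.b 0) (-(x.a 0 + y.a 0)) ((x * y).c - (x.a 0 + y.a 0) * (x.b 0 + y.b 0)) =
      hmk (x.b 0) (-(x.a 0)) (x.c - x.a 0 * x.b 0) * hmk (y.b 0) (-(y.a 0)) (y.c - y.a 0 * y.b 0)
    rw [hmk_mul, Heis.mul_c, Fin.sum_univ_one]
    apply hmk_congr <;> ring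

theorem heisSwap_hmk {p : ℕ} (a b c : ZMod p) :
    heisSwap p (hmk a b c) = hmk b (-a) (c - a * b) := rfl

theorem heis_central_mem {p : ℕ} [Fact p.Prime] (T : Subgroup (Heis 1 p)) (c : ZMod p)
    (hc : c ≠ 0) (h : hmk 0 0 c ∈ T) : hmk 0 0 1 ∈ T := by
  haveI : NeZero p := ⟨(Fact.out : p.Prime).ne_zero⟩
  have h1 := T.pow_mem h (c⁻¹).val
  exact hmk_mem_of_eq T h1 ((hmk_pow 0 0 c (mul_zero 0) c⁻¹).trans
    (hmk_congr (mul_zero _) (mul_zero _) (inv_mul_cancel₀ hc)))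

theorem heis_char_center {p : ℕ} [Fact p.Prime] (T : Subgroup (Heis 1 p)) [T.Normal]
    (hne : T ≠ ⊥) : hmk 0 0 1 ∈ T := by
  obtain ⟨x, hxT, hx1⟩ : ∃ x ∈ T, x ≠ 1 := by
    by_contra hcon
    push Not at hcon
    apply hne
    rw [eq_bot_iff]
    intro z hz
    rw [Subgroup.mem_bot]
    exact hcon z hz
  have hcomm : ∀ y : Heis 1 p, x * y * x⁻¹ * y⁻¹ ∈ T := by
    intro y
    have h1 : y * x⁻¹ * y⁻¹ ∈ T := Subgroup.Normal.conj_mem inferInstance _ (T.inv_mem hxT) y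
    have h2 := T.mul_mem hxT h1
    have e : x * (y * x⁻¹ * y⁻¹) = x * y * x⁻¹ * y⁻¹ := by group
    rw [e] at h2
    exact h2
  rw [hmk_eta x] at hcomm hx1 hxT
  by_cases ha : x.a 0 = 0
  · by_cases hb : x.b 0 = 0
    · have hc : x.c ≠ 0 := by
        intro hc
        apply hx1
        rw [ha, hb, hc]; rfl
      rw [ha, hb] at hxT
      exact heis_central_mem T _ hc hxT
    · have h1 := hcomm (hmk 1 0 0)
      rw [hmk_comm] at h1
      have e : x.a 0 * 0 - 1 * x.b 0 = -(x.b 0) := by ring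
      rw [e] at h1
      exact heis_central_mem T _ (neg_ne_zero.mpr hb) h1
  · have h1 := hcomm (hmk 0 1 0)
    rw [hmk_comm] at h1
    have e : x.a 0 * 1 - 0 * x.b 0 = x.a 0 := by ring
    rw [e] at h1
    exact heis_central_mem T _ ha h1

theorem heis_char_top {p : ℕ} [Fact p.Prime] (T : Subgroup (Heis 1 p)) (hc : T.Characteristic)
    (hz : hmk 0 0 1 ∈ T) (b c : ZMod p) (hb : b ≠ 0) (h : hmk 0 b c ∈ T) : T = ⊤ := by
  haveI : NeZero p := ⟨(Fact.out : p.Prime).ne_zero⟩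
  have hzt : ∀ t : ZMod p, hmk 0 0 t ∈ T := by
    intro t
    have h1 := T.pow_mem hz t.val
    exact hmk_mem_of_eq T h1 ((hmk_pow 0 0 1 (mul_zero 0) t).trans
      (hmk_congr (mul_zero _) (mul_zero _) (mul_one _)))
  have h1 : hmk 0 b 0 ∈ T := by
    have h2 := T.mul_mem h (hzt (-c))
    exact hmk_mem_of_eq T h2 ((hmk_mul _ _ _ _ _ _).trans
      (hmk_congr (by ring) (by ring) (by ring)))
  have h2 : hmk 0 1 0 ∈ T := by
    have h3 := T.pow_mem h1 (b⁻¹).val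
    exact hmk_mem_of_eq T h3 ((hmk_pow 0 b 0 (zero_mul b) b⁻¹).trans
      (hmk_congr (mul_zero _) (inv_mul_cancel₀ hb) (mul_zero _)))
  have h3 : hmk 1 0 0 ∈ T := by
    have h4 : heisSwap p (hmk 0 1 0) ∈ T :=
      Subgroup.characteristic_iff_le_comap.mp hc (heisSwap p) h2
    exact hmk_mem_of_eq T h4 ((heisSwap_hmk _ _ _).trans
      (hmk_congr rfl (by ring) (by ring)))
  rw [eq_top_iff]
  intro x _
  rw [hmk_eta x]
  have h5 : hmk 0 (x.b 0) 0 ∈ T := by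
    have h6 := T.pow_mem h2 (x.b 0).val
    exact hmk_mem_of_eq T h6 ((hmk_pow 0 1 0 (zero_mul 1) (x.b 0)).trans
      (hmk_congr (mul_zero _) (mul_one _) (mul_zero _)))
  have h7 : hmk (x.a 0) 0 0 ∈ T := by
    have h6 := T.pow_mem h3 (x.a 0).val
    exact hmk_mem_of_eq T h6 ((hmk_pow 1 0 0 (mul_zero 1) (x.a 0)).trans
      (hmk_congr (mul_one _) (mul_zero _) (mul_zero _)))
  have h8 := T.mul_mem (T.mul_mem h5 h7) (hzt x.c)
  exact hmk_mem_of_eq T h8 (((congrArg (· * hmk 0 0 x.c) (hmk_mul _ _ _ _ _ _)).trans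
    (hmk_mul _ _ _ _ _ _)).trans (hmk_congr (by ring) (by ring) (by ring)))

theorem qdMat_hmk {p : ℕ} (a b c : ZMod p) :
    qdMat p (hmk a b c) = !![1, a, c; 0, 1, b; 0, 0, 1] := rfl

theorem qdR0 {p : ℕ} (N : Matrix (Fin 3) (Fin 3) (ZMod p)) (a b c : ZMod p) (i : Fin 3) :
    (N * qdMat p (hmk a b c)) i 0 = N i 0 := by
  rw [qdMat_hmk]; simp [Matrix.mul_apply, Fin.sum_univ_three]

theorem qdR1 {p : ℕ} (N : Matrix (Fin 3) (Fin 3) (ZMod p)) (a b c : ZMod p) (i : Fin 3) :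
    (N * qdMat p (hmk a b c)) i 1 = N i 0 * a + N i 1 := by
  rw [qdMat_hmk]; simp [Matrix.mul_apply, Fin.sum_univ_three]

theorem qdR2 {p : ℕ} (N : Matrix (Fin 3) (Fin 3) (ZMod p)) (a b c : ZMod p) (i : Fin 3) :
    (N * qdMat p (hmk a b c)) i 2 = N i 0 * c + N i 1 * b + N i 2 := by
  rw [qdMat_hmk]; simp [Matrix.mul_apply, Fin.sum_univ_three]

theorem qdL0 {p : ℕ} (N : Matrix (Fin 3) (Fin 3) (ZMod p)) (a b c : ZMod p) (j : Fin 3) :
    (qdMat p (hmk a b c) * N) 0 j = N 0 j + a * N 1 j + c * N 2 j := by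
  rw [qdMat_hmk]; simp [Matrix.mul_apply, Fin.sum_univ_three]

theorem qdL1 {p : ℕ} (N : Matrix (Fin 3) (Fin 3) (ZMod p)) (a b c : ZMod p) (j : Fin 3) :
    (qdMat p (hmk a b c) * N) 1 j = N 1 j + b * N 2 j := by
  rw [qdMat_hmk]; simp [Matrix.mul_apply, Fin.sum_univ_three]

theorem qdL2 {p : ℕ} (N : Matrix (Fin 3) (Fin 3) (ZMod p)) (a b c : ZMod p) (j : Fin 3) :
    (qdMat p (hmk a b c) * N) 2 j = N 2 j := by
  rw [qdMat_hmk]; simp [Matrix.mul_apply, Fin.sum_univ_three]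

theorem mat3_ext {R : Type*} (A B : Matrix (Fin 3) (Fin 3) R)
    (h00 : A 0 0 = B 0 0) (h01 : A 0 1 = B 0 1) (h02 : A 0 2 = B 0 2)
    (h10 : A 1 0 = B 1 0) (h11 : A 1 1 = B 1 1) (h12 : A 1 2 = B 1 2)
    (h20 : A 2 0 = B 2 0) (h21 : A 2 1 = B 2 1) (h22 : A 2 2 = B 2 2) : A = B := by
  ext i j
  fin_cases i <;> fin_cases j <;> assumption

theorem qd_conj_formula {p : ℕ} (N : Matrix (Fin 3) (Fin 3) (ZMod p))
    (h10 : N 1 0 = 0) (h20 : N 2 0 = 0) (h21 : N 2 1 = 0) (h22 : N 2 2 = 1)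
    (hd : N 0 0 * N 1 1 = 1) (a b c : ZMod p) :
    N * qdMat p (hmk a b c) =
      qdMat p (hmk (a * N 0 0 * N 0 0) (b * N 1 1)
        (c * N 0 0 + b * N 0 1 - a * N 0 0 * N 0 0 * N 1 2)) * N := by
  apply mat3_ext
  · rw [qdR0, qdL0, h10, h20]; ring
  · rw [qdR1, qdL0, h21]; linear_combination (-(a * N 0 0)) * hd
  · rw [qdR2, qdL0, h22]; ring
  · rw [qdR0, qdL1, h20]; ring
  · rw [qdR1, qdL1, h10, h21]; ring
  · rw [qdR2, qdL1, h10, h22]; ring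
  · rw [qdR0, qdL2]
  · rw [qdR1, qdL2, h20, h21]; ring
  · rw [qdR2, qdL2, h20, h21, h22]; ring

theorem qd_core_mat {p : ℕ} [Fact p.Prime] (T : Subgroup (Heis 1 p)) (hc : T.Characteristic)
    (hne : T ≠ ⊥) (N : Matrix (Fin 3) (Fin 3) (ZMod p))
    (h20 : N 2 0 = 0) (h21 : N 2 1 = 0) (h22 : N 2 2 = 1) (hdet : N.det = 1)
    (h : ∀ x ∈ T, ∃ x' ∈ T, N * qdMat p x = qdMat p x' * N) :
    ∀ x : Heis 1 p, ∃ x' : Heis 1 p, N * qdMat p x = qdMat p x' * N := by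
  haveI := hc
  by_cases htop : T = ⊤
  · intro x
    obtain ⟨x', -, e⟩ := h x (by rw [htop]; exact Subgroup.mem_top x)
    exact ⟨x', e⟩
  · have hz : hmk 0 0 1 ∈ T := heis_char_center T hne
    obtain ⟨x', hx', e⟩ := h _ hz
    rw [hmk_eta x'] at e hx'
    have e00 : N 0 0 = N 0 0 + x'.a 0 * N 1 0 + x'.c * N 2 0 := by
      have h1 := congrFun (congrFun e 0) 0
      rw [qdR0, qdL0] at h1
      exact h1
    have e01 : N 0 0 * 0 + N 0 1 = N 0 1 + x'.a 0 * N 1 1 + x'.c * N 2 1 := by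
      have h1 := congrFun (congrFun e 0) 1
      rw [qdR1, qdL0] at h1
      exact h1
    have e12 : N 1 0 * 1 + N 1 1 * 0 + N 1 2 = N 1 2 + x'.b 0 * N 2 2 := by
      have h1 := congrFun (congrFun e 1) 2
      rw [qdR2, qdL1] at h1
      exact h1
    have ha : x'.a 0 = 0 := by
      by_contra ha
      have h10 : N 1 0 = 0 := by
        have h1 : x'.a 0 * N 1 0 = 0 := by
          rw [h20] at e00; linear_combination (-1 : ZMod p) * e00
        exact (mul_eq_zero.mp h1).resolve_left ha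
      have h11 : N 1 1 = 0 := by
        have h1 : x'.a 0 * N 1 1 = 0 := by
          rw [h21] at e01; linear_combination (-1 : ZMod p) * e01
        exact (mul_eq_zero.mp h1).resolve_left ha
      rw [Matrix.det_fin_three, h10, h11, h20, h21] at hdet
      simp at hdet
    have hb : x'.b 0 = 0 := by
      by_contra hb
      rw [ha] at hx'
      exact htop (heis_char_top T hc hz _ _ hb hx')
    have h10 : N 1 0 = 0 := by
      rw [h22, hb] at e12
      linear_combination e12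
    have hd : N 0 0 * N 1 1 = 1 := by
      rw [Matrix.det_fin_three, h10, h20, h21, h22] at hdet
      linear_combination hdet
    intro x
    rw [hmk_eta x]
    exact ⟨_, qd_conj_formula N h10 h20 h21 h22 hd _ _ _⟩

theorem qd_mem_iff (p : ℕ) (M : Matrix.SpecialLinearGroup (Fin 3) (ZMod p)) :
    M ∈ Cfsg.qd p ↔ M.1 2 0 = 0 ∧ M.1 2 1 = 0 ∧ M.1 2 2 = 1 := by
  constructor
  · intro h
    refine Subgroup.closure_induction (p := fun M _ => M.1 2 0 = 0 ∧ M.1 2 1 = 0 ∧ M.1 2 2 = 1)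
      ?_ ?_ ?_ ?_ h
    · intro x hx; exact hx
    · refine ⟨?_, ?_, ?_⟩
      · show (1 : Matrix (Fin 3) (Fin 3) (ZMod p)) 2 0 = 0
        simp
      · show (1 : Matrix (Fin 3) (Fin 3) (ZMod p)) 2 1 = 0
        simp
      · show (1 : Matrix (Fin 3) (Fin 3) (ZMod p)) 2 2 = 1
        simp
    · intro x y _ _ hx hy
      obtain ⟨hx0, hx1, hx2⟩ := hx
      obtain ⟨hy0, hy1, hy2⟩ := hy
      refine ⟨?_, ?_, ?_⟩
      · show (x.1 * y.1) 2 0 = 0
        rw [Matrix.mul_apply, Fin.sum_univ_three, hx0, hx1, hx2, hy0]; ring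
      · show (x.1 * y.1) 2 1 = 0
        rw [Matrix.mul_apply, Fin.sum_univ_three, hx0, hx1, hx2, hy1]; ring
      · show (x.1 * y.1) 2 2 = 1
        rw [Matrix.mul_apply, Fin.sum_univ_three, hx0, hx1, hx2, hy2]; ring
    · intro x _ hx
      obtain ⟨hx0, hx1, hx2⟩ := hx
      have h1 : x.1 * (x⁻¹).1 = 1 := by
        have h2 : x * x⁻¹ = 1 := mul_inv_cancel x
        have h3 := congrArg Subtype.val h2
        exact h3
      have e : ∀ j : Fin 3, (x⁻¹).1 2 j = (1 : Matrix (Fin 3) (Fin 3) (ZMod p)) 2 j := by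
        intro j
        have h4 := congrFun (congrFun h1 2) j
        rw [Matrix.mul_apply, Fin.sum_univ_three, hx0, hx1, hx2] at h4
        rw [← h4]; ring
      refine ⟨?_, ?_, ?_⟩
      · rw [e]; simp
      · rw [e]; simp
      · rw [e]; simp
  · intro h
    exact Subgroup.subset_closure h

/-- the embedding of the Heisenberg group in `Qd(p)` -/
def qdPhi (p : ℕ) : Heis 1 p →* ↥(Cfsg.qd p) := (qdSL p).codRestrict (Cfsg.qd p) (qdSL_mem p)

theorem qdPhi_inj (p : ℕ) : Function.Injective (qdPhi p) := by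
  intro x y h
  apply qdSL_inj p
  have h1 : ((qdPhi p x : ↥(Cfsg.qd p)) : Matrix.SpecialLinearGroup (Fin 3) (ZMod p)) =
      (qdPhi p y : ↥(Cfsg.qd p)) := by rw [h]
  exact h1

theorem qd_sylow_desc (p : ℕ) [Fact p.Prime] (P : Sylow p ↥(Cfsg.qd p)) :
    ∃ g : ↥(Cfsg.qd p), ∀ s : ↥(Cfsg.qd p),
      s ∈ (P : Subgroup ↥(Cfsg.qd p)) ↔ ∃ x : Heis 1 p, s = g * qdPhi p x * g⁻¹ := by
  have hpp : p.Prime := Fact.out
  haveI : NeZero p := ⟨hpp.ne_zero⟩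
  obtain ⟨ψ, -⟩ : ∃ ψ : Heis 1 p ≃* (qdPhi p).range, True :=
    ⟨MonoidHom.ofInjective (qdPhi_inj p), trivial⟩
  have hcH : Nat.card (Heis 1 p) = p ^ 3 := Heis.card_eq
  have hcR : Nat.card (qdPhi p).range = p ^ 3 := by
    rw [← Nat.card_congr ψ.toEquiv]; exact hcH
  have hRp : IsPGroup p (qdPhi p).range := IsPGroup.of_card hcR
  obtain ⟨Q, hQ⟩ := hRp.exists_le_sylow
  have hQc := Sylow.card_eq_multiplicity Q
  have hdvd : Nat.card Q ∣ (p ^ 3 - 1) * (p ^ 3 - p) * (p ^ 3 - p ^ 2) := by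
    have h1 : Nat.card Q ∣ Nat.card (Matrix.GeneralLinearGroup (Fin 3) (ZMod p)) := by
      apply Subgroup.card_dvd_of_injective
        (Matrix.SpecialLinearGroup.toGL.comp ((Cfsg.qd p).subtype.comp (Q : Subgroup _).subtype))
      intro x y hxy
      have h2 := Matrix.SpecialLinearGroup.toGL_injective hxy
      exact Subtype.ext (Subtype.ext h2)
    have h3 : Nat.card (Matrix.GeneralLinearGroup (Fin 3) (ZMod p)) =
        (p ^ 3 - 1) * (p ^ 3 - p) * (p ^ 3 - p ^ 2) := by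
      rw [Matrix.card_GL_field, ZMod.card, Fin.prod_univ_three]
      simp
    rw [h3] at h1
    exact h1
  rw [hQc] at hdvd
  have hk3 := pow_dvd_gl3 p _ hpp hdvd
  have hRQ : Nat.card (qdPhi p).range ∣ Nat.card Q := Subgroup.card_dvd_of_le hQ
  rw [hcR, hQc] at hRQ
  have hk3' : 3 ≤ (Nat.card ↥(Cfsg.qd p)).factorization p :=
    (Nat.pow_dvd_pow_iff_le_right hpp.one_lt).mp hRQ
  have hk : (Nat.card ↥(Cfsg.qd p)).factorization p = 3 := le_antisymm hk3 hk3'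
  rw [hk] at hQc
  have hRQeq : (qdPhi p).range = (Q : Subgroup ↥(Cfsg.qd p)) :=
    Subgroup.eq_of_le_of_card_ge hQ (by rw [hcR, hQc])
  obtain ⟨g, hg⟩ := MulAction.exists_smul_eq ↥(Cfsg.qd p) Q P
  refine ⟨g, fun s => ?_⟩
  rw [← hg, Cfsg.Agent.Lib.Helper5.mem_sylow_smul_iff, ← hRQeq, MonoidHom.mem_range]
  constructor
  · rintro ⟨x, hx⟩
    refine ⟨x, ?_⟩
    rw [hx]; group
  · rintro ⟨x, hx⟩
    refine ⟨x, ?_⟩
    rw [hx]; group

theorem sq_mem_normalizer_of_conj {G : Type*} [Group G] (H : Subgroup G) [Finite H] (n : G)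
    (h : ∀ s ∈ H, n * s * n⁻¹ ∈ H) : n ∈ Subgroup.normalizer (H : Set G) := by
  rw [Subgroup.mem_normalizer_iff]
  intro s
  refine ⟨h s, fun hs => ?_⟩
  have hinj : Function.Injective (fun t : ↥H => (⟨n * t * n⁻¹, h t t.2⟩ : ↥H)) := by
    intro t t' htt
    have h1 : n * (t : G) * n⁻¹ = n * (t' : G) * n⁻¹ := congrArg Subtype.val htt
    exact Subtype.ext (mul_left_cancel (mul_right_cancel h1))
  obtain ⟨t, ht⟩ := (Finite.injective_iff_surjective.mp hinj) ⟨n * s * n⁻¹, hs⟩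
  have h1 : n * (t : G) * n⁻¹ = n * s * n⁻¹ := congrArg Subtype.val ht
  have h2 : (t : G) = s := mul_left_cancel (mul_right_cancel h1)
  rw [← h2]; exact t.2

theorem sq_char_conj_mem {G : Type*} [Group G] (S : Subgroup G) (T : Subgroup ↥S)
    (hT : T.Characteristic) (n : G) (hn : n ∈ Subgroup.normalizer (S : Set G)) (t : ↥S)
    (ht : t ∈ T) : ∃ t' : ↥S, t' ∈ T ∧ (t' : G) = n * t * n⁻¹ := by
  have hmem : ∀ s : G, s ∈ S ↔ n * s * n⁻¹ ∈ S := fun s => Subgroup.mem_normalizer_iff.mp hn s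
  have hmem' : ∀ s : G, s ∈ S → n⁻¹ * s * n ∈ S := by
    intro s hs
    rw [hmem]
    have e : n * (n⁻¹ * s * n) * n⁻¹ = s := by group
    rw [e]; exact hs
  obtain ⟨β, hβ⟩ : ∃ β : ↥S ≃* ↥S, ∀ s : ↥S, ((β s : ↥S) : G) = n * s * n⁻¹ := by
    refine ⟨{ toFun := fun s => ⟨n * s * n⁻¹, (hmem s).mp s.2⟩
              invFun := fun s => ⟨n⁻¹ * s * n, hmem' s s.2⟩
              left_inv := ?_
              right_inv := ?_
              map_mul' := ?_ }, fun s => rfl⟩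
    · intro s
      apply Subtype.ext
      show n⁻¹ * (n * (s : G) * n⁻¹) * n = s
      group
    · intro s
      apply Subtype.ext
      show n * (n⁻¹ * (s : G) * n) * n⁻¹ = s
      group
    · intro s s'
      apply Subtype.ext
      show n * ((s : G) * (s' : G)) * n⁻¹ = (n * (s : G) * n⁻¹) * (n * (s' : G) * n⁻¹)
      group
  exact ⟨β t, Subgroup.characteristic_iff_le_comap.mp hT β ht, hβ t⟩

/-- a matrix outside the normalizer -/
def qdW (p : ℕ) : Matrix (Fin 3) (Fin 3) (ZMod p) := !![0, 1, 0; -1, 0, 0; 0, 0, 1]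

theorem qdW_det (p : ℕ) : (qdW p).det = 1 := by
  rw [Matrix.det_fin_three]; simp [qdW]

/-- the same matrix in `SL₃` -/
def qdWsl (p : ℕ) : Matrix.SpecialLinearGroup (Fin 3) (ZMod p) := ⟨qdW p, qdW_det p⟩

theorem qd_char_main (p : ℕ) [Fact p.Prime] (S : Sylow p ↥(Cfsg.qd p))
    (T : Subgroup ↥(S : Subgroup ↥(Cfsg.qd p))) (hT : T ≠ ⊥) (hTc : T.Characteristic) :
    Subgroup.normalizer ((T.map (S : Subgroup ↥(Cfsg.qd p)).subtype : Subgroup ↥(Cfsg.qd p)) :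
        Set ↥(Cfsg.qd p)) =
      Subgroup.normalizer ((S : Subgroup ↥(Cfsg.qd p)) : Set ↥(Cfsg.qd p)) ∧
    Subgroup.normalizer ((S : Subgroup ↥(Cfsg.qd p)) : Set ↥(Cfsg.qd p)) ≠ ⊤ := by
  have hpp : p.Prime := Fact.out
  haveI : NeZero p := ⟨hpp.ne_zero⟩
  obtain ⟨g, hS⟩ := qd_sylow_desc p S
  have hθ0 : ∀ x : Heis 1 p, g * qdPhi p x * g⁻¹ ∈ (S : Subgroup ↥(Cfsg.qd p)) :=
    fun x => (hS _).mpr ⟨x, rfl⟩
  obtain ⟨θ, hθ⟩ : ∃ θ : Heis 1 p ≃* ↥(S : Subgroup ↥(Cfsg.qd p)),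
      ∀ x, ((θ x : ↥(S : Subgroup ↥(Cfsg.qd p))) : ↥(Cfsg.qd p)) = g * qdPhi p x * g⁻¹ := by
    obtain ⟨θ₀, hθ₀⟩ : ∃ θ₀ : Heis 1 p →* ↥(S : Subgroup ↥(Cfsg.qd p)),
        ∀ x, ((θ₀ x : ↥(S : Subgroup ↥(Cfsg.qd p))) : ↥(Cfsg.qd p)) = g * qdPhi p x * g⁻¹ := by
      refine ⟨{ toFun := fun x => ⟨g * qdPhi p x * g⁻¹, hθ0 x⟩
                map_one' := ?_
                map_mul' := ?_ }, fun x => rfl⟩
      · apply Subtype.ext
        show g * qdPhi p 1 * g⁻¹ = 1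
        rw [map_one]; group
      · intro x y
        apply Subtype.ext
        show g * qdPhi p (x * y) * g⁻¹ = (g * qdPhi p x * g⁻¹) * (g * qdPhi p y * g⁻¹)
        rw [map_mul]; group
    have hbij : Function.Bijective θ₀ := by
      constructor
      · intro x y hxy
        have h1 : g * qdPhi p x * g⁻¹ = g * qdPhi p y * g⁻¹ := by
          rw [← hθ₀ x, ← hθ₀ y, hxy]
        exact qdPhi_inj p (mul_left_cancel (mul_right_cancel h1))
      · intro s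
        obtain ⟨x, hx⟩ := (hS s.1).mp s.2
        exact ⟨x, Subtype.ext ((hθ₀ x).trans hx.symm)⟩
    exact ⟨MulEquiv.ofBijective θ₀ hbij, fun x => hθ₀ x⟩
  obtain ⟨TH, hTH⟩ : ∃ TH : Subgroup (Heis 1 p), ∀ x, x ∈ TH ↔ θ x ∈ T :=
    ⟨T.comap θ.toMonoidHom, fun x => Iff.rfl⟩
  have hTHc : TH.Characteristic := by
    rw [Subgroup.characteristic_iff_le_comap]
    intro α x hx
    show α x ∈ TH
    rw [hTH] at hx ⊢
    have h1 : (θ.symm.trans (α.trans θ)) (θ x) ∈ T :=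
      Subgroup.characteristic_iff_le_comap.mp hTc (θ.symm.trans (α.trans θ)) hx
    have e : (θ.symm.trans (α.trans θ)) (θ x) = θ (α x) := by
      show θ (α (θ.symm (θ x))) = θ (α x)
      rw [MulEquiv.symm_apply_apply]
    rw [e] at h1
    exact h1
  have hTHne : TH ≠ ⊥ := by
    intro hbot
    apply hT
    rw [eq_bot_iff]
    intro t ht
    rw [Subgroup.mem_bot]
    have h1 : θ.symm t ∈ TH := by rw [hTH, MulEquiv.apply_symm_apply]; exact ht
    rw [hbot, Subgroup.mem_bot] at h1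
    have h2 : θ (θ.symm t) = θ 1 := by rw [h1]
    rw [MulEquiv.apply_symm_apply, map_one] at h2
    exact h2
  have hT' : ∀ y : ↥(Cfsg.qd p), y ∈ T.map (S : Subgroup ↥(Cfsg.qd p)).subtype ↔
      ∃ x ∈ TH, y = g * qdPhi p x * g⁻¹ := by
    intro y
    constructor
    · rintro ⟨t, ht, rfl⟩
      refine ⟨θ.symm t, ?_, ?_⟩
      · rw [hTH, MulEquiv.apply_symm_apply]; exact ht
      · show (t : ↥(Cfsg.qd p)) = g * qdPhi p (θ.symm t) * g⁻¹
        rw [← hθ, MulEquiv.apply_symm_apply]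
    · rintro ⟨x, hx, rfl⟩
      exact ⟨θ x, (hTH x).mp hx, hθ x⟩
  have hSnorm : ∀ n' : ↥(Cfsg.qd p),
      g * n' * g⁻¹ ∈ Subgroup.normalizer ((S : Subgroup ↥(Cfsg.qd p)) : Set ↥(Cfsg.qd p)) →
      ∀ x : Heis 1 p, ∃ x' : Heis 1 p, n' * qdPhi p x = qdPhi p x' * n' := by
    intro n' hn x
    have h1 := (Subgroup.mem_normalizer_iff.mp hn (g * qdPhi p x * g⁻¹)).mp (hθ0 x)
    obtain ⟨x', hx'⟩ := (hS _).mp h1
    refine ⟨x', ?_⟩
    have e : n' * qdPhi p x =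
        g⁻¹ * (g * n' * g⁻¹ * (g * qdPhi p x * g⁻¹) * (g * n' * g⁻¹)⁻¹) * g * n' := by group
    rw [e, hx']; group
  have hne_top : Subgroup.normalizer ((S : Subgroup ↥(Cfsg.qd p)) : Set ↥(Cfsg.qd p)) ≠ ⊤ := by
    intro htop
    have hw : qdWsl p ∈ Cfsg.qd p := by
      refine (qd_mem_iff p (qdWsl p)).mpr ⟨?_, ?_, ?_⟩
      · show qdW p 2 0 = 0
        simp [qdW]
      · show qdW p 2 1 = 0
        simp [qdW]
      · show qdW p 2 2 = 1
        simp [qdW]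
    obtain ⟨x', hx'⟩ := hSnorm ⟨qdWsl p, hw⟩ (by rw [htop]; exact Subgroup.mem_top _) (hmk 1 0 0)
    have h1 : qdW p * qdMat p (hmk 1 0 0) = qdMat p x' * qdW p := by
      have h2 := congrArg (fun m : ↥(Cfsg.qd p) => (m.1.1 : Matrix (Fin 3) (Fin 3) (ZMod p))) hx'
      exact h2
    rw [hmk_eta x'] at h1
    have h3 := congrFun (congrFun h1 1) 1
    rw [qdR1, qdL1] at h3
    simp [qdW] at h3
  have hge : Subgroup.normalizer ((S : Subgroup ↥(Cfsg.qd p)) : Set ↥(Cfsg.qd p)) ≤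
      Subgroup.normalizer ((T.map (S : Subgroup ↥(Cfsg.qd p)).subtype : Subgroup ↥(Cfsg.qd p)) :
        Set ↥(Cfsg.qd p)) := by
    intro n hn
    apply sq_mem_normalizer_of_conj
    rintro y ⟨t, ht, rfl⟩
    obtain ⟨t', ht', e⟩ := sq_char_conj_mem _ T hTc n hn t ht
    exact ⟨t', ht', e⟩
  have hle : Subgroup.normalizer ((T.map (S : Subgroup ↥(Cfsg.qd p)).subtype :
        Subgroup ↥(Cfsg.qd p)) : Set ↥(Cfsg.qd p)) ≤
      Subgroup.normalizer ((S : Subgroup ↥(Cfsg.qd p)) : Set ↥(Cfsg.qd p)) := by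
    intro n hn
    have hrow := (qd_mem_iff p (g⁻¹ * n * g).1).mp (g⁻¹ * n * g).2
    have hyp : ∀ x ∈ TH, ∃ x' ∈ TH,
        ((g⁻¹ * n * g).1.1 : Matrix (Fin 3) (Fin 3) (ZMod p)) * qdMat p x =
          qdMat p x' * (g⁻¹ * n * g).1.1 := by
      intro x hx
      have h1 : g * qdPhi p x * g⁻¹ ∈ T.map (S : Subgroup ↥(Cfsg.qd p)).subtype :=
        (hT' _).mpr ⟨x, hx, rfl⟩
      have h2 := (Subgroup.mem_normalizer_iff.mp hn _).mp h1
      obtain ⟨x', hx', e'⟩ := (hT' _).mp h2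
      refine ⟨x', hx', ?_⟩
      have h3 : (g⁻¹ * n * g) * qdPhi p x = qdPhi p x' * (g⁻¹ * n * g) := by
        have e : (g⁻¹ * n * g) * qdPhi p x =
            g⁻¹ * (n * (g * qdPhi p x * g⁻¹) * n⁻¹) * n * g := by group
        rw [e, e']; group
      have h4 := congrArg (fun m : ↥(Cfsg.qd p) => (m.1.1 : Matrix (Fin 3) (Fin 3) (ZMod p))) h3
      exact h4
    have hcore := qd_core_mat TH hTHc hTHne _ hrow.1 hrow.2.1 hrow.2.2 (g⁻¹ * n * g).1.2 hyp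
    apply sq_mem_normalizer_of_conj
    intro s hs
    obtain ⟨x, rfl⟩ := (hS s).mp hs
    obtain ⟨x', hx'⟩ := hcore x
    have h1 : (g⁻¹ * n * g) * qdPhi p x = qdPhi p x' * (g⁻¹ * n * g) :=
      Subtype.ext (Subtype.ext hx')
    rw [hS]
    refine ⟨x', ?_⟩
    have e : n * (g * qdPhi p x * g⁻¹) * n⁻¹ =
        g * ((g⁻¹ * n * g) * qdPhi p x) * (g⁻¹ * n * g)⁻¹ * g⁻¹ := by group
    rw [e, h1]; group
  exact ⟨le_antisymm hle hge, hne_top⟩

end Cfsg.Agent.Lib.Helper1
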