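import Mathlib
import Cfsg.Prelude.Def_Solvable
import Cfsg.Prelude.Def_LocalEven
import Cfsg.Agent.Lib.Helper4.Basic
import Cfsg.Agent.Lib.Helper1.QC1

set_option autoImplicit false

namespace Cfsg.Agent.Lib.Helper1

section QO
variable {F : Type*} [Field F]

theorem qo_mem_iff (M : Matrix.SpecialLinearGroup (Fin 3) F) :
    M ∈ Cfsg.qdOver F ↔ M.1 2 0 = 0 ∧ M.1 2 1 = 0 ∧ M.1 2 2 = 1 := by
  constructor
  · intro h
    refine Subgroup.closure_induction (p := fun M _ => M.1 2 0 = 0 ∧ M.1 2 1 = 0 ∧ M.1 2 2 = 1)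
      ?_ ?_ ?_ ?_ h
    · intro x hx; exact hx
    · refine ⟨?_, ?_, ?_⟩
      · show (1 : Matrix (Fin 3) (Fin 3) F) 2 0 = 0
        simp
      · show (1 : Matrix (Fin 3) (Fin 3) F) 2 1 = 0
        simp
      · show (1 : Matrix (Fin 3) (Fin 3) F) 2 2 = 1
        simp
    · intro x y _ _ hx hy
      obtain ⟨hx0, hx1, hx2⟩ := hx
      obtain ⟨hy0, hy1, hy2⟩ := hy
      refine ⟨?_, ?_, ?_⟩
      · show (x.1 * y.1) 2 0 = 0
        rw [Matrix.mul_apply, Fin.sum_univ_three, hx0, hx1, hx2, hy0]; ring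
      · show (x.1 * y.1) 2 1 = 0
        rw [Matrix.mul_apply, Fin.sum_univ_three, hx0, hx1, hx2, hy1]; ring
      · show (x.1 * y.1) 2 2 = 1
        rw [Matrix.mul_apply, Fin.sum_univ_three, hx0, hx1, hx2, hy2]; ring
    · intro x _ hx
      obtain ⟨hx0, hx1, hx2⟩ := hx
      have h1 : x.1 * (x⁻¹).1 = 1 := by
        have h2 : x * x⁻¹ = 1 := mul_inv_cancel x
        have h3 := congrArg Subtype.val h2
        exact h3
      have e : ∀ j : Fin 3, (x⁻¹).1 2 j = (1 : Matrix (Fin 3) (Fin 3) F) 2 j := by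
        intro j
        have h4 := congrFun (congrFun h1 2) j
        rw [Matrix.mul_apply, Fin.sum_univ_three, hx0, hx1, hx2] at h4
        rw [← h4]; ring
      refine ⟨?_, ?_, ?_⟩
      · rw [e]; simp
      · rw [e]; simp
      · rw [e]; simp
  · intro h
    exact Subgroup.subset_closure h

/-- the upper-left block -/
def qoBlkMat (N : Matrix (Fin 3) (Fin 3) F) : Matrix (Fin 2) (Fin 2) F :=
  !![N 0 0, N 0 1; N 1 0, N 1 1]

theorem qoBlkMat_det (N : Matrix (Fin 3) (Fin 3) F) (h20 : N 2 0 = 0) (h21 : N 2 1 = 0)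
    (h22 : N 2 2 = 1) : (qoBlkMat N).det = N.det := by
  rw [qoBlkMat, Matrix.det_fin_two_of, Matrix.det_fin_three, h20, h21, h22]; ring

theorem qoBlkMat_mul (M N : Matrix (Fin 3) (Fin 3) F) (h20 : N 2 0 = 0) (h21 : N 2 1 = 0) :
    qoBlkMat (M * N) = qoBlkMat M * qoBlkMat N := by
  ext i j
  fin_cases i <;> fin_cases j <;>
    simp [qoBlkMat, Matrix.mul_apply, Fin.sum_univ_three, Fin.sum_univ_two, h20, h21]

theorem qoBlkMat_one : qoBlkMat (1 : Matrix (Fin 3) (Fin 3) F) = 1 := by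
  ext i j
  fin_cases i <;> fin_cases j <;> simp [qoBlkMat]

/-- the block homomorphism onto `SL₂` -/
def qoBlk (F : Type*) [Field F] : ↥(Cfsg.qdOver F) →* Matrix.SpecialLinearGroup (Fin 2) F where
  toFun M := ⟨qoBlkMat M.1.1, by
    have h := (qo_mem_iff M.1).mp M.2
    rw [qoBlkMat_det _ h.1 h.2.1 h.2.2]; exact M.1.2⟩
  map_one' := by
    apply Subtype.ext
    exact qoBlkMat_one
  map_mul' M N := by
    apply Subtype.ext
    have h := (qo_mem_iff N.1).mp N.2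
    exact qoBlkMat_mul M.1.1 N.1.1 h.1 h.2.1

theorem qoBlk_val (M : ↥(Cfsg.qdOver F)) : (qoBlk F M).1 = qoBlkMat M.1.1 := rfl

theorem qoBlkMat_00 (N : Matrix (Fin 3) (Fin 3) F) : qoBlkMat N 0 0 = N 0 0 := by simp [qoBlkMat]
theorem qoBlkMat_01 (N : Matrix (Fin 3) (Fin 3) F) : qoBlkMat N 0 1 = N 0 1 := by simp [qoBlkMat]
theorem qoBlkMat_10 (N : Matrix (Fin 3) (Fin 3) F) : qoBlkMat N 1 0 = N 1 0 := by simp [qoBlkMat]
theorem qoBlkMat_11 (N : Matrix (Fin 3) (Fin 3) F) : qoBlkMat N 1 1 = N 1 1 := by simp [qoBlkMat]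

theorem mat2_ext {R : Type*} (A B : Matrix (Fin 2) (Fin 2) R)
    (h00 : A 0 0 = B 0 0) (h01 : A 0 1 = B 0 1) (h10 : A 1 0 = B 1 0) (h11 : A 1 1 = B 1 1) :
    A = B := by
  ext i j
  fin_cases i <;> fin_cases j <;> assumption

theorem qoBlk_eq_one_iff (M : ↥(Cfsg.qdOver F)) :
    qoBlk F M = 1 ↔ M.1.1 0 0 = 1 ∧ M.1.1 0 1 = 0 ∧ M.1.1 1 0 = 0 ∧ M.1.1 1 1 = 1 := by
  constructor
  · intro h
    have h1 : qoBlkMat M.1.1 = 1 := congrArg Subtype.val h
    have e00 : qoBlkMat M.1.1 0 0 = (1 : Matrix (Fin 2) (Fin 2) F) 0 0 := by rw [h1]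
    have e01 : qoBlkMat M.1.1 0 1 = (1 : Matrix (Fin 2) (Fin 2) F) 0 1 := by rw [h1]
    have e10 : qoBlkMat M.1.1 1 0 = (1 : Matrix (Fin 2) (Fin 2) F) 1 0 := by rw [h1]
    have e11 : qoBlkMat M.1.1 1 1 = (1 : Matrix (Fin 2) (Fin 2) F) 1 1 := by rw [h1]
    rw [qoBlkMat_00] at e00
    rw [qoBlkMat_01] at e01
    rw [qoBlkMat_10] at e10
    rw [qoBlkMat_11] at e11
    refine ⟨e00.trans (by simp), e01.trans (by simp), e10.trans (by simp), e11.trans (by simp)⟩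
  · rintro ⟨h00, h01, h10, h11⟩
    apply Subtype.ext
    show qoBlkMat M.1.1 = 1
    apply mat2_ext
    · rw [qoBlkMat_00, h00]; simp
    · rw [qoBlkMat_01, h01]; simp
    · rw [qoBlkMat_10, h10]; simp
    · rw [qoBlkMat_11, h11]; simp

/-- the block embedding of `SL₂` -/
def qoJMat (A : Matrix (Fin 2) (Fin 2) F) : Matrix (Fin 3) (Fin 3) F :=
  !![A 0 0, A 0 1, 0; A 1 0, A 1 1, 0; 0, 0, 1]

theorem qoJMat_det (A : Matrix (Fin 2) (Fin 2) F) : (qoJMat A).det = A.det := by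
  rw [Matrix.det_fin_three, Matrix.det_fin_two]
  simp [qoJMat]

theorem qoJMat_mul (A B : Matrix (Fin 2) (Fin 2) F) : qoJMat (A * B) = qoJMat A * qoJMat B := by
  apply mat3_ext <;> simp [qoJMat, Matrix.mul_apply, Fin.sum_univ_three, Fin.sum_univ_two]

theorem qoJMat_one : qoJMat (1 : Matrix (Fin 2) (Fin 2) F) = 1 := by
  apply mat3_ext <;> simp [qoJMat]

/-- the block embedding as a homomorphism -/
def qoJ (F : Type*) [Field F] : Matrix.SpecialLinearGroup (Fin 2) F →* ↥(Cfsg.qdOver F) where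
  toFun A := ⟨⟨qoJMat A.1, by rw [qoJMat_det]; exact A.2⟩, by
    refine (qo_mem_iff _).mpr ⟨?_, ?_, ?_⟩
    · show qoJMat A.1 2 0 = 0
      simp [qoJMat]
    · show qoJMat A.1 2 1 = 0
      simp [qoJMat]
    · show qoJMat A.1 2 2 = 1
      simp [qoJMat]⟩
  map_one' := by
    apply Subtype.ext; apply Subtype.ext
    exact qoJMat_one
  map_mul' A B := by
    apply Subtype.ext; apply Subtype.ext
    exact qoJMat_mul A.1 B.1

theorem qoJ_val (A : Matrix.SpecialLinearGroup (Fin 2) F) : (qoJ F A).1.1 = qoJMat A.1 := rfl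

theorem qoBlk_J (A : Matrix.SpecialLinearGroup (Fin 2) F) : qoBlk F (qoJ F A) = A := by
  apply Subtype.ext
  show qoBlkMat (qoJMat A.1) = A.1
  apply mat2_ext <;> simp [qoBlkMat, qoJMat]

theorem qoJ_blk (M : ↥(Cfsg.qdOver F)) (h02 : M.1.1 0 2 = 0) (h12 : M.1.1 1 2 = 0) :
    qoJ F (qoBlk F M) = M := by
  have hrow := (qo_mem_iff M.1).mp M.2
  apply Subtype.ext; apply Subtype.ext
  show qoJMat (qoBlkMat M.1.1) = M.1.1
  apply mat3_ext <;> simp [qoJMat, qoBlkMat, h02, h12, hrow.1, hrow.2.1, hrow.2.2]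

/-- translations -/
def qoTMat (u : Fin 2 → F) : Matrix (Fin 3) (Fin 3) F := !![1, 0, u 0; 0, 1, u 1; 0, 0, 1]

theorem qoTMat_det (u : Fin 2 → F) : (qoTMat u).det = 1 := by
  rw [Matrix.det_fin_three]; simp [qoTMat]

/-- translations as elements of the group -/
def qoT (u : Fin 2 → F) : ↥(Cfsg.qdOver F) :=
  ⟨⟨qoTMat u, qoTMat_det u⟩, by
    refine (qo_mem_iff _).mpr ⟨?_, ?_, ?_⟩
    · show qoTMat u 2 0 = 0
      simp [qoTMat]
    · show qoTMat u 2 1 = 0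
      simp [qoTMat]
    · show qoTMat u 2 2 = 1
      simp [qoTMat]⟩

theorem qoT_val (u : Fin 2 → F) : (qoT u).1.1 = qoTMat u := rfl

theorem qoT_blk (u : Fin 2 → F) : qoBlk F (qoT u) = 1 := by
  rw [qoBlk_eq_one_iff, qoT_val]
  refine ⟨?_, ?_, ?_, ?_⟩ <;> simp [qoTMat]

theorem qo_trace_of_pow {p : ℕ} [Fact p.Prime] [CharP F p] (A : Matrix (Fin 2) (Fin 2) F) (k : ℕ)
    (h : A ^ (p ^ k) = 1) : A 0 0 + A 1 1 = 2 := by
  have h1 : (A - 1) ^ (p ^ k) = 0 := by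
    rw [sub_pow_char_pow_of_commute p k (Commute.one_right A), h, one_pow, sub_self]
  have h2 : IsNilpotent (A - 1) := ⟨p ^ k, h1⟩
  have h3 := (Matrix.isNilpotent_trace_of_isNilpotent h2).eq_zero
  rw [Matrix.trace_fin_two] at h3
  simp only [Matrix.sub_apply, Matrix.one_apply_eq] at h3
  linear_combination h3

/-- unipotent matrices -/
def qoU (F : Type*) [Field F] : Matrix (Fin 2) (Fin 2) F := !![1, 1; 0, 1]
/-- unipotent matrices -/
def qoUi (F : Type*) [Field F] : Matrix (Fin 2) (Fin 2) F := !![1, -1; 0, 1]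
/-- unipotent matrices -/
def qoL (F : Type*) [Field F] : Matrix (Fin 2) (Fin 2) F := !![1, 0; 1, 1]
/-- unipotent matrices -/
def qoLi (F : Type*) [Field F] : Matrix (Fin 2) (Fin 2) F := !![1, 0; -1, 1]

theorem qoU_det : (qoU F).det = 1 := by rw [qoU, Matrix.det_fin_two_of]; ring
theorem qoUi_det : (qoUi F).det = 1 := by rw [qoUi, Matrix.det_fin_two_of]; ring
theorem qoL_det : (qoL F).det = 1 := by rw [qoL, Matrix.det_fin_two_of]; ring
theorem qoLi_det : (qoLi F).det = 1 := by rw [qoLi, Matrix.det_fin_two_of]; ring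

/-- unipotent elements -/
def qoUs (F : Type*) [Field F] : Matrix.SpecialLinearGroup (Fin 2) F := ⟨qoU F, qoU_det⟩
/-- unipotent elements -/
def qoUis (F : Type*) [Field F] : Matrix.SpecialLinearGroup (Fin 2) F := ⟨qoUi F, qoUi_det⟩
/-- unipotent elements -/
def qoLs (F : Type*) [Field F] : Matrix.SpecialLinearGroup (Fin 2) F := ⟨qoL F, qoL_det⟩
/-- unipotent elements -/
def qoLis (F : Type*) [Field F] : Matrix.SpecialLinearGroup (Fin 2) F := ⟨qoLi F, qoLi_det⟩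

theorem qoUs_inv : (qoUs F)⁻¹ = qoUis F := by
  apply inv_eq_of_mul_eq_one_right
  apply Subtype.ext
  show qoU F * qoUi F = 1
  apply mat2_ext <;> simp [qoU, qoUi, Matrix.mul_apply, Fin.sum_univ_two]

theorem qoLs_inv : (qoLs F)⁻¹ = qoLis F := by
  apply inv_eq_of_mul_eq_one_right
  apply Subtype.ext
  show qoL F * qoLi F = 1
  apply mat2_ext <;> simp [qoL, qoLi, Matrix.mul_apply, Fin.sum_univ_two]

theorem qo_tr_conj_u (A : Matrix (Fin 2) (Fin 2) F) :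
    (A * (qoU F * A * qoUi F)) 0 0 + (A * (qoU F * A * qoUi F)) 1 1 =
    A 0 0 * A 0 0 + A 1 1 * A 1 1 + 2 * (A 0 1 * A 1 0) - A 1 0 * A 1 0 := by
  simp only [Matrix.mul_apply, Fin.sum_univ_two]
  simp [qoU, qoUi]
  ring

theorem qo_tr_conj_l (A : Matrix (Fin 2) (Fin 2) F) :
    (A * (qoL F * A * qoLi F)) 0 0 + (A * (qoL F * A * qoLi F)) 1 1 =
    A 0 0 * A 0 0 + A 1 1 * A 1 1 + 2 * (A 0 1 * A 1 0) - A 0 1 * A 0 1 := by
  simp only [Matrix.mul_apply, Fin.sum_univ_two]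
  simp [qoL, qoLi]
  ring

theorem qo_sl2_trivial (A : Matrix.SpecialLinearGroup (Fin 2) F)
    (htr : A.1 0 0 + A.1 1 1 = 2)
    (hu : ∀ B : Matrix.SpecialLinearGroup (Fin 2) F,
      (A * (B * A * B⁻¹)).1 0 0 + (A * (B * A * B⁻¹)).1 1 1 = 2) : A = 1 := by
  have hdet : A.1 0 0 * A.1 1 1 - A.1 0 1 * A.1 1 0 = 1 := by
    have h := A.2
    rw [Matrix.det_fin_two] at h
    exact h
  have h1 := hu (qoUs F)
  rw [qoUs_inv] at h1
  have h1' : (A.1 * (qoU F * A.1 * qoUi F)) 0 0 + (A.1 * (qoU F * A.1 * qoUi F)) 1 1 = 2 := h1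
  rw [qo_tr_conj_u] at h1'
  have h2 := hu (qoLs F)
  rw [qoLs_inv] at h2
  have h2' : (A.1 * (qoL F * A.1 * qoLi F)) 0 0 + (A.1 * (qoL F * A.1 * qoLi F)) 1 1 = 2 := h2
  rw [qo_tr_conj_l] at h2'
  have hc : A.1 1 0 = 0 := by
    have h3 : A.1 1 0 * A.1 1 0 = 0 := by
      linear_combination (-1 : F) * h1' + (A.1 0 0 + A.1 1 1 + 2) * htr - 2 * hdet
    exact mul_self_eq_zero.mp h3
  have hb : A.1 0 1 = 0 := by
    have h3 : A.1 0 1 * A.1 0 1 = 0 := by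
      linear_combination (-1 : F) * h2' + (A.1 0 0 + A.1 1 1 + 2) * htr - 2 * hdet
    exact mul_self_eq_zero.mp h3
  have ha : A.1 0 0 = 1 := by
    have h3 : (A.1 0 0 - 1) * (A.1 0 0 - 1) = 0 := by
      rw [hb, hc] at hdet
      linear_combination (-1 : F) * hdet + (A.1 0 0) * htr
    have h4 := mul_self_eq_zero.mp h3
    linear_combination h4
  have hd : A.1 1 1 = 1 := by linear_combination htr - ha
  apply Subtype.ext
  show A.1 = 1
  apply mat2_ext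
  · rw [ha]; simp
  · rw [hb]; simp
  · rw [hc]; simp
  · rw [hd]; simp

theorem qo_pcore_trace {p : ℕ} [Fact p.Prime] [CharP F p] [Finite ↥(Cfsg.qdOver F)]
    (M : ↥(Cfsg.qdOver F)) (hM : M ∈ Cfsg.pCore p ↥(Cfsg.qdOver F)) :
    (qoBlk F M).1 0 0 + (qoBlk F M).1 1 1 = 2 := by
  have hP := Cfsg.Agent.Lib.Helper4.pCore_isPGroup p ↥(Cfsg.qdOver F)
  obtain ⟨k, hk⟩ := hP ⟨M, hM⟩
  have h1 : M ^ (p ^ k) = 1 := by
    have h0 := congrArg Subtype.val hk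
    exact h0
  have h2 : (qoBlk F M) ^ (p ^ k) = 1 := by rw [← map_pow, h1, map_one]
  have h3 : (qoBlk F M).1 ^ (p ^ k) = 1 := by
    have h0 := congrArg Subtype.val h2
    rw [Matrix.SpecialLinearGroup.coe_pow] at h0
    exact h0
  exact qo_trace_of_pow _ k h3

theorem qo_pcore_le {p : ℕ} [Fact p.Prime] [CharP F p] [Finite ↥(Cfsg.qdOver F)]
    (M : ↥(Cfsg.qdOver F)) (hM : M ∈ Cfsg.pCore p ↥(Cfsg.qdOver F)) : qoBlk F M = 1 := by
  have hN := Cfsg.Agent.Lib.Helper4.pCore_normal p ↥(Cfsg.qdOver F)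
  apply qo_sl2_trivial _ (qo_pcore_trace M hM)
  intro B
  have h1 : M * (qoJ F B * M * (qoJ F B)⁻¹) ∈ Cfsg.pCore p ↥(Cfsg.qdOver F) :=
    Subgroup.mul_mem _ hM (hN.conj_mem M hM (qoJ F B))
  have h2 := qo_pcore_trace _ h1
  simp only [map_mul, map_inv, qoBlk_J] at h2
  exact h2

theorem qo_ker_pow {p : ℕ} [Fact p.Prime] [CharP F p] (N : Matrix (Fin 3) (Fin 3) F)
    (h00 : N 0 0 = 1) (h01 : N 0 1 = 0) (h10 : N 1 0 = 0) (h11 : N 1 1 = 1)
    (h20 : N 2 0 = 0) (h21 : N 2 1 = 0) (h22 : N 2 2 = 1) : N ^ p = 1 := by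
  have hD : (N - 1) * (N - 1) = 0 := by
    apply mat3_ext <;>
      simp [Matrix.mul_apply, Fin.sum_univ_three, Matrix.sub_apply, h00, h01, h10, h11, h20, h21,
        h22]
  have hp2 : 2 ≤ p := (Fact.out : p.Prime).two_le
  have hDp : (N - 1) ^ p = 0 := by
    have e : p = 2 + (p - 2) := by omega
    rw [e, pow_add, pow_two, hD, zero_mul]
  have e : N = (N - 1) + 1 := (sub_add_cancel N 1).symm
  rw [e, add_pow_char_of_commute p (Commute.one_right (N - 1)), hDp, one_pow, zero_add]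

theorem qo_ker_pgroup {p : ℕ} [Fact p.Prime] [CharP F p] : IsPGroup p ↥(qoBlk F).ker := by
  rintro ⟨M, hM⟩
  refine ⟨1, ?_⟩
  apply Subtype.ext
  show M ^ p ^ 1 = 1
  rw [pow_one]
  have hrow := (qo_mem_iff M.1).mp M.2
  have hblk := (qoBlk_eq_one_iff M).mp (MonoidHom.mem_ker.mp hM)
  apply Subtype.ext
  apply Subtype.ext
  show (M ^ p).1.1 = 1
  have e : (M ^ p).1.1 = M.1.1 ^ p := by
    show ((M.1 ^ p : Matrix.SpecialLinearGroup (Fin 3) F)).1 = M.1.1 ^ p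
    rw [Matrix.SpecialLinearGroup.coe_pow]
  rw [e]
  exact qo_ker_pow _ hblk.1 hblk.2.1 hblk.2.2.1 hblk.2.2.2 hrow.1 hrow.2.1 hrow.2.2

/-- the translation vector -/
def qoVec (M : ↥(Cfsg.qdOver F)) : Fin 2 → F := ![M.1.1 0 2, M.1.1 1 2]

theorem qoVec_T (u : Fin 2 → F) : qoVec (qoT u) = u := by
  funext i
  fin_cases i <;> simp [qoVec, qoT_val, qoTMat]

theorem qoT_vec (M : ↥(Cfsg.qdOver F)) (hM : qoBlk F M = 1) : qoT (qoVec M) = M := by
  have hb := (qoBlk_eq_one_iff M).mp hM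
  have hrow := (qo_mem_iff M.1).mp M.2
  apply Subtype.ext; apply Subtype.ext
  show qoTMat ![M.1.1 0 2, M.1.1 1 2] = M.1.1
  apply mat3_ext <;> simp [qoTMat, hb.1, hb.2.1, hb.2.2.1, hb.2.2.2, hrow.1, hrow.2.1, hrow.2.2]

theorem qoVec_mul (M N : ↥(Cfsg.qdOver F)) (hM : qoBlk F M = 1) :
    qoVec (M * N) = qoVec M + qoVec N := by
  have hb := (qoBlk_eq_one_iff M).mp hM
  have hrow := (qo_mem_iff N.1).mp N.2
  have e0 : (M * N).1.1 0 2 = M.1.1 0 2 + N.1.1 0 2 := by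
    show (M.1.1 * N.1.1) 0 2 = _
    rw [Matrix.mul_apply, Fin.sum_univ_three, hb.1, hb.2.1, hrow.2.2]; ring
  have e1 : (M * N).1.1 1 2 = M.1.1 1 2 + N.1.1 1 2 := by
    show (M.1.1 * N.1.1) 1 2 = _
    rw [Matrix.mul_apply, Fin.sum_univ_three, hb.2.2.1, hb.2.2.2, hrow.2.2]; ring
  funext i
  fin_cases i
  · show (M * N).1.1 0 2 = M.1.1 0 2 + N.1.1 0 2
    exact e0
  · show (M * N).1.1 1 2 = M.1.1 1 2 + N.1.1 1 2
    exact e1

theorem qo_mulVec2 (A : Matrix (Fin 2) (Fin 2) F) (x y : F) :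
    A.mulVec ![x, y] = ![A 0 0 * x + A 0 1 * y, A 1 0 * x + A 1 1 * y] := by
  funext i
  fin_cases i <;> simp [Matrix.mulVec, dotProduct, Fin.sum_univ_two]

theorem qoVec_conj (l M : ↥(Cfsg.qdOver F)) (hl02 : l.1.1 0 2 = 0) (hl12 : l.1.1 1 2 = 0) :
    qoVec (l * M * l⁻¹) = (qoBlk F l).1.mulVec (qoVec M) := by
  have hlrow := (qo_mem_iff l.1).mp l.2
  have hMrow := (qo_mem_iff M.1).mp M.2
  obtain ⟨W, hW⟩ : ∃ W : ↥(Cfsg.qdOver F), W = l * M * l⁻¹ := ⟨_, rfl⟩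
  rw [← hW]
  have hWl : W * l = l * M := by rw [hW]; group
  have hmat : W.1.1 * l.1.1 = l.1.1 * M.1.1 := by
    have h0 := congrArg (fun m : ↥(Cfsg.qdOver F) => (m.1.1 : Matrix (Fin 3) (Fin 3) F)) hWl
    exact h0
  have e0 := congrFun (congrFun hmat 0) 2
  have e1 := congrFun (congrFun hmat 1) 2
  rw [Matrix.mul_apply, Matrix.mul_apply, Fin.sum_univ_three, Fin.sum_univ_three, hl02, hl12,
    hlrow.2.2, hMrow.2.2] at e0 e1
  have e0' : W.1.1 0 2 = l.1.1 0 0 * M.1.1 0 2 + l.1.1 0 1 * M.1.1 1 2 := by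
    linear_combination e0
  have e1' : W.1.1 1 2 = l.1.1 1 0 * M.1.1 0 2 + l.1.1 1 1 * M.1.1 1 2 := by
    linear_combination e1
  show ![W.1.1 0 2, W.1.1 1 2] = (qoBlkMat l.1.1).mulVec ![M.1.1 0 2, M.1.1 1 2]
  rw [qo_mulVec2, qoBlkMat_00, qoBlkMat_01, qoBlkMat_10, qoBlkMat_11, e0', e1']

end QO

theorem qo_main {F : Type*} [Field F] [Fintype F] {p : ℕ} [Fact p.Prime] [CharP F p] :
    (∀ M : ↥(Cfsg.qdOver F), M ∈ Cfsg.pCore p ↥(Cfsg.qdOver F) ↔
        M.1.1 0 0 = 1 ∧ M.1.1 0 1 = 0 ∧ M.1.1 1 0 = 0 ∧ M.1.1 1 1 = 1) ∧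
    ∃ K : Subgroup ↥(Cfsg.qdOver F),
      (∀ M : ↥(Cfsg.qdOver F), M ∈ K ↔ M.1.1 0 2 = 0 ∧ M.1.1 1 2 = 0) ∧
      K ⊓ Cfsg.pCore p ↥(Cfsg.qdOver F) = ⊥ ∧ K ⊔ Cfsg.pCore p ↥(Cfsg.qdOver F) = ⊤ ∧
      Nonempty (↥K ≃* Matrix.SpecialLinearGroup (Fin 2) F) ∧
      Cfsg.IsNaturalSL2Module F (Cfsg.pCore p ↥(Cfsg.qdOver F)) K := by
  classical
  haveI : Finite (Matrix.SpecialLinearGroup (Fin 3) F) := Finite.of_fintype _
  have hker : Cfsg.pCore p ↥(Cfsg.qdOver F) = (qoBlk F).ker := by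
    apply le_antisymm
    · intro M hM
      rw [MonoidHom.mem_ker]
      exact qo_pcore_le M hM
    · exact Cfsg.Agent.Lib.Helper4.le_pCore (MonoidHom.normal_ker _) qo_ker_pgroup
  have hblk1 : ∀ v : ↥(Cfsg.pCore p ↥(Cfsg.qdOver F)), qoBlk F v.1 = 1 := by
    intro v
    have h : v.1 ∈ (qoBlk F).ker := hker.le v.2
    exact MonoidHom.mem_ker.mp h
  have hV : ∀ M : ↥(Cfsg.qdOver F), M ∈ Cfsg.pCore p ↥(Cfsg.qdOver F) ↔
      M.1.1 0 0 = 1 ∧ M.1.1 0 1 = 0 ∧ M.1.1 1 0 = 0 ∧ M.1.1 1 1 = 1 := by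
    intro M
    rw [hker, MonoidHom.mem_ker, qoBlk_eq_one_iff]
  have hK : ∀ M : ↥(Cfsg.qdOver F), M ∈ (qoJ F).range ↔ M.1.1 0 2 = 0 ∧ M.1.1 1 2 = 0 := by
    intro M
    constructor
    · rintro ⟨A, rfl⟩
      rw [qoJ_val]
      constructor <;> simp [qoJMat]
    · rintro ⟨h02, h12⟩
      exact ⟨qoBlk F M, qoJ_blk M h02 h12⟩
  have hJinj : Function.Injective (qoJ F) := by
    intro A B h
    have h0 := congrArg (qoBlk F) h
    rw [qoBlk_J, qoBlk_J] at h0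
    exact h0
  have hVn := Cfsg.Agent.Lib.Helper4.pCore_normal p ↥(Cfsg.qdOver F)
  have hTmem : ∀ u : Fin 2 → F, qoT u ∈ Cfsg.pCore p ↥(Cfsg.qdOver F) := by
    intro u
    rw [hker, MonoidHom.mem_ker]; exact qoT_blk u
  obtain ⟨ψ, hψ⟩ : ∃ ψ : Additive ↥(Cfsg.pCore p ↥(Cfsg.qdOver F)) ≃+ (Fin 2 → F),
      ∀ v : ↥(Cfsg.pCore p ↥(Cfsg.qdOver F)), ψ (Additive.ofMul v) = qoVec v.1 := by
    refine ⟨{ toFun := fun v => qoVec (Additive.toMul v).1
              invFun := fun u => Additive.ofMul ⟨qoT u, hTmem u⟩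
              left_inv := ?_
              right_inv := ?_
              map_add' := ?_ }, fun v => rfl⟩
    · intro v
      exact congrArg Additive.ofMul (Subtype.ext (qoT_vec _ (hblk1 (Additive.toMul v))))
    · intro u
      exact qoVec_T u
    · intro a b
      exact qoVec_mul _ _ (hblk1 (Additive.toMul a))
  refine ⟨hV, (qoJ F).range, hK, ?_, ?_, ?_, ?_⟩
  · rw [eq_bot_iff]
    intro M hM
    obtain ⟨hM1, hM2⟩ := Subgroup.mem_inf.mp hM
    obtain ⟨A, rfl⟩ := hM1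
    rw [hker, MonoidHom.mem_ker, qoBlk_J] at hM2
    rw [Subgroup.mem_bot, hM2, map_one]
  · rw [eq_top_iff]
    intro M _
    have h1 : M * (qoJ F (qoBlk F M))⁻¹ ∈ Cfsg.pCore p ↥(Cfsg.qdOver F) := by
      rw [hker, MonoidHom.mem_ker, map_mul, map_inv, qoBlk_J, mul_inv_cancel]
    have h2 : qoJ F (qoBlk F M) ∈ (qoJ F).range := ⟨_, rfl⟩
    have e : M = (M * (qoJ F (qoBlk F M))⁻¹) * qoJ F (qoBlk F M) := by group
    rw [e]
    exact Subgroup.mul_mem _ (Subgroup.mem_sup_right h1) (Subgroup.mem_sup_left h2)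
  · exact ⟨(MonoidHom.ofInjective hJinj).symm⟩
  · refine ⟨?_, (qoBlk F).comp (qoJ F).range.subtype, ψ, ?_, ?_, ?_⟩
    · rw [Subgroup.normalizer_eq_top_iff.mpr hVn]; exact le_top
    · intro A
      exact ⟨⟨qoJ F A, ⟨A, rfl⟩⟩, qoBlk_J A⟩
    · ext l
      rw [MonoidHom.mem_ker, Subgroup.mem_subgroupOf]
      show qoBlk F l.1 = 1 ↔ l.1 ∈ Subgroup.centralizer _
      have hl := (hK l.1).mp l.2
      constructor
      · intro h
        have h1 : l.1 = 1 := by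
          rw [← qoJ_blk l.1 hl.1 hl.2, h, map_one]
        rw [h1]
        exact Subgroup.one_mem _
      · intro h
        rw [Subgroup.mem_centralizer_iff] at h
        have key : ∀ u : Fin 2 → F, (qoBlk F l.1).1.mulVec u = u := by
          intro u
          have h1 := h (qoT u) (hTmem u)
          have h2 : l.1 * qoT u * l.1⁻¹ = qoT u := by rw [← h1]; group
          have h3 := qoVec_conj l.1 (qoT u) hl.1 hl.2
          rw [h2, qoVec_T] at h3
          exact h3.symm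
        have k1 := key ![1, 0]
        have k2 := key ![0, 1]
        rw [qo_mulVec2] at k1 k2
        have a00 := congrFun k1 0
        have a10 := congrFun k1 1
        have a01 := congrFun k2 0
        have a11 := congrFun k2 1
        simp at a00 a10 a01 a11
        apply Subtype.ext
        show (qoBlk F l.1).1 = 1
        apply mat2_ext
        · rw [a00]; simp
        · rw [a01]; simp
        · rw [a10]; simp
        · rw [a11]; simp
    · intro l v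
      refine ⟨⟨l.1 * v.1 * l.1⁻¹, hVn.conj_mem v.1 v.2 l.1⟩, rfl, ?_⟩
      rw [hψ, hψ]
      have hl := (hK l.1).mp l.2
      exact qoVec_conj l.1 v.1 hl.1 hl.2

end Cfsg.Agent.Lib.Helper1
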