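import Mathlib
import Cfsg.Prelude.Def_ClassicalGeometry

set_option autoImplicit false
open Cfsg Matrix

namespace Cfsg.Agent.Lib.Helper1

variable {F : Type*} [Field F] {ι : Type} [Fintype ι] [DecidableEq ι]

theorem polarVec_dot (Q : QuadraticForm F (ι → F)) (v x : ι → F) :
    polarVec (⇑Q) v ⬝ᵥ x = QuadraticMap.polar (⇑Q) v x := by
  have h := LinearMap.pi_apply_eq_sum_univ (QuadraticMap.polarBilin Q v) x
  rw [QuadraticMap.polarBilin_apply_apply] at h
  rw [h]
  unfold polarVec dotProduct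
  apply Finset.sum_congr rfl
  intro j _
  rw [smul_eq_mul, mul_comm, QuadraticMap.polarBilin_apply_apply]
  have hs : (Pi.single j (1 : F) : ι → F) = fun k => if j = k then 1 else 0 := by
    ext k; simp [Pi.single_apply, eq_comm]
  beta_reduce
  rw [hs]

theorem reflectionMatrix_mulVec (Q : QuadraticForm F (ι → F)) (v x : ι → F) :
    reflectionMatrix (⇑Q) v *ᵥ x = x - ((Q v)⁻¹ * QuadraticMap.polar (⇑Q) v x) • v := by
  unfold reflectionMatrix
  rw [Matrix.sub_mulVec, Matrix.one_mulVec, Matrix.smul_mulVec, Matrix.vecMulVec_mulVec,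
    op_smul_eq_smul, polarVec_dot, smul_smul]

theorem siegelMatrix_mulVec (Q : QuadraticForm F (ι → F)) (u v x : ι → F) (c : F) :
    siegelMatrix (⇑Q) u v c *ᵥ x =
      x + ((c * QuadraticMap.polar (⇑Q) u x) • v - (c * QuadraticMap.polar (⇑Q) v x) • u) := by
  unfold siegelMatrix
  rw [Matrix.add_mulVec, Matrix.one_mulVec, Matrix.smul_mulVec, Matrix.sub_mulVec,
    Matrix.vecMulVec_mulVec, Matrix.vecMulVec_mulVec, op_smul_eq_smul, op_smul_eq_smul,
    polarVec_dot, polarVec_dot, smul_sub, smul_smul, smul_smul]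

end Cfsg.Agent.Lib.Helper1
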