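import Mathlib

set_option autoImplicit false

namespace Cfsg.Agent.Lib.Helper1

variable {α : Type*}

/-- transitivity of a permutation group in elementwise form -/
def PermTrans (S : Subgroup (Equiv.Perm α)) : Prop := ∀ a b : α, ∃ σ ∈ S, σ a = b

theorem eq_one_of_mem_centralizer_of_fixed {S : Subgroup (Equiv.Perm α)} (hS : PermTrans S)
    {c : Equiv.Perm α} (hc : c ∈ Subgroup.centralizer (S : Set (Equiv.Perm α))) {a : α}
    (ha : c a = a) : c = 1 := by
  ext b
  obtain ⟨σ, hσ, rfl⟩ := hS a b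
  have h1 := Subgroup.mem_centralizer_iff.mp hc σ hσ
  have h2 : σ (c a) = c (σ a) := by
    have := congrArg (fun τ : Equiv.Perm α => τ a) h1
    simpa using this
  rw [Equiv.Perm.one_apply, ← h2, ha]

theorem centralizer_eq_of_le_of_trans {S T : Subgroup (Equiv.Perm α)} (hS : PermTrans S)
    (hT : PermTrans T) (hTS : T ≤ Subgroup.centralizer (S : Set (Equiv.Perm α))) :
    Subgroup.centralizer (S : Set (Equiv.Perm α)) = T := by
  apply le_antisymm _ hTS
  intro c hc
  rcases isEmpty_or_nonempty α with he | ⟨⟨a⟩⟩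
  · have h1 : c = 1 := by
      ext b
      exact he.elim b
    rw [h1]
    exact Subgroup.one_mem _
  · obtain ⟨t, ht, hta⟩ := hT a (c a)
    have h1 : t⁻¹ * c = 1 := eq_one_of_mem_centralizer_of_fixed hS
      (Subgroup.mul_mem _ (Subgroup.inv_mem _ (hTS ht)) hc)
      (by rw [Equiv.Perm.mul_apply, ← hta]; simp)
    have h2 : c = t := by
      rw [inv_mul_eq_one] at h1
      exact h1.symm
    rw [h2]
    exact ht

theorem nonempty_mulEquiv_of_trans_of_le_centralizer [Nonempty α] {S T : Subgroup (Equiv.Perm α)}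
    (hS : PermTrans S) (hT : PermTrans T)
    (hTS : T ≤ Subgroup.centralizer (S : Set (Equiv.Perm α))) : Nonempty (S ≃* T) := by
  classical
  obtain ⟨a⟩ := ‹Nonempty α›
  have hST : S ≤ Subgroup.centralizer (T : Set (Equiv.Perm α)) := by
    intro s hs
    rw [Subgroup.mem_centralizer_iff]
    intro t ht
    exact ((Subgroup.mem_centralizer_iff.mp (hTS ht)) s hs).symm
  have hex : ∀ s : S, ∃ t : T, (t : Equiv.Perm α) a = (s : Equiv.Perm α) a := by
    intro s
    obtain ⟨t, ht, h⟩ := hT a ((s : Equiv.Perm α) a)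
    exact ⟨⟨t, ht⟩, h⟩
  choose ψ hψ using hex
  have huniq : ∀ t t' : T, (t : Equiv.Perm α) a = (t' : Equiv.Perm α) a → t = t' := by
    intro t t' h
    have h1 : ((t' : Equiv.Perm α)⁻¹ * (t : Equiv.Perm α)) = 1 :=
      eq_one_of_mem_centralizer_of_fixed hS
        (Subgroup.mul_mem _ (Subgroup.inv_mem _ (hTS t'.2)) (hTS t.2))
        (by rw [Equiv.Perm.mul_apply, h]; simp)
    rw [inv_mul_eq_one] at h1
    exact Subtype.ext h1.symm
  have huniqS : ∀ s s' : S, (s : Equiv.Perm α) a = (s' : Equiv.Perm α) a → s = s' := by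
    intro s s' h
    have h1 : ((s' : Equiv.Perm α)⁻¹ * (s : Equiv.Perm α)) = 1 :=
      eq_one_of_mem_centralizer_of_fixed hT
        (Subgroup.mul_mem _ (Subgroup.inv_mem _ (hST s'.2)) (hST s.2))
        (by rw [Equiv.Perm.mul_apply, h]; simp)
    rw [inv_mul_eq_one] at h1
    exact Subtype.ext h1.symm
  have hmul : ∀ s₁ s₂ : S, ψ (s₁ * s₂) = ψ s₂ * ψ s₁ := by
    intro s₁ s₂
    apply huniq
    rw [hψ]
    have hc : (s₁ : Equiv.Perm α) * (ψ s₂ : Equiv.Perm α) =
        (ψ s₂ : Equiv.Perm α) * (s₁ : Equiv.Perm α) :=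
      (Subgroup.mem_centralizer_iff.mp (hTS (ψ s₂).2) s₁ s₁.2)
    simp only [Subgroup.coe_mul, Equiv.Perm.mul_apply]
    rw [← hψ s₂, ← Equiv.Perm.mul_apply, hc, Equiv.Perm.mul_apply, hψ s₁]
  let φ : S →* T := MonoidHom.mk' (fun s => (ψ s)⁻¹) (by
    intro s₁ s₂
    simp only [hmul, mul_inv_rev])
  refine ⟨MulEquiv.ofBijective φ ⟨?_, ?_⟩⟩
  · intro s s' h
    have h1 : ψ s = ψ s' := inv_injective h
    apply huniqS
    rw [← hψ s, ← hψ s', h1]
  · intro t
    obtain ⟨s, hs, h⟩ := hS a (((t⁻¹ : T) : Equiv.Perm α) a)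
    refine ⟨⟨s, hs⟩, ?_⟩
    have h1 : ψ ⟨s, hs⟩ = t⁻¹ := huniq _ _ (by rw [hψ]; exact h)
    show (ψ ⟨s, hs⟩)⁻¹ = t
    rw [h1, inv_inv]

theorem permTrans_map_of_isPretransitive (G : Subgroup (Equiv.Perm α)) (M : Subgroup G)
    (h : MulAction.IsPretransitive M α) : PermTrans (M.map G.subtype) := by
  intro a b
  obtain ⟨m, hm⟩ := MulAction.exists_smul_eq M a b
  exact ⟨((m : G) : Equiv.Perm α), Subgroup.mem_map_of_mem _ m.2, hm⟩

theorem mem_of_coe_mem_map (G : Subgroup (Equiv.Perm α)) (M : Subgroup G) (g : G)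
    (h : (g : Equiv.Perm α) ∈ M.map G.subtype) : g ∈ M := by
  obtain ⟨m, hm, hmg⟩ := h
  have : m = g := Subtype.ext hmg
  rw [← this]
  exact hm

/-- distinct minimal normal subgroups intersect trivially -/
theorem inf_eq_bot_of_minimal {G : Type*} [Group G] (L M : Subgroup G) [L.Normal] [M.Normal]
    (hL : ∀ L' : Subgroup G, L'.Normal → L' ≤ L → L' = ⊥ ∨ L' = L)
    (hM : ∀ L' : Subgroup G, L'.Normal → L' ≤ M → L' = ⊥ ∨ L' = M) (hLb : L ≠ ⊥)
    (hne : L ≠ M) : L ⊓ M = ⊥ := by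
  rcases hL (L ⊓ M) inferInstance inf_le_left with h | h
  · exact h
  · exfalso
    have hLM : L ≤ M := by rw [← h]; exact inf_le_right
    rcases hM L inferInstance hLM with h1 | h1
    · exact hLb h1
    · exact hne h1

/-- if `L ⊓ M = ⊥` for normal subgroups of a permutation group then `L` centralizes `M` -/
theorem map_le_centralizer_of_inf_eq_bot (G : Subgroup (Equiv.Perm α)) (L M : Subgroup G)
    [L.Normal] [M.Normal] (h : L ⊓ M = ⊥) :
    L.map G.subtype ≤ Subgroup.centralizer ((M.map G.subtype : Subgroup (Equiv.Perm α)) :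
      Set (Equiv.Perm α)) := by
  rintro _ ⟨l, hl, rfl⟩
  rw [Subgroup.mem_centralizer_iff]
  rintro _ ⟨m, hm, rfl⟩
  have hc := Subgroup.commute_of_normal_of_disjoint M L inferInstance inferInstance
    (by rw [disjoint_iff, inf_comm]; exact h) m l hm hl
  have := congrArg (fun g : G => (g : Equiv.Perm α)) hc.eq
  simpa using this

end Cfsg.Agent.Lib.Helper1
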