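import Mathlib

set_option autoImplicit false

namespace Cfsg.Agent.Lib.Helper1

section S3T

variable {α G : Type*} [Group G] [MulAction G α]

theorem s3t_fix
    (hS : ∀ (g : G) (x₁ x₂ x₃ : α), x₁ ≠ x₂ → x₁ ≠ x₃ → x₂ ≠ x₃ →
      g • x₁ = x₁ → g • x₂ = x₂ → g • x₃ = x₃ → g = 1)
    {a b : α} (hab : a ≠ b) (u : G) (hua : u • a = a) (hub : u • b = b) (hu1 : u ≠ 1)
    (x : α) (hx : u • x = x) : x = a ∨ x = b := by
  by_contra hcon
  push_neg at hcon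
  exact hu1 (hS u a b x hab (Ne.symm hcon.1) (Ne.symm hcon.2) hua hub hx)

theorem s3t_distinct
    (hS : ∀ (g : G) (x₁ x₂ x₃ : α), x₁ ≠ x₂ → x₁ ≠ x₃ → x₂ ≠ x₃ →
      g • x₁ = x₁ → g • x₂ = x₂ → g • x₃ = x₃ → g = 1)
    {a b c : α} (hab : a ≠ b) (hca : c ≠ a) (hcb : c ≠ b) (u : G)
    (hua : u • a = a) (hub : u • b = b) (hu3 : u ^ 3 = 1) (hu1 : u ≠ 1) :
    c ≠ u • c ∧ c ≠ u • u • c ∧ u • c ≠ u • u • c := by
  have h1 : u • c ≠ c := by
    intro h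
    exact hu1 (hS u a b c hab (Ne.symm hca) (Ne.symm hcb) hua hub h)
  have h2 : u • u • c ≠ c := by
    intro h
    have h2' : (u ^ 2) • c = c := by rw [pow_two, mul_smul]; exact h
    have hu2 : u ^ 2 = 1 :=
      hS (u ^ 2) a b c hab (Ne.symm hca) (Ne.symm hcb)
        (by rw [pow_two, mul_smul, hua, hua]) (by rw [pow_two, mul_smul, hub, hub]) h2'
    apply hu1
    have h3 : u ^ 3 = u ^ 2 * u := pow_succ u 2
    rw [hu2, one_mul] at h3
    rw [← h3]; exact hu3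
  refine ⟨fun h => h1 h.symm, fun h => h2 h.symm, fun h => h1 ?_⟩
  exact (smul_left_cancel u h).symm

theorem s3t_conj
    (hT : ∀ x₁ x₂ x₃ y₁ y₂ y₃ : α, x₁ ≠ x₂ → x₁ ≠ x₃ → x₂ ≠ x₃ → y₁ ≠ y₂ → y₁ ≠ y₃ → y₂ ≠ y₃ →
      ∃ g : G, g • x₁ = y₁ ∧ g • x₂ = y₂ ∧ g • x₃ = y₃)
    (hS : ∀ (g : G) (x₁ x₂ x₃ : α), x₁ ≠ x₂ → x₁ ≠ x₃ → x₂ ≠ x₃ →
      g • x₁ = x₁ → g • x₂ = x₂ → g • x₃ = x₃ → g = 1)
    {a b c : α} (hab : a ≠ b) (hca : c ≠ a) (hcb : c ≠ b) (u v : G)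
    (hua : u • a = a) (hub : u • b = b) (hva : v • a = a) (hvb : v • b = b)
    (hu3 : u ^ 3 = 1) (hu1 : u ≠ 1) (hv3 : v ^ 3 = 1) (hv1 : v ≠ 1) :
    ∃ r : G, r • c = c ∧ r * u * r⁻¹ = v ∧
      ((r • a = a ∧ r • b = b) ∨ (r • a = b ∧ r • b = a)) := by
  obtain ⟨du1, du2, du3⟩ := s3t_distinct hS hab hca hcb u hua hub hu3 hu1
  obtain ⟨dv1, dv2, dv3⟩ := s3t_distinct hS hab hca hcb v hva hvb hv3 hv1
  obtain ⟨r, hr1, hr2, hr3⟩ :=
    hT c (u • c) (u • u • c) c (v • c) (v • v • c) du1 du2 du3 dv1 dv2 dv3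
  have hu3c : u • u • u • c = c := by
    have h : (u ^ 3) • c = c := by rw [hu3, one_smul]
    rwa [pow_succ, pow_two, mul_smul, mul_smul] at h
  have hv3c : v • v • v • c = c := by
    have h : (v ^ 3) • c = c := by rw [hv3, one_smul]
    rwa [pow_succ, pow_two, mul_smul, mul_smul] at h
  have hri1 : r⁻¹ • c = c := by rw [inv_smul_eq_iff, hr1]
  have hri2 : r⁻¹ • (v • c) = u • c := by rw [inv_smul_eq_iff, hr2]
  have hri3 : r⁻¹ • (v • v • c) = u • u • c := by rw [inv_smul_eq_iff, hr3]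
  have hconj : r * u * r⁻¹ = v := by
    have h1 : (v⁻¹ * (r * u * r⁻¹)) • c = c := by
      simp only [mul_smul]
      rw [hri1, hr2, inv_smul_smul]
    have h2 : (v⁻¹ * (r * u * r⁻¹)) • (v • c) = v • c := by
      simp only [mul_smul]
      rw [hri2, hr3, inv_smul_smul]
    have h3 : (v⁻¹ * (r * u * r⁻¹)) • (v • v • c) = v • v • c := by
      simp only [mul_smul]
      rw [hri3, hu3c, hr1, inv_smul_eq_iff, hv3c]
    have h := hS _ c (v • c) (v • v • c) dv1 dv2 dv3 h1 h2 h3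
    rw [inv_mul_eq_one] at h
    exact h.symm
  have hva' : v • (r • a) = r • a := by
    rw [← hconj]; simp only [mul_smul]; rw [inv_smul_smul, hua]
  have hvb' : v • (r • b) = r • b := by
    rw [← hconj]; simp only [mul_smul]; rw [inv_smul_smul, hub]
  have ha' := s3t_fix hS hab v hva hvb hv1 (r • a) hva'
  have hb' := s3t_fix hS hab v hva hvb hv1 (r • b) hvb'
  have hne : r • a ≠ r • b := fun h => hab (smul_left_cancel r h)
  refine ⟨r, hr1, hconj, ?_⟩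
  rcases ha' with ha' | ha' <;> rcases hb' with hb' | hb'
  · exact absurd (ha'.trans hb'.symm) hne
  · left; exact ⟨ha', hb'⟩
  · right; exact ⟨ha', hb'⟩
  · exact absurd (ha'.trans hb'.symm) hne

theorem s3t_main
    (hT : ∀ x₁ x₂ x₃ y₁ y₂ y₃ : α, x₁ ≠ x₂ → x₁ ≠ x₃ → x₂ ≠ x₃ → y₁ ≠ y₂ → y₁ ≠ y₃ → y₂ ≠ y₃ →
      ∃ g : G, g • x₁ = y₁ ∧ g • x₂ = y₂ ∧ g • x₃ = y₃)
    (hS : ∀ (g : G) (x₁ x₂ x₃ : α), x₁ ≠ x₂ → x₁ ≠ x₃ → x₂ ≠ x₃ →
      g • x₁ = x₁ → g • x₂ = x₂ → g • x₃ = x₃ → g = 1)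
    {a b c : α} (hab : a ≠ b) (hca : c ≠ a) (hcb : c ≠ b) (u v : G)
    (hua : u • a = a) (hub : u • b = b) (hva : v • a = a) (hvb : v • b = b)
    (hu3 : u ^ 3 = 1) (hu1 : u ≠ 1) (hv3 : v ^ 3 = 1) (hv1 : v ≠ 1) :
    v = u ∨ v = u⁻¹ := by
  obtain ⟨r, hrc, hconj, hr⟩ := s3t_conj hT hS hab hca hcb u v hua hub hva hvb hu3 hu1 hv3 hv1
  rcases hr with ⟨hra, hrb⟩ | ⟨hra, hrb⟩
  · have hr1 : r = 1 := hS r a b c hab (Ne.symm hca) (Ne.symm hcb) hra hrb hrc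
    left
    rw [← hconj, hr1, one_mul, inv_one, mul_one]
  · have hui3 : u⁻¹ ^ 3 = 1 := by rw [inv_pow, hu3, inv_one]
    have hui1 : u⁻¹ ≠ 1 := fun h => hu1 (inv_eq_one.mp h)
    have huia : u⁻¹ • a = a := by rw [inv_smul_eq_iff, hua]
    have huib : u⁻¹ • b = b := by rw [inv_smul_eq_iff, hub]
    obtain ⟨g, hgc, hgconj, hg⟩ :=
      s3t_conj hT hS hab hca hcb u u⁻¹ hua hub huia huib hu3 hu1 hui3 hui1
    rcases hg with ⟨hga, hgb⟩ | ⟨hga, hgb⟩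
    · have hg1 : g = 1 := hS g a b c hab (Ne.symm hca) (Ne.symm hcb) hga hgb hgc
      rw [hg1, one_mul, inv_one, mul_one] at hgconj
      exfalso
      apply hu1
      have h2 : u * u = 1 := by
        have h := mul_inv_cancel u
        rw [← hgconj] at h
        exact h
      have h3 := hu3
      rw [pow_succ, pow_two, h2, one_mul] at h3
      exact h3
    · have h1 : g⁻¹ * r = 1 :=
        hS (g⁻¹ * r) a b c hab (Ne.symm hca) (Ne.symm hcb)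
          (by rw [mul_smul, hra, inv_smul_eq_iff, hga])
          (by rw [mul_smul, hrb, inv_smul_eq_iff, hgb])
          (by rw [mul_smul, hrc, inv_smul_eq_iff, hgc])
      have hrg : r = g := by
        rw [inv_mul_eq_one] at h1
        exact h1.symm
      right
      rw [← hconj, hrg]
      exact hgconj

theorem s3t_emb {β : Type*} (x₁ x₂ x₃ : β) (h12 : x₁ ≠ x₂) (h13 : x₁ ≠ x₃) (h23 : x₂ ≠ x₃) :
    ∃ e : Fin 3 ↪ β, e 0 = x₁ ∧ e 1 = x₂ ∧ e 2 = x₃ := by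
  refine ⟨⟨![x₁, x₂, x₃], ?_⟩, rfl, rfl, rfl⟩
  intro i j h
  fin_cases i <;> fin_cases j <;> simp_all

theorem s3t_of_pretrans (h3 : MulAction.IsMultiplyPretransitive G α 3) :
    ∀ x₁ x₂ x₃ y₁ y₂ y₃ : α, x₁ ≠ x₂ → x₁ ≠ x₃ → x₂ ≠ x₃ → y₁ ≠ y₂ → y₁ ≠ y₃ → y₂ ≠ y₃ →
      ∃ g : G, g • x₁ = y₁ ∧ g • x₂ = y₂ ∧ g • x₃ = y₃ := by
  intro x₁ x₂ x₃ y₁ y₂ y₃ h12 h13 h23 k12 k13 k23
  obtain ⟨e, he0, he1, he2⟩ := s3t_emb x₁ x₂ x₃ h12 h13 h23
  obtain ⟨f, hf0, hf1, hf2⟩ := s3t_emb y₁ y₂ y₃ k12 k13 k23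
  obtain ⟨g, hg⟩ := MulAction.exists_smul_eq G e f
  refine ⟨g, ?_, ?_, ?_⟩
  · have h := congrArg (fun t : Fin 3 ↪ α => t 0) hg
    simp only [Function.Embedding.smul_apply] at h
    rw [he0, hf0] at h
    exact h
  · have h := congrArg (fun t : Fin 3 ↪ α => t 1) hg
    simp only [Function.Embedding.smul_apply] at h
    rw [he1, hf1] at h
    exact h
  · have h := congrArg (fun t : Fin 3 ↪ α => t 2) hg
    simp only [Function.Embedding.smul_apply] at h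
    rw [he2, hf2] at h
    exact h

theorem s3t_of_sharp (hsharp : ∀ x : Fin 3 ↪ α, MulAction.stabilizer G x = ⊥) :
    ∀ (g : G) (x₁ x₂ x₃ : α), x₁ ≠ x₂ → x₁ ≠ x₃ → x₂ ≠ x₃ →
      g • x₁ = x₁ → g • x₂ = x₂ → g • x₃ = x₃ → g = 1 := by
  intro g x₁ x₂ x₃ h12 h13 h23 h1 h2 h3
  obtain ⟨e, he0, he1, he2⟩ := s3t_emb x₁ x₂ x₃ h12 h13 h23
  have hmem : g ∈ MulAction.stabilizer G e := by
    rw [MulAction.mem_stabilizer_iff]
    ext i
    rw [Function.Embedding.smul_apply]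
    fin_cases i
    · show g • e 0 = e 0
      rw [he0, h1]
    · show g • e 1 = e 1
      rw [he1, h2]
    · show g • e 2 = e 2
      rw [he2, h3]
  rw [hsharp e] at hmem
  exact Subgroup.mem_bot.mp hmem

theorem s3t_final {α G : Type*} [Fintype α] [DecidableEq α] [Group G] [MulAction G α]
    (h6 : 6 ≤ Fintype.card α)
    (h3 : MulAction.IsMultiplyPretransitive G α 3)
    (hsharp : ∀ x : Fin 3 ↪ α, MulAction.stabilizer G x = ⊥) {a b : α} (hab : a ≠ b)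
    (A B : Subgroup G) (hA : A ≤ MulAction.stabilizer G a ⊓ MulAction.stabilizer G b)
    (hB : B ≤ MulAction.stabilizer G a ⊓ MulAction.stabilizer G b)
    (hA3 : Nat.card A = 3) (hB3 : Nat.card B = 3) : A = B := by
  have hT := s3t_of_pretrans h3
  have hS := s3t_of_sharp hsharp
  have hc : ∃ c : α, c ≠ a ∧ c ≠ b := by
    by_contra hcon
    push_neg at hcon
    have hsub : (Finset.univ : Finset α) ⊆ {a, b} := by
      intro x _
      by_cases hxa : x = a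
      · simp [hxa]
      · simp [hcon x hxa]
    have h1 := Finset.card_le_card hsub
    have h2 : ({a, b} : Finset α).card ≤ 2 := Finset.card_le_two
    rw [Finset.card_univ] at h1
    omega
  obtain ⟨c, hca, hcb⟩ := hc
  have hBne : B ≠ ⊥ := by
    intro h
    rw [h, Subgroup.card_bot] at hB3
    omega
  obtain ⟨⟨v, hvB⟩, hv1'⟩ := (Subgroup.ne_bot_iff_exists_ne_one).mp hBne
  have hv1 : v ≠ 1 := fun h => hv1' (Subtype.ext h)
  have hpow : ∀ (C : Subgroup G), Nat.card C = 3 → ∀ x ∈ C, x ^ 3 = 1 := by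
    intro C hC x hx
    have h : (⟨x, hx⟩ : C) ^ Nat.card C = 1 := pow_card_eq_one'
    rw [hC] at h
    have h' := congrArg (fun t : C => (t : G)) h
    simpa using h'
  have hv3 : v ^ 3 = 1 := hpow B hB3 v hvB
  have hva : v • a = a := MulAction.mem_stabilizer_iff.mp (hB hvB).1
  have hvb : v • b = b := MulAction.mem_stabilizer_iff.mp (hB hvB).2
  have hfinB : Finite B := Nat.finite_of_card_ne_zero (by rw [hB3]; norm_num)
  have hle : A ≤ B := by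
    intro x hx
    by_cases hx1 : x = 1
    · rw [hx1]; exact B.one_mem
    · have hx3 : x ^ 3 = 1 := hpow A hA3 x hx
      have hxa : x • a = a := MulAction.mem_stabilizer_iff.mp (hA hx).1
      have hxb : x • b = b := MulAction.mem_stabilizer_iff.mp (hA hx).2
      rcases s3t_main hT hS hab hca hcb v x hva hvb hxa hxb hv3 hv1 hx3 hx1 with h | h
      · rw [h]; exact hvB
      · rw [h]; exact B.inv_mem hvB
  exact Subgroup.eq_of_le_of_card_ge hle (by rw [hA3, hB3])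

end S3T

end Cfsg.Agent.Lib.Helper1
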