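import Mathlib

set_option autoImplicit false

namespace Cfsg.Agent.Lib.Helper1

theorem spo_cube_lt (p : ℕ) : p ^ 3 < 4 ^ p := by
  induction p with
  | zero => norm_num
  | succ k ih =>
    rcases Nat.lt_or_ge k 2 with h | h
    · interval_cases k <;> norm_num
    · obtain ⟨j, rfl⟩ : ∃ j, k = j + 2 := ⟨k - 2, by omega⟩
      have h1 : (j + 2 + 1) ^ 3 + (3 * j ^ 3 + 15 * j ^ 2 + 21 * j + 5) = 4 * (j + 2) ^ 3 := by ring
      have h2 : (j + 2 + 1) ^ 3 ≤ 4 * (j + 2) ^ 3 := by rw [← h1]; exact Nat.le_add_right _ _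
      calc (j + 2 + 1) ^ 3 ≤ 4 * (j + 2) ^ 3 := h2
        _ < 4 * 4 ^ (j + 2) := Nat.mul_lt_mul_of_pos_left ih (by norm_num)
        _ = 4 ^ (j + 2 + 1) := by rw [pow_succ]; ring

theorem spo_alt (n : ℕ) (hn : 5 ≤ n) (N : ℕ) (hN : 2 * N = n.factorial) (p : ℕ) (hp : p.Prime)
    (hodd : p ≠ 2) (h3 : N.factorization p = 3) : p ^ 3 < 2 ^ N.factorization 2 := by
  have hn0 : n ≠ 0 := by omega
  have hfact0 : n.factorial ≠ 0 := (Nat.factorial_pos n).ne'
  have hN0 : N ≠ 0 := by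
    rintro rfl
    rw [mul_zero] at hN
    exact hfact0 hN.symm
  have hf : (n.factorial).factorization = Finsupp.single 2 1 + N.factorization := by
    rw [← hN, Nat.factorization_mul (by norm_num) hN0, Nat.prime_two.factorization]
  have hfp : (n.factorial).factorization p = 3 := by
    rw [hf, Finsupp.add_apply, Finsupp.single_apply, if_neg (Ne.symm hodd), zero_add, h3]
  have hf2 : (n.factorial).factorization 2 = 1 + N.factorization 2 := by
    rw [hf, Finsupp.add_apply, Finsupp.single_apply, if_pos rfl]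
  have hleg := Nat.factorization_factorial hp (n := n) (b := Nat.log p n + 1) (Nat.lt_succ_self _)
  rw [hfp] at hleg
  have hlogpos : 1 ≤ Nat.log p n := by
    by_contra hcon
    have h0 : Nat.log p n = 0 := by omega
    rw [h0] at hleg
    simp at hleg
  have hdiv3 : n / p ≤ 3 := by
    have h1 : n / p ^ 1 ≤ ∑ i ∈ Finset.Ico 1 (Nat.log p n + 1), n / p ^ i :=
      Finset.single_le_sum (f := fun i => n / p ^ i) (fun i _ => Nat.zero_le _)
        (Finset.mem_Ico.mpr ⟨le_refl 1, by omega⟩)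
    rw [← hleg, pow_one] at h1
    exact h1
  have hn4p : n < 4 * p := (Nat.div_lt_iff_lt_mul hp.pos).mp (by omega)
  have hp5 : 5 ≤ p := by
    by_contra hcon
    push Not at hcon
    have hp2 := hp.two_le
    have hp3 : p = 3 := by
      interval_cases p
      · exact absurd rfl hodd
      · rfl
      · exact absurd hp (by norm_num)
    subst hp3
    have h33 : 3 ^ 3 ∣ n.factorial := (hp.pow_dvd_iff_le_factorization hfact0).mpr (by rw [hfp])
    have h34 : ¬ 3 ^ 4 ∣ n.factorial := fun h => by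
      have h5 := (hp.pow_dvd_iff_le_factorization hfact0).mp h
      omega
    have hn12 : n < 12 := hn4p
    interval_cases n <;> revert h33 h34 <;> decide
  have hnp2 : n < p ^ 2 := by
    have h1 : 4 * p ≤ p * p := Nat.mul_le_mul_right p (by omega)
    rw [pow_two]; omega
  have hleg2 := Nat.factorization_factorial hp (n := n) (b := 2) (Nat.log_lt_of_lt_pow hn0 hnp2)
  rw [hfp, Finset.sum_Ico_succ_top (le_refl 1), Finset.Ico_self, Finset.sum_empty, zero_add,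
    pow_one] at hleg2
  have h3p : 3 * p ≤ n := (Nat.le_div_iff_mul_le hp.pos).mp (by omega)
  have hn15 : 15 ≤ n := by omega
  have hlog3 : 3 ≤ Nat.log 2 n := (Nat.le_log_iff_pow_le (by norm_num) hn0).mpr (by omega)
  have hleg3 := Nat.factorization_factorial Nat.prime_two (n := n) (b := Nat.log 2 n + 1)
    (Nat.lt_succ_self _)
  have hsum : n / 2 + n / 4 + n / 8 ≤ ∑ i ∈ Finset.Ico 1 (Nat.log 2 n + 1), n / 2 ^ i := by
    have hsub : Finset.Ico 1 4 ⊆ Finset.Ico 1 (Nat.log 2 n + 1) :=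
      Finset.Ico_subset_Ico (le_refl 1) (by omega)
    have h1 := Finset.sum_le_sum_of_subset (f := fun i => n / 2 ^ i) hsub
    have h2 : ∑ i ∈ Finset.Ico 1 4, n / 2 ^ i = n / 2 + n / 4 + n / 8 := by
      simp [Finset.sum_Ico_eq_sum_range, Finset.sum_range_succ]
    rw [h2] at h1; exact h1
  rw [hleg3] at hf2
  have hE : 2 * p ≤ N.factorization 2 := by omega
  calc p ^ 3 < 4 ^ p := spo_cube_lt p
    _ = 2 ^ (2 * p) := by rw [show (4 : ℕ) = 2 ^ 2 by norm_num, ← pow_mul]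
    _ ≤ 2 ^ N.factorization 2 := Nat.pow_le_pow_right (by norm_num) hE

theorem spo_7920 (p : ℕ) (hp : p.Prime) (hodd : p ≠ 2)
    (h3 : (7920 : ℕ).factorization p = 3) : p ^ 3 < 2 ^ (7920 : ℕ).factorization 2 := by
  have hfac : (7920 : ℕ) = 2 ^ 4 * 3 ^ 2 * 5 ^ 1 * 11 ^ 1 := by norm_num
  have hk : 4 ≤ (7920 : ℕ).factorization 2 :=
    (Nat.prime_two.pow_dvd_iff_le_factorization (by norm_num)).mp (by norm_num)
  refine lt_of_lt_of_le ?_ (Nat.pow_le_pow_right (by norm_num) hk)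
  rw [hfac] at h3
  have q2 : Nat.Prime 2 := by norm_num
  have q3 : Nat.Prime 3 := by norm_num
  have q5 : Nat.Prime 5 := by norm_num
  have q11 : Nat.Prime 11 := by norm_num
  simp only [Nat.factorization_mul (show (2 ^ 4 * 3 ^ 2 * 5 ^ 1 : ℕ) ≠ 0 by positivity)
      (show (11 ^ 1 : ℕ) ≠ 0 by positivity),
    Nat.factorization_mul (show (2 ^ 4 * 3 ^ 2 : ℕ) ≠ 0 by positivity)
      (show (5 ^ 1 : ℕ) ≠ 0 by positivity),
    Nat.factorization_mul (show (2 ^ 4 : ℕ) ≠ 0 by positivity)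
      (show (3 ^ 2 : ℕ) ≠ 0 by positivity),
    Nat.factorization_pow, q2.factorization, q3.factorization, q5.factorization, q11.factorization,
    Finsupp.add_apply, Finsupp.smul_apply, Finsupp.single_apply, smul_eq_mul] at h3
  have hn2 : ¬ (2 = p) := fun h => hodd h.symm
  by_cases h_3 : p = 3
  · subst h_3; norm_num at h3
  have hn3 : ¬ (3 = p) := fun h => h_3 h.symm
  by_cases h_5 : p = 5
  · subst h_5; norm_num at h3
  have hn5 : ¬ (5 = p) := fun h => h_5 h.symm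
  by_cases h_11 : p = 11
  · subst h_11; norm_num at h3
  have hn11 : ¬ (11 = p) := fun h => h_11 h.symm
  exfalso
  simp [hn2, hn3, hn5, hn11] at h3

theorem spo_95040 (p : ℕ) (hp : p.Prime) (hodd : p ≠ 2)
    (h3 : (95040 : ℕ).factorization p = 3) : p ^ 3 < 2 ^ (95040 : ℕ).factorization 2 := by
  have hfac : (95040 : ℕ) = 2 ^ 6 * 3 ^ 3 * 5 ^ 1 * 11 ^ 1 := by norm_num
  have hk : 6 ≤ (95040 : ℕ).factorization 2 :=
    (Nat.prime_two.pow_dvd_iff_le_factorization (by norm_num)).mp (by norm_num)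
  refine lt_of_lt_of_le ?_ (Nat.pow_le_pow_right (by norm_num) hk)
  rw [hfac] at h3
  have q2 : Nat.Prime 2 := by norm_num
  have q3 : Nat.Prime 3 := by norm_num
  have q5 : Nat.Prime 5 := by norm_num
  have q11 : Nat.Prime 11 := by norm_num
  simp only [Nat.factorization_mul (show (2 ^ 6 * 3 ^ 3 * 5 ^ 1 : ℕ) ≠ 0 by positivity)
      (show (11 ^ 1 : ℕ) ≠ 0 by positivity),
    Nat.factorization_mul (show (2 ^ 6 * 3 ^ 3 : ℕ) ≠ 0 by positivity)
      (show (5 ^ 1 : ℕ) ≠ 0 by positivity),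
    Nat.factorization_mul (show (2 ^ 6 : ℕ) ≠ 0 by positivity)
      (show (3 ^ 3 : ℕ) ≠ 0 by positivity),
    Nat.factorization_pow, q2.factorization, q3.factorization, q5.factorization, q11.factorization,
    Finsupp.add_apply, Finsupp.smul_apply, Finsupp.single_apply, smul_eq_mul] at h3
  have hn2 : ¬ (2 = p) := fun h => hodd h.symm
  by_cases h_3 : p = 3
  · subst h_3; norm_num
  have hn3 : ¬ (3 = p) := fun h => h_3 h.symm
  by_cases h_5 : p = 5
  · subst h_5; norm_num at h3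
  have hn5 : ¬ (5 = p) := fun h => h_5 h.symm
  by_cases h_11 : p = 11
  · subst h_11; norm_num at h3
  have hn11 : ¬ (11 = p) := fun h => h_11 h.symm
  exfalso
  simp [hn2, hn3, hn5, hn11] at h3

theorem spo_443520 (p : ℕ) (hp : p.Prime) (hodd : p ≠ 2)
    (h3 : (443520 : ℕ).factorization p = 3) : p ^ 3 < 2 ^ (443520 : ℕ).factorization 2 := by
  have hfac : (443520 : ℕ) = 2 ^ 7 * 3 ^ 2 * 5 ^ 1 * 7 ^ 1 * 11 ^ 1 := by norm_num
  have hk : 7 ≤ (443520 : ℕ).factorization 2 :=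
    (Nat.prime_two.pow_dvd_iff_le_factorization (by norm_num)).mp (by norm_num)
  refine lt_of_lt_of_le ?_ (Nat.pow_le_pow_right (by norm_num) hk)
  rw [hfac] at h3
  have q2 : Nat.Prime 2 := by norm_num
  have q3 : Nat.Prime 3 := by norm_num
  have q5 : Nat.Prime 5 := by norm_num
  have q7 : Nat.Prime 7 := by norm_num
  have q11 : Nat.Prime 11 := by norm_num
  simp only [Nat.factorization_mul (show (2 ^ 7 * 3 ^ 2 * 5 ^ 1 * 7 ^ 1 : ℕ) ≠ 0 by positivity)
      (show (11 ^ 1 : ℕ) ≠ 0 by positivity),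
    Nat.factorization_mul (show (2 ^ 7 * 3 ^ 2 * 5 ^ 1 : ℕ) ≠ 0 by positivity)
      (show (7 ^ 1 : ℕ) ≠ 0 by positivity),
    Nat.factorization_mul (show (2 ^ 7 * 3 ^ 2 : ℕ) ≠ 0 by positivity)
      (show (5 ^ 1 : ℕ) ≠ 0 by positivity),
    Nat.factorization_mul (show (2 ^ 7 : ℕ) ≠ 0 by positivity)
      (show (3 ^ 2 : ℕ) ≠ 0 by positivity),
    Nat.factorization_pow, q2.factorization, q3.factorization, q5.factorization, q7.factorization, q11.factorization,
    Finsupp.add_apply, Finsupp.smul_apply, Finsupp.single_apply, smul_eq_mul] at h3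
  have hn2 : ¬ (2 = p) := fun h => hodd h.symm
  by_cases h_3 : p = 3
  · subst h_3; norm_num at h3
  have hn3 : ¬ (3 = p) := fun h => h_3 h.symm
  by_cases h_5 : p = 5
  · subst h_5; norm_num at h3
  have hn5 : ¬ (5 = p) := fun h => h_5 h.symm
  by_cases h_7 : p = 7
  · subst h_7; norm_num at h3
  have hn7 : ¬ (7 = p) := fun h => h_7 h.symm
  by_cases h_11 : p = 11
  · subst h_11; norm_num at h3
  have hn11 : ¬ (11 = p) := fun h => h_11 h.symm
  exfalso
  simp [hn2, hn3, hn5, hn7, hn11] at h3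

theorem spo_10200960 (p : ℕ) (hp : p.Prime) (hodd : p ≠ 2)
    (h3 : (10200960 : ℕ).factorization p = 3) : p ^ 3 < 2 ^ (10200960 : ℕ).factorization 2 := by
  have hfac : (10200960 : ℕ) = 2 ^ 7 * 3 ^ 2 * 5 ^ 1 * 7 ^ 1 * 11 ^ 1 * 23 ^ 1 := by norm_num
  have hk : 7 ≤ (10200960 : ℕ).factorization 2 :=
    (Nat.prime_two.pow_dvd_iff_le_factorization (by norm_num)).mp (by norm_num)
  refine lt_of_lt_of_le ?_ (Nat.pow_le_pow_right (by norm_num) hk)
  rw [hfac] at h3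
  have q2 : Nat.Prime 2 := by norm_num
  have q3 : Nat.Prime 3 := by norm_num
  have q5 : Nat.Prime 5 := by norm_num
  have q7 : Nat.Prime 7 := by norm_num
  have q11 : Nat.Prime 11 := by norm_num
  have q23 : Nat.Prime 23 := by norm_num
  simp only [Nat.factorization_mul (show (2 ^ 7 * 3 ^ 2 * 5 ^ 1 * 7 ^ 1 * 11 ^ 1 : ℕ) ≠ 0 by positivity)
      (show (23 ^ 1 : ℕ) ≠ 0 by positivity),
    Nat.factorization_mul (show (2 ^ 7 * 3 ^ 2 * 5 ^ 1 * 7 ^ 1 : ℕ) ≠ 0 by positivity)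
      (show (11 ^ 1 : ℕ) ≠ 0 by positivity),
    Nat.factorization_mul (show (2 ^ 7 * 3 ^ 2 * 5 ^ 1 : ℕ) ≠ 0 by positivity)
      (show (7 ^ 1 : ℕ) ≠ 0 by positivity),
    Nat.factorization_mul (show (2 ^ 7 * 3 ^ 2 : ℕ) ≠ 0 by positivity)
      (show (5 ^ 1 : ℕ) ≠ 0 by positivity),
    Nat.factorization_mul (show (2 ^ 7 : ℕ) ≠ 0 by positivity)
      (show (3 ^ 2 : ℕ) ≠ 0 by positivity),
    Nat.factorization_pow, q2.factorization, q3.factorization, q5.factorization, q7.factorization, q11.factorization, q23.factorization,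
    Finsupp.add_apply, Finsupp.smul_apply, Finsupp.single_apply, smul_eq_mul] at h3
  have hn2 : ¬ (2 = p) := fun h => hodd h.symm
  by_cases h_3 : p = 3
  · subst h_3; norm_num at h3
  have hn3 : ¬ (3 = p) := fun h => h_3 h.symm
  by_cases h_5 : p = 5
  · subst h_5; norm_num at h3
  have hn5 : ¬ (5 = p) := fun h => h_5 h.symm
  by_cases h_7 : p = 7
  · subst h_7; norm_num at h3
  have hn7 : ¬ (7 = p) := fun h => h_7 h.symm
  by_cases h_11 : p = 11
  · subst h_11; norm_num at h3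
  have hn11 : ¬ (11 = p) := fun h => h_11 h.symm
  by_cases h_23 : p = 23
  · subst h_23; norm_num at h3
  have hn23 : ¬ (23 = p) := fun h => h_23 h.symm
  exfalso
  simp [hn2, hn3, hn5, hn7, hn11, hn23] at h3

theorem spo_244823040 (p : ℕ) (hp : p.Prime) (hodd : p ≠ 2)
    (h3 : (244823040 : ℕ).factorization p = 3) : p ^ 3 < 2 ^ (244823040 : ℕ).factorization 2 := by
  have hfac : (244823040 : ℕ) = 2 ^ 10 * 3 ^ 3 * 5 ^ 1 * 7 ^ 1 * 11 ^ 1 * 23 ^ 1 := by norm_num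
  have hk : 10 ≤ (244823040 : ℕ).factorization 2 :=
    (Nat.prime_two.pow_dvd_iff_le_factorization (by norm_num)).mp (by norm_num)
  refine lt_of_lt_of_le ?_ (Nat.pow_le_pow_right (by norm_num) hk)
  rw [hfac] at h3
  have q2 : Nat.Prime 2 := by norm_num
  have q3 : Nat.Prime 3 := by norm_num
  have q5 : Nat.Prime 5 := by norm_num
  have q7 : Nat.Prime 7 := by norm_num
  have q11 : Nat.Prime 11 := by norm_num
  have q23 : Nat.Prime 23 := by norm_num
  simp only [Nat.factorization_mul (show (2 ^ 10 * 3 ^ 3 * 5 ^ 1 * 7 ^ 1 * 11 ^ 1 : ℕ) ≠ 0 by positivity)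
      (show (23 ^ 1 : ℕ) ≠ 0 by positivity),
    Nat.factorization_mul (show (2 ^ 10 * 3 ^ 3 * 5 ^ 1 * 7 ^ 1 : ℕ) ≠ 0 by positivity)
      (show (11 ^ 1 : ℕ) ≠ 0 by positivity),
    Nat.factorization_mul (show (2 ^ 10 * 3 ^ 3 * 5 ^ 1 : ℕ) ≠ 0 by positivity)
      (show (7 ^ 1 : ℕ) ≠ 0 by positivity),
    Nat.factorization_mul (show (2 ^ 10 * 3 ^ 3 : ℕ) ≠ 0 by positivity)
      (show (5 ^ 1 : ℕ) ≠ 0 by positivity),
    Nat.factorization_mul (show (2 ^ 10 : ℕ) ≠ 0 by positivity)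
      (show (3 ^ 3 : ℕ) ≠ 0 by positivity),
    Nat.factorization_pow, q2.factorization, q3.factorization, q5.factorization, q7.factorization, q11.factorization, q23.factorization,
    Finsupp.add_apply, Finsupp.smul_apply, Finsupp.single_apply, smul_eq_mul] at h3
  have hn2 : ¬ (2 = p) := fun h => hodd h.symm
  by_cases h_3 : p = 3
  · subst h_3; norm_num
  have hn3 : ¬ (3 = p) := fun h => h_3 h.symm
  by_cases h_5 : p = 5
  · subst h_5; norm_num at h3
  have hn5 : ¬ (5 = p) := fun h => h_5 h.symm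
  by_cases h_7 : p = 7
  · subst h_7; norm_num at h3
  have hn7 : ¬ (7 = p) := fun h => h_7 h.symm
  by_cases h_11 : p = 11
  · subst h_11; norm_num at h3
  have hn11 : ¬ (11 = p) := fun h => h_11 h.symm
  by_cases h_23 : p = 23
  · subst h_23; norm_num at h3
  have hn23 : ¬ (23 = p) := fun h => h_23 h.symm
  exfalso
  simp [hn2, hn3, hn5, hn7, hn11, hn23] at h3

theorem spo_175560 (p : ℕ) (hp : p.Prime) (hodd : p ≠ 2)
    (h3 : (175560 : ℕ).factorization p = 3) : p ^ 3 < 2 ^ (175560 : ℕ).factorization 2 := by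
  have hfac : (175560 : ℕ) = 2 ^ 3 * 3 ^ 1 * 5 ^ 1 * 7 ^ 1 * 11 ^ 1 * 19 ^ 1 := by norm_num
  have hk : 3 ≤ (175560 : ℕ).factorization 2 :=
    (Nat.prime_two.pow_dvd_iff_le_factorization (by norm_num)).mp (by norm_num)
  refine lt_of_lt_of_le ?_ (Nat.pow_le_pow_right (by norm_num) hk)
  rw [hfac] at h3
  have q2 : Nat.Prime 2 := by norm_num
  have q3 : Nat.Prime 3 := by norm_num
  have q5 : Nat.Prime 5 := by norm_num
  have q7 : Nat.Prime 7 := by norm_num
  have q11 : Nat.Prime 11 := by norm_num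
  have q19 : Nat.Prime 19 := by norm_num
  simp only [Nat.factorization_mul (show (2 ^ 3 * 3 ^ 1 * 5 ^ 1 * 7 ^ 1 * 11 ^ 1 : ℕ) ≠ 0 by positivity)
      (show (19 ^ 1 : ℕ) ≠ 0 by positivity),
    Nat.factorization_mul (show (2 ^ 3 * 3 ^ 1 * 5 ^ 1 * 7 ^ 1 : ℕ) ≠ 0 by positivity)
      (show (11 ^ 1 : ℕ) ≠ 0 by positivity),
    Nat.factorization_mul (show (2 ^ 3 * 3 ^ 1 * 5 ^ 1 : ℕ) ≠ 0 by positivity)
      (show (7 ^ 1 : ℕ) ≠ 0 by positivity),
    Nat.factorization_mul (show (2 ^ 3 * 3 ^ 1 : ℕ) ≠ 0 by positivity)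
      (show (5 ^ 1 : ℕ) ≠ 0 by positivity),
    Nat.factorization_mul (show (2 ^ 3 : ℕ) ≠ 0 by positivity)
      (show (3 ^ 1 : ℕ) ≠ 0 by positivity),
    Nat.factorization_pow, q2.factorization, q3.factorization, q5.factorization, q7.factorization, q11.factorization, q19.factorization,
    Finsupp.add_apply, Finsupp.smul_apply, Finsupp.single_apply, smul_eq_mul] at h3
  have hn2 : ¬ (2 = p) := fun h => hodd h.symm
  by_cases h_3 : p = 3
  · subst h_3; norm_num at h3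
  have hn3 : ¬ (3 = p) := fun h => h_3 h.symm
  by_cases h_5 : p = 5
  · subst h_5; norm_num at h3
  have hn5 : ¬ (5 = p) := fun h => h_5 h.symm
  by_cases h_7 : p = 7
  · subst h_7; norm_num at h3
  have hn7 : ¬ (7 = p) := fun h => h_7 h.symm
  by_cases h_11 : p = 11
  · subst h_11; norm_num at h3
  have hn11 : ¬ (11 = p) := fun h => h_11 h.symm
  by_cases h_19 : p = 19
  · subst h_19; norm_num at h3
  have hn19 : ¬ (19 = p) := fun h => h_19 h.symm
  exfalso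
  simp [hn2, hn3, hn5, hn7, hn11, hn19] at h3

theorem spo_604800 (p : ℕ) (hp : p.Prime) (hodd : p ≠ 2)
    (h3 : (604800 : ℕ).factorization p = 3) : p ^ 3 < 2 ^ (604800 : ℕ).factorization 2 := by
  have hfac : (604800 : ℕ) = 2 ^ 7 * 3 ^ 3 * 5 ^ 2 * 7 ^ 1 := by norm_num
  have hk : 7 ≤ (604800 : ℕ).factorization 2 :=
    (Nat.prime_two.pow_dvd_iff_le_factorization (by norm_num)).mp (by norm_num)
  refine lt_of_lt_of_le ?_ (Nat.pow_le_pow_right (by norm_num) hk)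
  rw [hfac] at h3
  have q2 : Nat.Prime 2 := by norm_num
  have q3 : Nat.Prime 3 := by norm_num
  have q5 : Nat.Prime 5 := by norm_num
  have q7 : Nat.Prime 7 := by norm_num
  simp only [Nat.factorization_mul (show (2 ^ 7 * 3 ^ 3 * 5 ^ 2 : ℕ) ≠ 0 by positivity)
      (show (7 ^ 1 : ℕ) ≠ 0 by positivity),
    Nat.factorization_mul (show (2 ^ 7 * 3 ^ 3 : ℕ) ≠ 0 by positivity)
      (show (5 ^ 2 : ℕ) ≠ 0 by positivity),
    Nat.factorization_mul (show (2 ^ 7 : ℕ) ≠ 0 by positivity)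
      (show (3 ^ 3 : ℕ) ≠ 0 by positivity),
    Nat.factorization_pow, q2.factorization, q3.factorization, q5.factorization, q7.factorization,
    Finsupp.add_apply, Finsupp.smul_apply, Finsupp.single_apply, smul_eq_mul] at h3
  have hn2 : ¬ (2 = p) := fun h => hodd h.symm
  by_cases h_3 : p = 3
  · subst h_3; norm_num
  have hn3 : ¬ (3 = p) := fun h => h_3 h.symm
  by_cases h_5 : p = 5
  · subst h_5; norm_num at h3
  have hn5 : ¬ (5 = p) := fun h => h_5 h.symm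
  by_cases h_7 : p = 7
  · subst h_7; norm_num at h3
  have hn7 : ¬ (7 = p) := fun h => h_7 h.symm
  exfalso
  simp [hn2, hn3, hn5, hn7] at h3

theorem spo_50232960 (p : ℕ) (hp : p.Prime) (hodd : p ≠ 2)
    (h3 : (50232960 : ℕ).factorization p = 3) : p ^ 3 < 2 ^ (50232960 : ℕ).factorization 2 := by
  have hfac : (50232960 : ℕ) = 2 ^ 7 * 3 ^ 5 * 5 ^ 1 * 17 ^ 1 * 19 ^ 1 := by norm_num
  have hk : 7 ≤ (50232960 : ℕ).factorization 2 :=
    (Nat.prime_two.pow_dvd_iff_le_factorization (by norm_num)).mp (by norm_num)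
  refine lt_of_lt_of_le ?_ (Nat.pow_le_pow_right (by norm_num) hk)
  rw [hfac] at h3
  have q2 : Nat.Prime 2 := by norm_num
  have q3 : Nat.Prime 3 := by norm_num
  have q5 : Nat.Prime 5 := by norm_num
  have q17 : Nat.Prime 17 := by norm_num
  have q19 : Nat.Prime 19 := by norm_num
  simp only [Nat.factorization_mul (show (2 ^ 7 * 3 ^ 5 * 5 ^ 1 * 17 ^ 1 : ℕ) ≠ 0 by positivity)
      (show (19 ^ 1 : ℕ) ≠ 0 by positivity),
    Nat.factorization_mul (show (2 ^ 7 * 3 ^ 5 * 5 ^ 1 : ℕ) ≠ 0 by positivity)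
      (show (17 ^ 1 : ℕ) ≠ 0 by positivity),
    Nat.factorization_mul (show (2 ^ 7 * 3 ^ 5 : ℕ) ≠ 0 by positivity)
      (show (5 ^ 1 : ℕ) ≠ 0 by positivity),
    Nat.factorization_mul (show (2 ^ 7 : ℕ) ≠ 0 by positivity)
      (show (3 ^ 5 : ℕ) ≠ 0 by positivity),
    Nat.factorization_pow, q2.factorization, q3.factorization, q5.factorization, q17.factorization, q19.factorization,
    Finsupp.add_apply, Finsupp.smul_apply, Finsupp.single_apply, smul_eq_mul] at h3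
  have hn2 : ¬ (2 = p) := fun h => hodd h.symm
  by_cases h_3 : p = 3
  · subst h_3; norm_num at h3
  have hn3 : ¬ (3 = p) := fun h => h_3 h.symm
  by_cases h_5 : p = 5
  · subst h_5; norm_num at h3
  have hn5 : ¬ (5 = p) := fun h => h_5 h.symm
  by_cases h_17 : p = 17
  · subst h_17; norm_num at h3
  have hn17 : ¬ (17 = p) := fun h => h_17 h.symm
  by_cases h_19 : p = 19
  · subst h_19; norm_num at h3
  have hn19 : ¬ (19 = p) := fun h => h_19 h.symm
  exfalso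
  simp [hn2, hn3, hn5, hn17, hn19] at h3

theorem spo_86775571046077562880 (p : ℕ) (hp : p.Prime) (hodd : p ≠ 2)
    (h3 : (86775571046077562880 : ℕ).factorization p = 3) : p ^ 3 < 2 ^ (86775571046077562880 : ℕ).factorization 2 := by
  have hfac : (86775571046077562880 : ℕ) = 2 ^ 21 * 3 ^ 3 * 5 ^ 1 * 7 ^ 1 * 11 ^ 3 * 23 ^ 1 * 29 ^ 1 * 31 ^ 1 * 37 ^ 1 * 43 ^ 1 := by norm_num
  have hk : 21 ≤ (86775571046077562880 : ℕ).factorization 2 :=
    (Nat.prime_two.pow_dvd_iff_le_factorization (by norm_num)).mp (by norm_num)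
  refine lt_of_lt_of_le ?_ (Nat.pow_le_pow_right (by norm_num) hk)
  rw [hfac] at h3
  have q2 : Nat.Prime 2 := by norm_num
  have q3 : Nat.Prime 3 := by norm_num
  have q5 : Nat.Prime 5 := by norm_num
  have q7 : Nat.Prime 7 := by norm_num
  have q11 : Nat.Prime 11 := by norm_num
  have q23 : Nat.Prime 23 := by norm_num
  have q29 : Nat.Prime 29 := by norm_num
  have q31 : Nat.Prime 31 := by norm_num
  have q37 : Nat.Prime 37 := by norm_num
  have q43 : Nat.Prime 43 := by norm_num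
  simp only [Nat.factorization_mul (show (2 ^ 21 * 3 ^ 3 * 5 ^ 1 * 7 ^ 1 * 11 ^ 3 * 23 ^ 1 * 29 ^ 1 * 31 ^ 1 * 37 ^ 1 : ℕ) ≠ 0 by positivity)
      (show (43 ^ 1 : ℕ) ≠ 0 by positivity),
    Nat.factorization_mul (show (2 ^ 21 * 3 ^ 3 * 5 ^ 1 * 7 ^ 1 * 11 ^ 3 * 23 ^ 1 * 29 ^ 1 * 31 ^ 1 : ℕ) ≠ 0 by positivity)
      (show (37 ^ 1 : ℕ) ≠ 0 by positivity),
    Nat.factorization_mul (show (2 ^ 21 * 3 ^ 3 * 5 ^ 1 * 7 ^ 1 * 11 ^ 3 * 23 ^ 1 * 29 ^ 1 : ℕ) ≠ 0 by positivity)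
      (show (31 ^ 1 : ℕ) ≠ 0 by positivity),
    Nat.factorization_mul (show (2 ^ 21 * 3 ^ 3 * 5 ^ 1 * 7 ^ 1 * 11 ^ 3 * 23 ^ 1 : ℕ) ≠ 0 by positivity)
      (show (29 ^ 1 : ℕ) ≠ 0 by positivity),
    Nat.factorization_mul (show (2 ^ 21 * 3 ^ 3 * 5 ^ 1 * 7 ^ 1 * 11 ^ 3 : ℕ) ≠ 0 by positivity)
      (show (23 ^ 1 : ℕ) ≠ 0 by positivity),
    Nat.factorization_mul (show (2 ^ 21 * 3 ^ 3 * 5 ^ 1 * 7 ^ 1 : ℕ) ≠ 0 by positivity)
      (show (11 ^ 3 : ℕ) ≠ 0 by positivity),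
    Nat.factorization_mul (show (2 ^ 21 * 3 ^ 3 * 5 ^ 1 : ℕ) ≠ 0 by positivity)
      (show (7 ^ 1 : ℕ) ≠ 0 by positivity),
    Nat.factorization_mul (show (2 ^ 21 * 3 ^ 3 : ℕ) ≠ 0 by positivity)
      (show (5 ^ 1 : ℕ) ≠ 0 by positivity),
    Nat.factorization_mul (show (2 ^ 21 : ℕ) ≠ 0 by positivity)
      (show (3 ^ 3 : ℕ) ≠ 0 by positivity),
    Nat.factorization_pow, q2.factorization, q3.factorization, q5.factorization, q7.factorization, q11.factorization, q23.factorization, q29.factorization, q31.factorization, q37.factorization, q43.factorization,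
    Finsupp.add_apply, Finsupp.smul_apply, Finsupp.single_apply, smul_eq_mul] at h3
  have hn2 : ¬ (2 = p) := fun h => hodd h.symm
  by_cases h_3 : p = 3
  · subst h_3; norm_num
  have hn3 : ¬ (3 = p) := fun h => h_3 h.symm
  by_cases h_5 : p = 5
  · subst h_5; norm_num at h3
  have hn5 : ¬ (5 = p) := fun h => h_5 h.symm
  by_cases h_7 : p = 7
  · subst h_7; norm_num at h3
  have hn7 : ¬ (7 = p) := fun h => h_7 h.symm
  by_cases h_11 : p = 11
  · subst h_11; norm_num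
  have hn11 : ¬ (11 = p) := fun h => h_11 h.symm
  by_cases h_23 : p = 23
  · subst h_23; norm_num at h3
  have hn23 : ¬ (23 = p) := fun h => h_23 h.symm
  by_cases h_29 : p = 29
  · subst h_29; norm_num at h3
  have hn29 : ¬ (29 = p) := fun h => h_29 h.symm
  by_cases h_31 : p = 31
  · subst h_31; norm_num at h3
  have hn31 : ¬ (31 = p) := fun h => h_31 h.symm
  by_cases h_37 : p = 37
  · subst h_37; norm_num at h3
  have hn37 : ¬ (37 = p) := fun h => h_37 h.symm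
  by_cases h_43 : p = 43
  · subst h_43; norm_num at h3
  have hn43 : ¬ (43 = p) := fun h => h_43 h.symm
  exfalso
  simp [hn2, hn3, hn5, hn7, hn11, hn23, hn29, hn31, hn37, hn43] at h3

theorem spo_4157776806543360000 (p : ℕ) (hp : p.Prime) (hodd : p ≠ 2)
    (h3 : (4157776806543360000 : ℕ).factorization p = 3) : p ^ 3 < 2 ^ (4157776806543360000 : ℕ).factorization 2 := by
  have hfac : (4157776806543360000 : ℕ) = 2 ^ 21 * 3 ^ 9 * 5 ^ 4 * 7 ^ 2 * 11 ^ 1 * 13 ^ 1 * 23 ^ 1 := by norm_num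
  have hk : 21 ≤ (4157776806543360000 : ℕ).factorization 2 :=
    (Nat.prime_two.pow_dvd_iff_le_factorization (by norm_num)).mp (by norm_num)
  refine lt_of_lt_of_le ?_ (Nat.pow_le_pow_right (by norm_num) hk)
  rw [hfac] at h3
  have q2 : Nat.Prime 2 := by norm_num
  have q3 : Nat.Prime 3 := by norm_num
  have q5 : Nat.Prime 5 := by norm_num
  have q7 : Nat.Prime 7 := by norm_num
  have q11 : Nat.Prime 11 := by norm_num
  have q13 : Nat.Prime 13 := by norm_num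
  have q23 : Nat.Prime 23 := by norm_num
  simp only [Nat.factorization_mul (show (2 ^ 21 * 3 ^ 9 * 5 ^ 4 * 7 ^ 2 * 11 ^ 1 * 13 ^ 1 : ℕ) ≠ 0 by positivity)
      (show (23 ^ 1 : ℕ) ≠ 0 by positivity),
    Nat.factorization_mul (show (2 ^ 21 * 3 ^ 9 * 5 ^ 4 * 7 ^ 2 * 11 ^ 1 : ℕ) ≠ 0 by positivity)
      (show (13 ^ 1 : ℕ) ≠ 0 by positivity),
    Nat.factorization_mul (show (2 ^ 21 * 3 ^ 9 * 5 ^ 4 * 7 ^ 2 : ℕ) ≠ 0 by positivity)
      (show (11 ^ 1 : ℕ) ≠ 0 by positivity),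
    Nat.factorization_mul (show (2 ^ 21 * 3 ^ 9 * 5 ^ 4 : ℕ) ≠ 0 by positivity)
      (show (7 ^ 2 : ℕ) ≠ 0 by positivity),
    Nat.factorization_mul (show (2 ^ 21 * 3 ^ 9 : ℕ) ≠ 0 by positivity)
      (show (5 ^ 4 : ℕ) ≠ 0 by positivity),
    Nat.factorization_mul (show (2 ^ 21 : ℕ) ≠ 0 by positivity)
      (show (3 ^ 9 : ℕ) ≠ 0 by positivity),
    Nat.factorization_pow, q2.factorization, q3.factorization, q5.factorization, q7.factorization, q11.factorization, q13.factorization, q23.factorization,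
    Finsupp.add_apply, Finsupp.smul_apply, Finsupp.single_apply, smul_eq_mul] at h3
  have hn2 : ¬ (2 = p) := fun h => hodd h.symm
  by_cases h_3 : p = 3
  · subst h_3; norm_num at h3
  have hn3 : ¬ (3 = p) := fun h => h_3 h.symm
  by_cases h_5 : p = 5
  · subst h_5; norm_num at h3
  have hn5 : ¬ (5 = p) := fun h => h_5 h.symm
  by_cases h_7 : p = 7
  · subst h_7; norm_num at h3
  have hn7 : ¬ (7 = p) := fun h => h_7 h.symm
  by_cases h_11 : p = 11
  · subst h_11; norm_num at h3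
  have hn11 : ¬ (11 = p) := fun h => h_11 h.symm
  by_cases h_13 : p = 13
  · subst h_13; norm_num at h3
  have hn13 : ¬ (13 = p) := fun h => h_13 h.symm
  by_cases h_23 : p = 23
  · subst h_23; norm_num at h3
  have hn23 : ¬ (23 = p) := fun h => h_23 h.symm
  exfalso
  simp [hn2, hn3, hn5, hn7, hn11, hn13, hn23] at h3

theorem spo_42305421312000 (p : ℕ) (hp : p.Prime) (hodd : p ≠ 2)
    (h3 : (42305421312000 : ℕ).factorization p = 3) : p ^ 3 < 2 ^ (42305421312000 : ℕ).factorization 2 := by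
  have hfac : (42305421312000 : ℕ) = 2 ^ 18 * 3 ^ 6 * 5 ^ 3 * 7 ^ 1 * 11 ^ 1 * 23 ^ 1 := by norm_num
  have hk : 18 ≤ (42305421312000 : ℕ).factorization 2 :=
    (Nat.prime_two.pow_dvd_iff_le_factorization (by norm_num)).mp (by norm_num)
  refine lt_of_lt_of_le ?_ (Nat.pow_le_pow_right (by norm_num) hk)
  rw [hfac] at h3
  have q2 : Nat.Prime 2 := by norm_num
  have q3 : Nat.Prime 3 := by norm_num
  have q5 : Nat.Prime 5 := by norm_num
  have q7 : Nat.Prime 7 := by norm_num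
  have q11 : Nat.Prime 11 := by norm_num
  have q23 : Nat.Prime 23 := by norm_num
  simp only [Nat.factorization_mul (show (2 ^ 18 * 3 ^ 6 * 5 ^ 3 * 7 ^ 1 * 11 ^ 1 : ℕ) ≠ 0 by positivity)
      (show (23 ^ 1 : ℕ) ≠ 0 by positivity),
    Nat.factorization_mul (show (2 ^ 18 * 3 ^ 6 * 5 ^ 3 * 7 ^ 1 : ℕ) ≠ 0 by positivity)
      (show (11 ^ 1 : ℕ) ≠ 0 by positivity),
    Nat.factorization_mul (show (2 ^ 18 * 3 ^ 6 * 5 ^ 3 : ℕ) ≠ 0 by positivity)
      (show (7 ^ 1 : ℕ) ≠ 0 by positivity),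
    Nat.factorization_mul (show (2 ^ 18 * 3 ^ 6 : ℕ) ≠ 0 by positivity)
      (show (5 ^ 3 : ℕ) ≠ 0 by positivity),
    Nat.factorization_mul (show (2 ^ 18 : ℕ) ≠ 0 by positivity)
      (show (3 ^ 6 : ℕ) ≠ 0 by positivity),
    Nat.factorization_pow, q2.factorization, q3.factorization, q5.factorization, q7.factorization, q11.factorization, q23.factorization,
    Finsupp.add_apply, Finsupp.smul_apply, Finsupp.single_apply, smul_eq_mul] at h3
  have hn2 : ¬ (2 = p) := fun h => hodd h.symm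
  by_cases h_3 : p = 3
  · subst h_3; norm_num at h3
  have hn3 : ¬ (3 = p) := fun h => h_3 h.symm
  by_cases h_5 : p = 5
  · subst h_5; norm_num
  have hn5 : ¬ (5 = p) := fun h => h_5 h.symm
  by_cases h_7 : p = 7
  · subst h_7; norm_num at h3
  have hn7 : ¬ (7 = p) := fun h => h_7 h.symm
  by_cases h_11 : p = 11
  · subst h_11; norm_num at h3
  have hn11 : ¬ (11 = p) := fun h => h_11 h.symm
  by_cases h_23 : p = 23
  · subst h_23; norm_num at h3
  have hn23 : ¬ (23 = p) := fun h => h_23 h.symm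
  exfalso
  simp [hn2, hn3, hn5, hn7, hn11, hn23] at h3

theorem spo_495766656000 (p : ℕ) (hp : p.Prime) (hodd : p ≠ 2)
    (h3 : (495766656000 : ℕ).factorization p = 3) : p ^ 3 < 2 ^ (495766656000 : ℕ).factorization 2 := by
  have hfac : (495766656000 : ℕ) = 2 ^ 10 * 3 ^ 7 * 5 ^ 3 * 7 ^ 1 * 11 ^ 1 * 23 ^ 1 := by norm_num
  have hk : 10 ≤ (495766656000 : ℕ).factorization 2 :=
    (Nat.prime_two.pow_dvd_iff_le_factorization (by norm_num)).mp (by norm_num)
  refine lt_of_lt_of_le ?_ (Nat.pow_le_pow_right (by norm_num) hk)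
  rw [hfac] at h3
  have q2 : Nat.Prime 2 := by norm_num
  have q3 : Nat.Prime 3 := by norm_num
  have q5 : Nat.Prime 5 := by norm_num
  have q7 : Nat.Prime 7 := by norm_num
  have q11 : Nat.Prime 11 := by norm_num
  have q23 : Nat.Prime 23 := by norm_num
  simp only [Nat.factorization_mul (show (2 ^ 10 * 3 ^ 7 * 5 ^ 3 * 7 ^ 1 * 11 ^ 1 : ℕ) ≠ 0 by positivity)
      (show (23 ^ 1 : ℕ) ≠ 0 by positivity),
    Nat.factorization_mul (show (2 ^ 10 * 3 ^ 7 * 5 ^ 3 * 7 ^ 1 : ℕ) ≠ 0 by positivity)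
      (show (11 ^ 1 : ℕ) ≠ 0 by positivity),
    Nat.factorization_mul (show (2 ^ 10 * 3 ^ 7 * 5 ^ 3 : ℕ) ≠ 0 by positivity)
      (show (7 ^ 1 : ℕ) ≠ 0 by positivity),
    Nat.factorization_mul (show (2 ^ 10 * 3 ^ 7 : ℕ) ≠ 0 by positivity)
      (show (5 ^ 3 : ℕ) ≠ 0 by positivity),
    Nat.factorization_mul (show (2 ^ 10 : ℕ) ≠ 0 by positivity)
      (show (3 ^ 7 : ℕ) ≠ 0 by positivity),
    Nat.factorization_pow, q2.factorization, q3.factorization, q5.factorization, q7.factorization, q11.factorization, q23.factorization,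
    Finsupp.add_apply, Finsupp.smul_apply, Finsupp.single_apply, smul_eq_mul] at h3
  have hn2 : ¬ (2 = p) := fun h => hodd h.symm
  by_cases h_3 : p = 3
  · subst h_3; norm_num at h3
  have hn3 : ¬ (3 = p) := fun h => h_3 h.symm
  by_cases h_5 : p = 5
  · subst h_5; norm_num
  have hn5 : ¬ (5 = p) := fun h => h_5 h.symm
  by_cases h_7 : p = 7
  · subst h_7; norm_num at h3
  have hn7 : ¬ (7 = p) := fun h => h_7 h.symm
  by_cases h_11 : p = 11
  · subst h_11; norm_num at h3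
  have hn11 : ¬ (11 = p) := fun h => h_11 h.symm
  by_cases h_23 : p = 23
  · subst h_23; norm_num at h3
  have hn23 : ¬ (23 = p) := fun h => h_23 h.symm
  exfalso
  simp [hn2, hn3, hn5, hn7, hn11, hn23] at h3

theorem spo_64561751654400 (p : ℕ) (hp : p.Prime) (hodd : p ≠ 2)
    (h3 : (64561751654400 : ℕ).factorization p = 3) : p ^ 3 < 2 ^ (64561751654400 : ℕ).factorization 2 := by
  have hfac : (64561751654400 : ℕ) = 2 ^ 17 * 3 ^ 9 * 5 ^ 2 * 7 ^ 1 * 11 ^ 1 * 13 ^ 1 := by norm_num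
  have hk : 17 ≤ (64561751654400 : ℕ).factorization 2 :=
    (Nat.prime_two.pow_dvd_iff_le_factorization (by norm_num)).mp (by norm_num)
  refine lt_of_lt_of_le ?_ (Nat.pow_le_pow_right (by norm_num) hk)
  rw [hfac] at h3
  have q2 : Nat.Prime 2 := by norm_num
  have q3 : Nat.Prime 3 := by norm_num
  have q5 : Nat.Prime 5 := by norm_num
  have q7 : Nat.Prime 7 := by norm_num
  have q11 : Nat.Prime 11 := by norm_num
  have q13 : Nat.Prime 13 := by norm_num
  simp only [Nat.factorization_mul (show (2 ^ 17 * 3 ^ 9 * 5 ^ 2 * 7 ^ 1 * 11 ^ 1 : ℕ) ≠ 0 by positivity)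
      (show (13 ^ 1 : ℕ) ≠ 0 by positivity),
    Nat.factorization_mul (show (2 ^ 17 * 3 ^ 9 * 5 ^ 2 * 7 ^ 1 : ℕ) ≠ 0 by positivity)
      (show (11 ^ 1 : ℕ) ≠ 0 by positivity),
    Nat.factorization_mul (show (2 ^ 17 * 3 ^ 9 * 5 ^ 2 : ℕ) ≠ 0 by positivity)
      (show (7 ^ 1 : ℕ) ≠ 0 by positivity),
    Nat.factorization_mul (show (2 ^ 17 * 3 ^ 9 : ℕ) ≠ 0 by positivity)
      (show (5 ^ 2 : ℕ) ≠ 0 by positivity),
    Nat.factorization_mul (show (2 ^ 17 : ℕ) ≠ 0 by positivity)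
      (show (3 ^ 9 : ℕ) ≠ 0 by positivity),
    Nat.factorization_pow, q2.factorization, q3.factorization, q5.factorization, q7.factorization, q11.factorization, q13.factorization,
    Finsupp.add_apply, Finsupp.smul_apply, Finsupp.single_apply, smul_eq_mul] at h3
  have hn2 : ¬ (2 = p) := fun h => hodd h.symm
  by_cases h_3 : p = 3
  · subst h_3; norm_num at h3
  have hn3 : ¬ (3 = p) := fun h => h_3 h.symm
  by_cases h_5 : p = 5
  · subst h_5; norm_num at h3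
  have hn5 : ¬ (5 = p) := fun h => h_5 h.symm
  by_cases h_7 : p = 7
  · subst h_7; norm_num at h3
  have hn7 : ¬ (7 = p) := fun h => h_7 h.symm
  by_cases h_11 : p = 11
  · subst h_11; norm_num at h3
  have hn11 : ¬ (11 = p) := fun h => h_11 h.symm
  by_cases h_13 : p = 13
  · subst h_13; norm_num at h3
  have hn13 : ¬ (13 = p) := fun h => h_13 h.symm
  exfalso
  simp [hn2, hn3, hn5, hn7, hn11, hn13] at h3

theorem spo_4089470473293004800 (p : ℕ) (hp : p.Prime) (hodd : p ≠ 2)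
    (h3 : (4089470473293004800 : ℕ).factorization p = 3) : p ^ 3 < 2 ^ (4089470473293004800 : ℕ).factorization 2 := by
  have hfac : (4089470473293004800 : ℕ) = 2 ^ 18 * 3 ^ 13 * 5 ^ 2 * 7 ^ 1 * 11 ^ 1 * 13 ^ 1 * 17 ^ 1 * 23 ^ 1 := by norm_num
  have hk : 18 ≤ (4089470473293004800 : ℕ).factorization 2 :=
    (Nat.prime_two.pow_dvd_iff_le_factorization (by norm_num)).mp (by norm_num)
  refine lt_of_lt_of_le ?_ (Nat.pow_le_pow_right (by norm_num) hk)
  rw [hfac] at h3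
  have q2 : Nat.Prime 2 := by norm_num
  have q3 : Nat.Prime 3 := by norm_num
  have q5 : Nat.Prime 5 := by norm_num
  have q7 : Nat.Prime 7 := by norm_num
  have q11 : Nat.Prime 11 := by norm_num
  have q13 : Nat.Prime 13 := by norm_num
  have q17 : Nat.Prime 17 := by norm_num
  have q23 : Nat.Prime 23 := by norm_num
  simp only [Nat.factorization_mul (show (2 ^ 18 * 3 ^ 13 * 5 ^ 2 * 7 ^ 1 * 11 ^ 1 * 13 ^ 1 * 17 ^ 1 : ℕ) ≠ 0 by positivity)
      (show (23 ^ 1 : ℕ) ≠ 0 by positivity),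
    Nat.factorization_mul (show (2 ^ 18 * 3 ^ 13 * 5 ^ 2 * 7 ^ 1 * 11 ^ 1 * 13 ^ 1 : ℕ) ≠ 0 by positivity)
      (show (17 ^ 1 : ℕ) ≠ 0 by positivity),
    Nat.factorization_mul (show (2 ^ 18 * 3 ^ 13 * 5 ^ 2 * 7 ^ 1 * 11 ^ 1 : ℕ) ≠ 0 by positivity)
      (show (13 ^ 1 : ℕ) ≠ 0 by positivity),
    Nat.factorization_mul (show (2 ^ 18 * 3 ^ 13 * 5 ^ 2 * 7 ^ 1 : ℕ) ≠ 0 by positivity)
      (show (11 ^ 1 : ℕ) ≠ 0 by positivity),
    Nat.factorization_mul (show (2 ^ 18 * 3 ^ 13 * 5 ^ 2 : ℕ) ≠ 0 by positivity)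
      (show (7 ^ 1 : ℕ) ≠ 0 by positivity),
    Nat.factorization_mul (show (2 ^ 18 * 3 ^ 13 : ℕ) ≠ 0 by positivity)
      (show (5 ^ 2 : ℕ) ≠ 0 by positivity),
    Nat.factorization_mul (show (2 ^ 18 : ℕ) ≠ 0 by positivity)
      (show (3 ^ 13 : ℕ) ≠ 0 by positivity),
    Nat.factorization_pow, q2.factorization, q3.factorization, q5.factorization, q7.factorization, q11.factorization, q13.factorization, q17.factorization, q23.factorization,
    Finsupp.add_apply, Finsupp.smul_apply, Finsupp.single_apply, smul_eq_mul] at h3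
  have hn2 : ¬ (2 = p) := fun h => hodd h.symm
  by_cases h_3 : p = 3
  · subst h_3; norm_num at h3
  have hn3 : ¬ (3 = p) := fun h => h_3 h.symm
  by_cases h_5 : p = 5
  · subst h_5; norm_num at h3
  have hn5 : ¬ (5 = p) := fun h => h_5 h.symm
  by_cases h_7 : p = 7
  · subst h_7; norm_num at h3
  have hn7 : ¬ (7 = p) := fun h => h_7 h.symm
  by_cases h_11 : p = 11
  · subst h_11; norm_num at h3
  have hn11 : ¬ (11 = p) := fun h => h_11 h.symm
  by_cases h_13 : p = 13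
  · subst h_13; norm_num at h3
  have hn13 : ¬ (13 = p) := fun h => h_13 h.symm
  by_cases h_17 : p = 17
  · subst h_17; norm_num at h3
  have hn17 : ¬ (17 = p) := fun h => h_17 h.symm
  by_cases h_23 : p = 23
  · subst h_23; norm_num at h3
  have hn23 : ¬ (23 = p) := fun h => h_23 h.symm
  exfalso
  simp [hn2, hn3, hn5, hn7, hn11, hn13, hn17, hn23] at h3

theorem spo_1255205709190661721292800 (p : ℕ) (hp : p.Prime) (hodd : p ≠ 2)
    (h3 : (1255205709190661721292800 : ℕ).factorization p = 3) : p ^ 3 < 2 ^ (1255205709190661721292800 : ℕ).factorization 2 := by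
  have hfac : (1255205709190661721292800 : ℕ) = 2 ^ 21 * 3 ^ 16 * 5 ^ 2 * 7 ^ 3 * 11 ^ 1 * 13 ^ 1 * 17 ^ 1 * 23 ^ 1 * 29 ^ 1 := by norm_num
  have hk : 21 ≤ (1255205709190661721292800 : ℕ).factorization 2 :=
    (Nat.prime_two.pow_dvd_iff_le_factorization (by norm_num)).mp (by norm_num)
  refine lt_of_lt_of_le ?_ (Nat.pow_le_pow_right (by norm_num) hk)
  rw [hfac] at h3
  have q2 : Nat.Prime 2 := by norm_num
  have q3 : Nat.Prime 3 := by norm_num
  have q5 : Nat.Prime 5 := by norm_num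
  have q7 : Nat.Prime 7 := by norm_num
  have q11 : Nat.Prime 11 := by norm_num
  have q13 : Nat.Prime 13 := by norm_num
  have q17 : Nat.Prime 17 := by norm_num
  have q23 : Nat.Prime 23 := by norm_num
  have q29 : Nat.Prime 29 := by norm_num
  simp only [Nat.factorization_mul (show (2 ^ 21 * 3 ^ 16 * 5 ^ 2 * 7 ^ 3 * 11 ^ 1 * 13 ^ 1 * 17 ^ 1 * 23 ^ 1 : ℕ) ≠ 0 by positivity)
      (show (29 ^ 1 : ℕ) ≠ 0 by positivity),
    Nat.factorization_mul (show (2 ^ 21 * 3 ^ 16 * 5 ^ 2 * 7 ^ 3 * 11 ^ 1 * 13 ^ 1 * 17 ^ 1 : ℕ) ≠ 0 by positivity)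
      (show (23 ^ 1 : ℕ) ≠ 0 by positivity),
    Nat.factorization_mul (show (2 ^ 21 * 3 ^ 16 * 5 ^ 2 * 7 ^ 3 * 11 ^ 1 * 13 ^ 1 : ℕ) ≠ 0 by positivity)
      (show (17 ^ 1 : ℕ) ≠ 0 by positivity),
    Nat.factorization_mul (show (2 ^ 21 * 3 ^ 16 * 5 ^ 2 * 7 ^ 3 * 11 ^ 1 : ℕ) ≠ 0 by positivity)
      (show (13 ^ 1 : ℕ) ≠ 0 by positivity),
    Nat.factorization_mul (show (2 ^ 21 * 3 ^ 16 * 5 ^ 2 * 7 ^ 3 : ℕ) ≠ 0 by positivity)
      (show (11 ^ 1 : ℕ) ≠ 0 by positivity),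
    Nat.factorization_mul (show (2 ^ 21 * 3 ^ 16 * 5 ^ 2 : ℕ) ≠ 0 by positivity)
      (show (7 ^ 3 : ℕ) ≠ 0 by positivity),
    Nat.factorization_mul (show (2 ^ 21 * 3 ^ 16 : ℕ) ≠ 0 by positivity)
      (show (5 ^ 2 : ℕ) ≠ 0 by positivity),
    Nat.factorization_mul (show (2 ^ 21 : ℕ) ≠ 0 by positivity)
      (show (3 ^ 16 : ℕ) ≠ 0 by positivity),
    Nat.factorization_pow, q2.factorization, q3.factorization, q5.factorization, q7.factorization, q11.factorization, q13.factorization, q17.factorization, q23.factorization, q29.factorization,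
    Finsupp.add_apply, Finsupp.smul_apply, Finsupp.single_apply, smul_eq_mul] at h3
  have hn2 : ¬ (2 = p) := fun h => hodd h.symm
  by_cases h_3 : p = 3
  · subst h_3; norm_num at h3
  have hn3 : ¬ (3 = p) := fun h => h_3 h.symm
  by_cases h_5 : p = 5
  · subst h_5; norm_num at h3
  have hn5 : ¬ (5 = p) := fun h => h_5 h.symm
  by_cases h_7 : p = 7
  · subst h_7; norm_num
  have hn7 : ¬ (7 = p) := fun h => h_7 h.symm
  by_cases h_11 : p = 11
  · subst h_11; norm_num at h3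
  have hn11 : ¬ (11 = p) := fun h => h_11 h.symm
  by_cases h_13 : p = 13
  · subst h_13; norm_num at h3
  have hn13 : ¬ (13 = p) := fun h => h_13 h.symm
  by_cases h_17 : p = 17
  · subst h_17; norm_num at h3
  have hn17 : ¬ (17 = p) := fun h => h_17 h.symm
  by_cases h_23 : p = 23
  · subst h_23; norm_num at h3
  have hn23 : ¬ (23 = p) := fun h => h_23 h.symm
  by_cases h_29 : p = 29
  · subst h_29; norm_num at h3
  have hn29 : ¬ (29 = p) := fun h => h_29 h.symm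
  exfalso
  simp [hn2, hn3, hn5, hn7, hn11, hn13, hn17, hn23, hn29] at h3

theorem spo_44352000 (p : ℕ) (hp : p.Prime) (hodd : p ≠ 2)
    (h3 : (44352000 : ℕ).factorization p = 3) : p ^ 3 < 2 ^ (44352000 : ℕ).factorization 2 := by
  have hfac : (44352000 : ℕ) = 2 ^ 9 * 3 ^ 2 * 5 ^ 3 * 7 ^ 1 * 11 ^ 1 := by norm_num
  have hk : 9 ≤ (44352000 : ℕ).factorization 2 :=
    (Nat.prime_two.pow_dvd_iff_le_factorization (by norm_num)).mp (by norm_num)
  refine lt_of_lt_of_le ?_ (Nat.pow_le_pow_right (by norm_num) hk)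
  rw [hfac] at h3
  have q2 : Nat.Prime 2 := by norm_num
  have q3 : Nat.Prime 3 := by norm_num
  have q5 : Nat.Prime 5 := by norm_num
  have q7 : Nat.Prime 7 := by norm_num
  have q11 : Nat.Prime 11 := by norm_num
  simp only [Nat.factorization_mul (show (2 ^ 9 * 3 ^ 2 * 5 ^ 3 * 7 ^ 1 : ℕ) ≠ 0 by positivity)
      (show (11 ^ 1 : ℕ) ≠ 0 by positivity),
    Nat.factorization_mul (show (2 ^ 9 * 3 ^ 2 * 5 ^ 3 : ℕ) ≠ 0 by positivity)
      (show (7 ^ 1 : ℕ) ≠ 0 by positivity),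
    Nat.factorization_mul (show (2 ^ 9 * 3 ^ 2 : ℕ) ≠ 0 by positivity)
      (show (5 ^ 3 : ℕ) ≠ 0 by positivity),
    Nat.factorization_mul (show (2 ^ 9 : ℕ) ≠ 0 by positivity)
      (show (3 ^ 2 : ℕ) ≠ 0 by positivity),
    Nat.factorization_pow, q2.factorization, q3.factorization, q5.factorization, q7.factorization, q11.factorization,
    Finsupp.add_apply, Finsupp.smul_apply, Finsupp.single_apply, smul_eq_mul] at h3
  have hn2 : ¬ (2 = p) := fun h => hodd h.symm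
  by_cases h_3 : p = 3
  · subst h_3; norm_num at h3
  have hn3 : ¬ (3 = p) := fun h => h_3 h.symm
  by_cases h_5 : p = 5
  · subst h_5; norm_num
  have hn5 : ¬ (5 = p) := fun h => h_5 h.symm
  by_cases h_7 : p = 7
  · subst h_7; norm_num at h3
  have hn7 : ¬ (7 = p) := fun h => h_7 h.symm
  by_cases h_11 : p = 11
  · subst h_11; norm_num at h3
  have hn11 : ¬ (11 = p) := fun h => h_11 h.symm
  exfalso
  simp [hn2, hn3, hn5, hn7, hn11] at h3

theorem spo_898128000 (p : ℕ) (hp : p.Prime) (hodd : p ≠ 2)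
    (h3 : (898128000 : ℕ).factorization p = 3) : p ^ 3 < 2 ^ (898128000 : ℕ).factorization 2 := by
  have hfac : (898128000 : ℕ) = 2 ^ 7 * 3 ^ 6 * 5 ^ 3 * 7 ^ 1 * 11 ^ 1 := by norm_num
  have hk : 7 ≤ (898128000 : ℕ).factorization 2 :=
    (Nat.prime_two.pow_dvd_iff_le_factorization (by norm_num)).mp (by norm_num)
  refine lt_of_lt_of_le ?_ (Nat.pow_le_pow_right (by norm_num) hk)
  rw [hfac] at h3
  have q2 : Nat.Prime 2 := by norm_num
  have q3 : Nat.Prime 3 := by norm_num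
  have q5 : Nat.Prime 5 := by norm_num
  have q7 : Nat.Prime 7 := by norm_num
  have q11 : Nat.Prime 11 := by norm_num
  simp only [Nat.factorization_mul (show (2 ^ 7 * 3 ^ 6 * 5 ^ 3 * 7 ^ 1 : ℕ) ≠ 0 by positivity)
      (show (11 ^ 1 : ℕ) ≠ 0 by positivity),
    Nat.factorization_mul (show (2 ^ 7 * 3 ^ 6 * 5 ^ 3 : ℕ) ≠ 0 by positivity)
      (show (7 ^ 1 : ℕ) ≠ 0 by positivity),
    Nat.factorization_mul (show (2 ^ 7 * 3 ^ 6 : ℕ) ≠ 0 by positivity)
      (show (5 ^ 3 : ℕ) ≠ 0 by positivity),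
    Nat.factorization_mul (show (2 ^ 7 : ℕ) ≠ 0 by positivity)
      (show (3 ^ 6 : ℕ) ≠ 0 by positivity),
    Nat.factorization_pow, q2.factorization, q3.factorization, q5.factorization, q7.factorization, q11.factorization,
    Finsupp.add_apply, Finsupp.smul_apply, Finsupp.single_apply, smul_eq_mul] at h3
  have hn2 : ¬ (2 = p) := fun h => hodd h.symm
  by_cases h_3 : p = 3
  · subst h_3; norm_num at h3
  have hn3 : ¬ (3 = p) := fun h => h_3 h.symm
  by_cases h_5 : p = 5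
  · subst h_5; norm_num
  have hn5 : ¬ (5 = p) := fun h => h_5 h.symm
  by_cases h_7 : p = 7
  · subst h_7; norm_num at h3
  have hn7 : ¬ (7 = p) := fun h => h_7 h.symm
  by_cases h_11 : p = 11
  · subst h_11; norm_num at h3
  have hn11 : ¬ (11 = p) := fun h => h_11 h.symm
  exfalso
  simp [hn2, hn3, hn5, hn7, hn11] at h3

theorem spo_4030387200 (p : ℕ) (hp : p.Prime) (hodd : p ≠ 2)
    (h3 : (4030387200 : ℕ).factorization p = 3) : p ^ 3 < 2 ^ (4030387200 : ℕ).factorization 2 := by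
  have hfac : (4030387200 : ℕ) = 2 ^ 10 * 3 ^ 3 * 5 ^ 2 * 7 ^ 3 * 17 ^ 1 := by norm_num
  have hk : 10 ≤ (4030387200 : ℕ).factorization 2 :=
    (Nat.prime_two.pow_dvd_iff_le_factorization (by norm_num)).mp (by norm_num)
  refine lt_of_lt_of_le ?_ (Nat.pow_le_pow_right (by norm_num) hk)
  rw [hfac] at h3
  have q2 : Nat.Prime 2 := by norm_num
  have q3 : Nat.Prime 3 := by norm_num
  have q5 : Nat.Prime 5 := by norm_num
  have q7 : Nat.Prime 7 := by norm_num
  have q17 : Nat.Prime 17 := by norm_num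
  simp only [Nat.factorization_mul (show (2 ^ 10 * 3 ^ 3 * 5 ^ 2 * 7 ^ 3 : ℕ) ≠ 0 by positivity)
      (show (17 ^ 1 : ℕ) ≠ 0 by positivity),
    Nat.factorization_mul (show (2 ^ 10 * 3 ^ 3 * 5 ^ 2 : ℕ) ≠ 0 by positivity)
      (show (7 ^ 3 : ℕ) ≠ 0 by positivity),
    Nat.factorization_mul (show (2 ^ 10 * 3 ^ 3 : ℕ) ≠ 0 by positivity)
      (show (5 ^ 2 : ℕ) ≠ 0 by positivity),
    Nat.factorization_mul (show (2 ^ 10 : ℕ) ≠ 0 by positivity)
      (show (3 ^ 3 : ℕ) ≠ 0 by positivity),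
    Nat.factorization_pow, q2.factorization, q3.factorization, q5.factorization, q7.factorization, q17.factorization,
    Finsupp.add_apply, Finsupp.smul_apply, Finsupp.single_apply, smul_eq_mul] at h3
  have hn2 : ¬ (2 = p) := fun h => hodd h.symm
  by_cases h_3 : p = 3
  · subst h_3; norm_num
  have hn3 : ¬ (3 = p) := fun h => h_3 h.symm
  by_cases h_5 : p = 5
  · subst h_5; norm_num at h3
  have hn5 : ¬ (5 = p) := fun h => h_5 h.symm
  by_cases h_7 : p = 7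
  · subst h_7; norm_num
  have hn7 : ¬ (7 = p) := fun h => h_7 h.symm
  by_cases h_17 : p = 17
  · subst h_17; norm_num at h3
  have hn17 : ¬ (17 = p) := fun h => h_17 h.symm
  exfalso
  simp [hn2, hn3, hn5, hn7, hn17] at h3

theorem spo_145926144000 (p : ℕ) (hp : p.Prime) (hodd : p ≠ 2)
    (h3 : (145926144000 : ℕ).factorization p = 3) : p ^ 3 < 2 ^ (145926144000 : ℕ).factorization 2 := by
  have hfac : (145926144000 : ℕ) = 2 ^ 14 * 3 ^ 3 * 5 ^ 3 * 7 ^ 1 * 13 ^ 1 * 29 ^ 1 := by norm_num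
  have hk : 14 ≤ (145926144000 : ℕ).factorization 2 :=
    (Nat.prime_two.pow_dvd_iff_le_factorization (by norm_num)).mp (by norm_num)
  refine lt_of_lt_of_le ?_ (Nat.pow_le_pow_right (by norm_num) hk)
  rw [hfac] at h3
  have q2 : Nat.Prime 2 := by norm_num
  have q3 : Nat.Prime 3 := by norm_num
  have q5 : Nat.Prime 5 := by norm_num
  have q7 : Nat.Prime 7 := by norm_num
  have q13 : Nat.Prime 13 := by norm_num
  have q29 : Nat.Prime 29 := by norm_num
  simp only [Nat.factorization_mul (show (2 ^ 14 * 3 ^ 3 * 5 ^ 3 * 7 ^ 1 * 13 ^ 1 : ℕ) ≠ 0 by positivity)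
      (show (29 ^ 1 : ℕ) ≠ 0 by positivity),
    Nat.factorization_mul (show (2 ^ 14 * 3 ^ 3 * 5 ^ 3 * 7 ^ 1 : ℕ) ≠ 0 by positivity)
      (show (13 ^ 1 : ℕ) ≠ 0 by positivity),
    Nat.factorization_mul (show (2 ^ 14 * 3 ^ 3 * 5 ^ 3 : ℕ) ≠ 0 by positivity)
      (show (7 ^ 1 : ℕ) ≠ 0 by positivity),
    Nat.factorization_mul (show (2 ^ 14 * 3 ^ 3 : ℕ) ≠ 0 by positivity)
      (show (5 ^ 3 : ℕ) ≠ 0 by positivity),
    Nat.factorization_mul (show (2 ^ 14 : ℕ) ≠ 0 by positivity)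
      (show (3 ^ 3 : ℕ) ≠ 0 by positivity),
    Nat.factorization_pow, q2.factorization, q3.factorization, q5.factorization, q7.factorization, q13.factorization, q29.factorization,
    Finsupp.add_apply, Finsupp.smul_apply, Finsupp.single_apply, smul_eq_mul] at h3
  have hn2 : ¬ (2 = p) := fun h => hodd h.symm
  by_cases h_3 : p = 3
  · subst h_3; norm_num
  have hn3 : ¬ (3 = p) := fun h => h_3 h.symm
  by_cases h_5 : p = 5
  · subst h_5; norm_num
  have hn5 : ¬ (5 = p) := fun h => h_5 h.symm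
  by_cases h_7 : p = 7
  · subst h_7; norm_num at h3
  have hn7 : ¬ (7 = p) := fun h => h_7 h.symm
  by_cases h_13 : p = 13
  · subst h_13; norm_num at h3
  have hn13 : ¬ (13 = p) := fun h => h_13 h.symm
  by_cases h_29 : p = 29
  · subst h_29; norm_num at h3
  have hn29 : ¬ (29 = p) := fun h => h_29 h.symm
  exfalso
  simp [hn2, hn3, hn5, hn7, hn13, hn29] at h3

theorem spo_448345497600 (p : ℕ) (hp : p.Prime) (hodd : p ≠ 2)
    (h3 : (448345497600 : ℕ).factorization p = 3) : p ^ 3 < 2 ^ (448345497600 : ℕ).factorization 2 := by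
  have hfac : (448345497600 : ℕ) = 2 ^ 13 * 3 ^ 7 * 5 ^ 2 * 7 ^ 1 * 11 ^ 1 * 13 ^ 1 := by norm_num
  have hk : 13 ≤ (448345497600 : ℕ).factorization 2 :=
    (Nat.prime_two.pow_dvd_iff_le_factorization (by norm_num)).mp (by norm_num)
  refine lt_of_lt_of_le ?_ (Nat.pow_le_pow_right (by norm_num) hk)
  rw [hfac] at h3
  have q2 : Nat.Prime 2 := by norm_num
  have q3 : Nat.Prime 3 := by norm_num
  have q5 : Nat.Prime 5 := by norm_num
  have q7 : Nat.Prime 7 := by norm_num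
  have q11 : Nat.Prime 11 := by norm_num
  have q13 : Nat.Prime 13 := by norm_num
  simp only [Nat.factorization_mul (show (2 ^ 13 * 3 ^ 7 * 5 ^ 2 * 7 ^ 1 * 11 ^ 1 : ℕ) ≠ 0 by positivity)
      (show (13 ^ 1 : ℕ) ≠ 0 by positivity),
    Nat.factorization_mul (show (2 ^ 13 * 3 ^ 7 * 5 ^ 2 * 7 ^ 1 : ℕ) ≠ 0 by positivity)
      (show (11 ^ 1 : ℕ) ≠ 0 by positivity),
    Nat.factorization_mul (show (2 ^ 13 * 3 ^ 7 * 5 ^ 2 : ℕ) ≠ 0 by positivity)
      (show (7 ^ 1 : ℕ) ≠ 0 by positivity),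
    Nat.factorization_mul (show (2 ^ 13 * 3 ^ 7 : ℕ) ≠ 0 by positivity)
      (show (5 ^ 2 : ℕ) ≠ 0 by positivity),
    Nat.factorization_mul (show (2 ^ 13 : ℕ) ≠ 0 by positivity)
      (show (3 ^ 7 : ℕ) ≠ 0 by positivity),
    Nat.factorization_pow, q2.factorization, q3.factorization, q5.factorization, q7.factorization, q11.factorization, q13.factorization,
    Finsupp.add_apply, Finsupp.smul_apply, Finsupp.single_apply, smul_eq_mul] at h3
  have hn2 : ¬ (2 = p) := fun h => hodd h.symm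
  by_cases h_3 : p = 3
  · subst h_3; norm_num at h3
  have hn3 : ¬ (3 = p) := fun h => h_3 h.symm
  by_cases h_5 : p = 5
  · subst h_5; norm_num at h3
  have hn5 : ¬ (5 = p) := fun h => h_5 h.symm
  by_cases h_7 : p = 7
  · subst h_7; norm_num at h3
  have hn7 : ¬ (7 = p) := fun h => h_7 h.symm
  by_cases h_11 : p = 11
  · subst h_11; norm_num at h3
  have hn11 : ¬ (11 = p) := fun h => h_11 h.symm
  by_cases h_13 : p = 13
  · subst h_13; norm_num at h3
  have hn13 : ¬ (13 = p) := fun h => h_13 h.symm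
  exfalso
  simp [hn2, hn3, hn5, hn7, hn11, hn13] at h3

theorem spo_460815505920 (p : ℕ) (hp : p.Prime) (hodd : p ≠ 2)
    (h3 : (460815505920 : ℕ).factorization p = 3) : p ^ 3 < 2 ^ (460815505920 : ℕ).factorization 2 := by
  have hfac : (460815505920 : ℕ) = 2 ^ 9 * 3 ^ 4 * 5 ^ 1 * 7 ^ 3 * 11 ^ 1 * 19 ^ 1 * 31 ^ 1 := by norm_num
  have hk : 9 ≤ (460815505920 : ℕ).factorization 2 :=
    (Nat.prime_two.pow_dvd_iff_le_factorization (by norm_num)).mp (by norm_num)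
  refine lt_of_lt_of_le ?_ (Nat.pow_le_pow_right (by norm_num) hk)
  rw [hfac] at h3
  have q2 : Nat.Prime 2 := by norm_num
  have q3 : Nat.Prime 3 := by norm_num
  have q5 : Nat.Prime 5 := by norm_num
  have q7 : Nat.Prime 7 := by norm_num
  have q11 : Nat.Prime 11 := by norm_num
  have q19 : Nat.Prime 19 := by norm_num
  have q31 : Nat.Prime 31 := by norm_num
  simp only [Nat.factorization_mul (show (2 ^ 9 * 3 ^ 4 * 5 ^ 1 * 7 ^ 3 * 11 ^ 1 * 19 ^ 1 : ℕ) ≠ 0 by positivity)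
      (show (31 ^ 1 : ℕ) ≠ 0 by positivity),
    Nat.factorization_mul (show (2 ^ 9 * 3 ^ 4 * 5 ^ 1 * 7 ^ 3 * 11 ^ 1 : ℕ) ≠ 0 by positivity)
      (show (19 ^ 1 : ℕ) ≠ 0 by positivity),
    Nat.factorization_mul (show (2 ^ 9 * 3 ^ 4 * 5 ^ 1 * 7 ^ 3 : ℕ) ≠ 0 by positivity)
      (show (11 ^ 1 : ℕ) ≠ 0 by positivity),
    Nat.factorization_mul (show (2 ^ 9 * 3 ^ 4 * 5 ^ 1 : ℕ) ≠ 0 by positivity)
      (show (7 ^ 3 : ℕ) ≠ 0 by positivity),
    Nat.factorization_mul (show (2 ^ 9 * 3 ^ 4 : ℕ) ≠ 0 by positivity)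
      (show (5 ^ 1 : ℕ) ≠ 0 by positivity),
    Nat.factorization_mul (show (2 ^ 9 : ℕ) ≠ 0 by positivity)
      (show (3 ^ 4 : ℕ) ≠ 0 by positivity),
    Nat.factorization_pow, q2.factorization, q3.factorization, q5.factorization, q7.factorization, q11.factorization, q19.factorization, q31.factorization,
    Finsupp.add_apply, Finsupp.smul_apply, Finsupp.single_apply, smul_eq_mul] at h3
  have hn2 : ¬ (2 = p) := fun h => hodd h.symm
  by_cases h_3 : p = 3
  · subst h_3; norm_num at h3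
  have hn3 : ¬ (3 = p) := fun h => h_3 h.symm
  by_cases h_5 : p = 5
  · subst h_5; norm_num at h3
  have hn5 : ¬ (5 = p) := fun h => h_5 h.symm
  by_cases h_7 : p = 7
  · subst h_7; norm_num
  have hn7 : ¬ (7 = p) := fun h => h_7 h.symm
  by_cases h_11 : p = 11
  · subst h_11; norm_num at h3
  have hn11 : ¬ (11 = p) := fun h => h_11 h.symm
  by_cases h_19 : p = 19
  · subst h_19; norm_num at h3
  have hn19 : ¬ (19 = p) := fun h => h_19 h.symm
  by_cases h_31 : p = 31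
  · subst h_31; norm_num at h3
  have hn31 : ¬ (31 = p) := fun h => h_31 h.symm
  exfalso
  simp [hn2, hn3, hn5, hn7, hn11, hn19, hn31] at h3

theorem spo_273030912000000 (p : ℕ) (hp : p.Prime) (hodd : p ≠ 2)
    (h3 : (273030912000000 : ℕ).factorization p = 3) : p ^ 3 < 2 ^ (273030912000000 : ℕ).factorization 2 := by
  have hfac : (273030912000000 : ℕ) = 2 ^ 14 * 3 ^ 6 * 5 ^ 6 * 7 ^ 1 * 11 ^ 1 * 19 ^ 1 := by norm_num
  have hk : 14 ≤ (273030912000000 : ℕ).factorization 2 :=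
    (Nat.prime_two.pow_dvd_iff_le_factorization (by norm_num)).mp (by norm_num)
  refine lt_of_lt_of_le ?_ (Nat.pow_le_pow_right (by norm_num) hk)
  rw [hfac] at h3
  have q2 : Nat.Prime 2 := by norm_num
  have q3 : Nat.Prime 3 := by norm_num
  have q5 : Nat.Prime 5 := by norm_num
  have q7 : Nat.Prime 7 := by norm_num
  have q11 : Nat.Prime 11 := by norm_num
  have q19 : Nat.Prime 19 := by norm_num
  simp only [Nat.factorization_mul (show (2 ^ 14 * 3 ^ 6 * 5 ^ 6 * 7 ^ 1 * 11 ^ 1 : ℕ) ≠ 0 by positivity)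
      (show (19 ^ 1 : ℕ) ≠ 0 by positivity),
    Nat.factorization_mul (show (2 ^ 14 * 3 ^ 6 * 5 ^ 6 * 7 ^ 1 : ℕ) ≠ 0 by positivity)
      (show (11 ^ 1 : ℕ) ≠ 0 by positivity),
    Nat.factorization_mul (show (2 ^ 14 * 3 ^ 6 * 5 ^ 6 : ℕ) ≠ 0 by positivity)
      (show (7 ^ 1 : ℕ) ≠ 0 by positivity),
    Nat.factorization_mul (show (2 ^ 14 * 3 ^ 6 : ℕ) ≠ 0 by positivity)
      (show (5 ^ 6 : ℕ) ≠ 0 by positivity),
    Nat.factorization_mul (show (2 ^ 14 : ℕ) ≠ 0 by positivity)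
      (show (3 ^ 6 : ℕ) ≠ 0 by positivity),
    Nat.factorization_pow, q2.factorization, q3.factorization, q5.factorization, q7.factorization, q11.factorization, q19.factorization,
    Finsupp.add_apply, Finsupp.smul_apply, Finsupp.single_apply, smul_eq_mul] at h3
  have hn2 : ¬ (2 = p) := fun h => hodd h.symm
  by_cases h_3 : p = 3
  · subst h_3; norm_num at h3
  have hn3 : ¬ (3 = p) := fun h => h_3 h.symm
  by_cases h_5 : p = 5
  · subst h_5; norm_num at h3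
  have hn5 : ¬ (5 = p) := fun h => h_5 h.symm
  by_cases h_7 : p = 7
  · subst h_7; norm_num at h3
  have hn7 : ¬ (7 = p) := fun h => h_7 h.symm
  by_cases h_11 : p = 11
  · subst h_11; norm_num at h3
  have hn11 : ¬ (11 = p) := fun h => h_11 h.symm
  by_cases h_19 : p = 19
  · subst h_19; norm_num at h3
  have hn19 : ¬ (19 = p) := fun h => h_19 h.symm
  exfalso
  simp [hn2, hn3, hn5, hn7, hn11, hn19] at h3

theorem spo_51765179004000000 (p : ℕ) (hp : p.Prime) (hodd : p ≠ 2)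
    (h3 : (51765179004000000 : ℕ).factorization p = 3) : p ^ 3 < 2 ^ (51765179004000000 : ℕ).factorization 2 := by
  have hfac : (51765179004000000 : ℕ) = 2 ^ 8 * 3 ^ 7 * 5 ^ 6 * 7 ^ 1 * 11 ^ 1 * 31 ^ 1 * 37 ^ 1 * 67 ^ 1 := by norm_num
  have hk : 8 ≤ (51765179004000000 : ℕ).factorization 2 :=
    (Nat.prime_two.pow_dvd_iff_le_factorization (by norm_num)).mp (by norm_num)
  refine lt_of_lt_of_le ?_ (Nat.pow_le_pow_right (by norm_num) hk)
  rw [hfac] at h3
  have q2 : Nat.Prime 2 := by norm_num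
  have q3 : Nat.Prime 3 := by norm_num
  have q5 : Nat.Prime 5 := by norm_num
  have q7 : Nat.Prime 7 := by norm_num
  have q11 : Nat.Prime 11 := by norm_num
  have q31 : Nat.Prime 31 := by norm_num
  have q37 : Nat.Prime 37 := by norm_num
  have q67 : Nat.Prime 67 := by norm_num
  simp only [Nat.factorization_mul (show (2 ^ 8 * 3 ^ 7 * 5 ^ 6 * 7 ^ 1 * 11 ^ 1 * 31 ^ 1 * 37 ^ 1 : ℕ) ≠ 0 by positivity)
      (show (67 ^ 1 : ℕ) ≠ 0 by positivity),
    Nat.factorization_mul (show (2 ^ 8 * 3 ^ 7 * 5 ^ 6 * 7 ^ 1 * 11 ^ 1 * 31 ^ 1 : ℕ) ≠ 0 by positivity)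
      (show (37 ^ 1 : ℕ) ≠ 0 by positivity),
    Nat.factorization_mul (show (2 ^ 8 * 3 ^ 7 * 5 ^ 6 * 7 ^ 1 * 11 ^ 1 : ℕ) ≠ 0 by positivity)
      (show (31 ^ 1 : ℕ) ≠ 0 by positivity),
    Nat.factorization_mul (show (2 ^ 8 * 3 ^ 7 * 5 ^ 6 * 7 ^ 1 : ℕ) ≠ 0 by positivity)
      (show (11 ^ 1 : ℕ) ≠ 0 by positivity),
    Nat.factorization_mul (show (2 ^ 8 * 3 ^ 7 * 5 ^ 6 : ℕ) ≠ 0 by positivity)
      (show (7 ^ 1 : ℕ) ≠ 0 by positivity),
    Nat.factorization_mul (show (2 ^ 8 * 3 ^ 7 : ℕ) ≠ 0 by positivity)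
      (show (5 ^ 6 : ℕ) ≠ 0 by positivity),
    Nat.factorization_mul (show (2 ^ 8 : ℕ) ≠ 0 by positivity)
      (show (3 ^ 7 : ℕ) ≠ 0 by positivity),
    Nat.factorization_pow, q2.factorization, q3.factorization, q5.factorization, q7.factorization, q11.factorization, q31.factorization, q37.factorization, q67.factorization,
    Finsupp.add_apply, Finsupp.smul_apply, Finsupp.single_apply, smul_eq_mul] at h3
  have hn2 : ¬ (2 = p) := fun h => hodd h.symm
  by_cases h_3 : p = 3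
  · subst h_3; norm_num at h3
  have hn3 : ¬ (3 = p) := fun h => h_3 h.symm
  by_cases h_5 : p = 5
  · subst h_5; norm_num at h3
  have hn5 : ¬ (5 = p) := fun h => h_5 h.symm
  by_cases h_7 : p = 7
  · subst h_7; norm_num at h3
  have hn7 : ¬ (7 = p) := fun h => h_7 h.symm
  by_cases h_11 : p = 11
  · subst h_11; norm_num at h3
  have hn11 : ¬ (11 = p) := fun h => h_11 h.symm
  by_cases h_31 : p = 31
  · subst h_31; norm_num at h3
  have hn31 : ¬ (31 = p) := fun h => h_31 h.symm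
  by_cases h_37 : p = 37
  · subst h_37; norm_num at h3
  have hn37 : ¬ (37 = p) := fun h => h_37 h.symm
  by_cases h_67 : p = 67
  · subst h_67; norm_num at h3
  have hn67 : ¬ (67 = p) := fun h => h_67 h.symm
  exfalso
  simp [hn2, hn3, hn5, hn7, hn11, hn31, hn37, hn67] at h3

theorem spo_90745943887872000 (p : ℕ) (hp : p.Prime) (hodd : p ≠ 2)
    (h3 : (90745943887872000 : ℕ).factorization p = 3) : p ^ 3 < 2 ^ (90745943887872000 : ℕ).factorization 2 := by
  have hfac : (90745943887872000 : ℕ) = 2 ^ 15 * 3 ^ 10 * 5 ^ 3 * 7 ^ 2 * 13 ^ 1 * 19 ^ 1 * 31 ^ 1 := by norm_num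
  have hk : 15 ≤ (90745943887872000 : ℕ).factorization 2 :=
    (Nat.prime_two.pow_dvd_iff_le_factorization (by norm_num)).mp (by norm_num)
  refine lt_of_lt_of_le ?_ (Nat.pow_le_pow_right (by norm_num) hk)
  rw [hfac] at h3
  have q2 : Nat.Prime 2 := by norm_num
  have q3 : Nat.Prime 3 := by norm_num
  have q5 : Nat.Prime 5 := by norm_num
  have q7 : Nat.Prime 7 := by norm_num
  have q13 : Nat.Prime 13 := by norm_num
  have q19 : Nat.Prime 19 := by norm_num
  have q31 : Nat.Prime 31 := by norm_num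
  simp only [Nat.factorization_mul (show (2 ^ 15 * 3 ^ 10 * 5 ^ 3 * 7 ^ 2 * 13 ^ 1 * 19 ^ 1 : ℕ) ≠ 0 by positivity)
      (show (31 ^ 1 : ℕ) ≠ 0 by positivity),
    Nat.factorization_mul (show (2 ^ 15 * 3 ^ 10 * 5 ^ 3 * 7 ^ 2 * 13 ^ 1 : ℕ) ≠ 0 by positivity)
      (show (19 ^ 1 : ℕ) ≠ 0 by positivity),
    Nat.factorization_mul (show (2 ^ 15 * 3 ^ 10 * 5 ^ 3 * 7 ^ 2 : ℕ) ≠ 0 by positivity)
      (show (13 ^ 1 : ℕ) ≠ 0 by positivity),
    Nat.factorization_mul (show (2 ^ 15 * 3 ^ 10 * 5 ^ 3 : ℕ) ≠ 0 by positivity)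
      (show (7 ^ 2 : ℕ) ≠ 0 by positivity),
    Nat.factorization_mul (show (2 ^ 15 * 3 ^ 10 : ℕ) ≠ 0 by positivity)
      (show (5 ^ 3 : ℕ) ≠ 0 by positivity),
    Nat.factorization_mul (show (2 ^ 15 : ℕ) ≠ 0 by positivity)
      (show (3 ^ 10 : ℕ) ≠ 0 by positivity),
    Nat.factorization_pow, q2.factorization, q3.factorization, q5.factorization, q7.factorization, q13.factorization, q19.factorization, q31.factorization,
    Finsupp.add_apply, Finsupp.smul_apply, Finsupp.single_apply, smul_eq_mul] at h3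
  have hn2 : ¬ (2 = p) := fun h => hodd h.symm
  by_cases h_3 : p = 3
  · subst h_3; norm_num at h3
  have hn3 : ¬ (3 = p) := fun h => h_3 h.symm
  by_cases h_5 : p = 5
  · subst h_5; norm_num
  have hn5 : ¬ (5 = p) := fun h => h_5 h.symm
  by_cases h_7 : p = 7
  · subst h_7; norm_num at h3
  have hn7 : ¬ (7 = p) := fun h => h_7 h.symm
  by_cases h_13 : p = 13
  · subst h_13; norm_num at h3
  have hn13 : ¬ (13 = p) := fun h => h_13 h.symm
  by_cases h_19 : p = 19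
  · subst h_19; norm_num at h3
  have hn19 : ¬ (19 = p) := fun h => h_19 h.symm
  by_cases h_31 : p = 31
  · subst h_31; norm_num at h3
  have hn31 : ¬ (31 = p) := fun h => h_31 h.symm
  exfalso
  simp [hn2, hn3, hn5, hn7, hn13, hn19, hn31] at h3

theorem spo_4154781481226426191177580544000000 (p : ℕ) (hp : p.Prime) (hodd : p ≠ 2)
    (h3 : (4154781481226426191177580544000000 : ℕ).factorization p = 3) : p ^ 3 < 2 ^ (4154781481226426191177580544000000 : ℕ).factorization 2 := by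
  have hfac : (4154781481226426191177580544000000 : ℕ) = 2 ^ 41 * 3 ^ 13 * 5 ^ 6 * 7 ^ 2 * 11 ^ 1 * 13 ^ 1 * 17 ^ 1 * 19 ^ 1 * 23 ^ 1 * 31 ^ 1 * 47 ^ 1 := by norm_num
  have hk : 41 ≤ (4154781481226426191177580544000000 : ℕ).factorization 2 :=
    (Nat.prime_two.pow_dvd_iff_le_factorization (by norm_num)).mp (by norm_num)
  refine lt_of_lt_of_le ?_ (Nat.pow_le_pow_right (by norm_num) hk)
  rw [hfac] at h3
  have q2 : Nat.Prime 2 := by norm_num
  have q3 : Nat.Prime 3 := by norm_num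
  have q5 : Nat.Prime 5 := by norm_num
  have q7 : Nat.Prime 7 := by norm_num
  have q11 : Nat.Prime 11 := by norm_num
  have q13 : Nat.Prime 13 := by norm_num
  have q17 : Nat.Prime 17 := by norm_num
  have q19 : Nat.Prime 19 := by norm_num
  have q23 : Nat.Prime 23 := by norm_num
  have q31 : Nat.Prime 31 := by norm_num
  have q47 : Nat.Prime 47 := by norm_num
  simp only [Nat.factorization_mul (show (2 ^ 41 * 3 ^ 13 * 5 ^ 6 * 7 ^ 2 * 11 ^ 1 * 13 ^ 1 * 17 ^ 1 * 19 ^ 1 * 23 ^ 1 * 31 ^ 1 : ℕ) ≠ 0 by positivity)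
      (show (47 ^ 1 : ℕ) ≠ 0 by positivity),
    Nat.factorization_mul (show (2 ^ 41 * 3 ^ 13 * 5 ^ 6 * 7 ^ 2 * 11 ^ 1 * 13 ^ 1 * 17 ^ 1 * 19 ^ 1 * 23 ^ 1 : ℕ) ≠ 0 by positivity)
      (show (31 ^ 1 : ℕ) ≠ 0 by positivity),
    Nat.factorization_mul (show (2 ^ 41 * 3 ^ 13 * 5 ^ 6 * 7 ^ 2 * 11 ^ 1 * 13 ^ 1 * 17 ^ 1 * 19 ^ 1 : ℕ) ≠ 0 by positivity)
      (show (23 ^ 1 : ℕ) ≠ 0 by positivity),
    Nat.factorization_mul (show (2 ^ 41 * 3 ^ 13 * 5 ^ 6 * 7 ^ 2 * 11 ^ 1 * 13 ^ 1 * 17 ^ 1 : ℕ) ≠ 0 by positivity)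
      (show (19 ^ 1 : ℕ) ≠ 0 by positivity),
    Nat.factorization_mul (show (2 ^ 41 * 3 ^ 13 * 5 ^ 6 * 7 ^ 2 * 11 ^ 1 * 13 ^ 1 : ℕ) ≠ 0 by positivity)
      (show (17 ^ 1 : ℕ) ≠ 0 by positivity),
    Nat.factorization_mul (show (2 ^ 41 * 3 ^ 13 * 5 ^ 6 * 7 ^ 2 * 11 ^ 1 : ℕ) ≠ 0 by positivity)
      (show (13 ^ 1 : ℕ) ≠ 0 by positivity),
    Nat.factorization_mul (show (2 ^ 41 * 3 ^ 13 * 5 ^ 6 * 7 ^ 2 : ℕ) ≠ 0 by positivity)
      (show (11 ^ 1 : ℕ) ≠ 0 by positivity),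
    Nat.factorization_mul (show (2 ^ 41 * 3 ^ 13 * 5 ^ 6 : ℕ) ≠ 0 by positivity)
      (show (7 ^ 2 : ℕ) ≠ 0 by positivity),
    Nat.factorization_mul (show (2 ^ 41 * 3 ^ 13 : ℕ) ≠ 0 by positivity)
      (show (5 ^ 6 : ℕ) ≠ 0 by positivity),
    Nat.factorization_mul (show (2 ^ 41 : ℕ) ≠ 0 by positivity)
      (show (3 ^ 13 : ℕ) ≠ 0 by positivity),
    Nat.factorization_pow, q2.factorization, q3.factorization, q5.factorization, q7.factorization, q11.factorization, q13.factorization, q17.factorization, q19.factorization, q23.factorization, q31.factorization, q47.factorization,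
    Finsupp.add_apply, Finsupp.smul_apply, Finsupp.single_apply, smul_eq_mul] at h3
  have hn2 : ¬ (2 = p) := fun h => hodd h.symm
  by_cases h_3 : p = 3
  · subst h_3; norm_num at h3
  have hn3 : ¬ (3 = p) := fun h => h_3 h.symm
  by_cases h_5 : p = 5
  · subst h_5; norm_num at h3
  have hn5 : ¬ (5 = p) := fun h => h_5 h.symm
  by_cases h_7 : p = 7
  · subst h_7; norm_num at h3
  have hn7 : ¬ (7 = p) := fun h => h_7 h.symm
  by_cases h_11 : p = 11
  · subst h_11; norm_num at h3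
  have hn11 : ¬ (11 = p) := fun h => h_11 h.symm
  by_cases h_13 : p = 13
  · subst h_13; norm_num at h3
  have hn13 : ¬ (13 = p) := fun h => h_13 h.symm
  by_cases h_17 : p = 17
  · subst h_17; norm_num at h3
  have hn17 : ¬ (17 = p) := fun h => h_17 h.symm
  by_cases h_19 : p = 19
  · subst h_19; norm_num at h3
  have hn19 : ¬ (19 = p) := fun h => h_19 h.symm
  by_cases h_23 : p = 23
  · subst h_23; norm_num at h3
  have hn23 : ¬ (23 = p) := fun h => h_23 h.symm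
  by_cases h_31 : p = 31
  · subst h_31; norm_num at h3
  have hn31 : ¬ (31 = p) := fun h => h_31 h.symm
  by_cases h_47 : p = 47
  · subst h_47; norm_num at h3
  have hn47 : ¬ (47 = p) := fun h => h_47 h.symm
  exfalso
  simp [hn2, hn3, hn5, hn7, hn11, hn13, hn17, hn19, hn23, hn31, hn47] at h3

theorem spo_808017424794512875886459904961710757005754368000000000 (p : ℕ) (hp : p.Prime) (hodd : p ≠ 2)
    (h3 : (808017424794512875886459904961710757005754368000000000 : ℕ).factorization p = 3) : p ^ 3 < 2 ^ (808017424794512875886459904961710757005754368000000000 : ℕ).factorization 2 := by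
  have hfac : (808017424794512875886459904961710757005754368000000000 : ℕ) = 2 ^ 46 * 3 ^ 20 * 5 ^ 9 * 7 ^ 6 * 11 ^ 2 * 13 ^ 3 * 17 ^ 1 * 19 ^ 1 * 23 ^ 1 * 29 ^ 1 * 31 ^ 1 * 41 ^ 1 * 47 ^ 1 * 59 ^ 1 * 71 ^ 1 := by norm_num
  have hk : 46 ≤ (808017424794512875886459904961710757005754368000000000 : ℕ).factorization 2 :=
    (Nat.prime_two.pow_dvd_iff_le_factorization (by norm_num)).mp (by norm_num)
  refine lt_of_lt_of_le ?_ (Nat.pow_le_pow_right (by norm_num) hk)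
  rw [hfac] at h3
  have q2 : Nat.Prime 2 := by norm_num
  have q3 : Nat.Prime 3 := by norm_num
  have q5 : Nat.Prime 5 := by norm_num
  have q7 : Nat.Prime 7 := by norm_num
  have q11 : Nat.Prime 11 := by norm_num
  have q13 : Nat.Prime 13 := by norm_num
  have q17 : Nat.Prime 17 := by norm_num
  have q19 : Nat.Prime 19 := by norm_num
  have q23 : Nat.Prime 23 := by norm_num
  have q29 : Nat.Prime 29 := by norm_num
  have q31 : Nat.Prime 31 := by norm_num
  have q41 : Nat.Prime 41 := by norm_num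
  have q47 : Nat.Prime 47 := by norm_num
  have q59 : Nat.Prime 59 := by norm_num
  have q71 : Nat.Prime 71 := by norm_num
  simp only [Nat.factorization_mul (show (2 ^ 46 * 3 ^ 20 * 5 ^ 9 * 7 ^ 6 * 11 ^ 2 * 13 ^ 3 * 17 ^ 1 * 19 ^ 1 * 23 ^ 1 * 29 ^ 1 * 31 ^ 1 * 41 ^ 1 * 47 ^ 1 * 59 ^ 1 : ℕ) ≠ 0 by positivity)
      (show (71 ^ 1 : ℕ) ≠ 0 by positivity),
    Nat.factorization_mul (show (2 ^ 46 * 3 ^ 20 * 5 ^ 9 * 7 ^ 6 * 11 ^ 2 * 13 ^ 3 * 17 ^ 1 * 19 ^ 1 * 23 ^ 1 * 29 ^ 1 * 31 ^ 1 * 41 ^ 1 * 47 ^ 1 : ℕ) ≠ 0 by positivity)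
      (show (59 ^ 1 : ℕ) ≠ 0 by positivity),
    Nat.factorization_mul (show (2 ^ 46 * 3 ^ 20 * 5 ^ 9 * 7 ^ 6 * 11 ^ 2 * 13 ^ 3 * 17 ^ 1 * 19 ^ 1 * 23 ^ 1 * 29 ^ 1 * 31 ^ 1 * 41 ^ 1 : ℕ) ≠ 0 by positivity)
      (show (47 ^ 1 : ℕ) ≠ 0 by positivity),
    Nat.factorization_mul (show (2 ^ 46 * 3 ^ 20 * 5 ^ 9 * 7 ^ 6 * 11 ^ 2 * 13 ^ 3 * 17 ^ 1 * 19 ^ 1 * 23 ^ 1 * 29 ^ 1 * 31 ^ 1 : ℕ) ≠ 0 by positivity)
      (show (41 ^ 1 : ℕ) ≠ 0 by positivity),
    Nat.factorization_mul (show (2 ^ 46 * 3 ^ 20 * 5 ^ 9 * 7 ^ 6 * 11 ^ 2 * 13 ^ 3 * 17 ^ 1 * 19 ^ 1 * 23 ^ 1 * 29 ^ 1 : ℕ) ≠ 0 by positivity)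
      (show (31 ^ 1 : ℕ) ≠ 0 by positivity),
    Nat.factorization_mul (show (2 ^ 46 * 3 ^ 20 * 5 ^ 9 * 7 ^ 6 * 11 ^ 2 * 13 ^ 3 * 17 ^ 1 * 19 ^ 1 * 23 ^ 1 : ℕ) ≠ 0 by positivity)
      (show (29 ^ 1 : ℕ) ≠ 0 by positivity),
    Nat.factorization_mul (show (2 ^ 46 * 3 ^ 20 * 5 ^ 9 * 7 ^ 6 * 11 ^ 2 * 13 ^ 3 * 17 ^ 1 * 19 ^ 1 : ℕ) ≠ 0 by positivity)
      (show (23 ^ 1 : ℕ) ≠ 0 by positivity),
    Nat.factorization_mul (show (2 ^ 46 * 3 ^ 20 * 5 ^ 9 * 7 ^ 6 * 11 ^ 2 * 13 ^ 3 * 17 ^ 1 : ℕ) ≠ 0 by positivity)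
      (show (19 ^ 1 : ℕ) ≠ 0 by positivity),
    Nat.factorization_mul (show (2 ^ 46 * 3 ^ 20 * 5 ^ 9 * 7 ^ 6 * 11 ^ 2 * 13 ^ 3 : ℕ) ≠ 0 by positivity)
      (show (17 ^ 1 : ℕ) ≠ 0 by positivity),
    Nat.factorization_mul (show (2 ^ 46 * 3 ^ 20 * 5 ^ 9 * 7 ^ 6 * 11 ^ 2 : ℕ) ≠ 0 by positivity)
      (show (13 ^ 3 : ℕ) ≠ 0 by positivity),
    Nat.factorization_mul (show (2 ^ 46 * 3 ^ 20 * 5 ^ 9 * 7 ^ 6 : ℕ) ≠ 0 by positivity)
      (show (11 ^ 2 : ℕ) ≠ 0 by positivity),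
    Nat.factorization_mul (show (2 ^ 46 * 3 ^ 20 * 5 ^ 9 : ℕ) ≠ 0 by positivity)
      (show (7 ^ 6 : ℕ) ≠ 0 by positivity),
    Nat.factorization_mul (show (2 ^ 46 * 3 ^ 20 : ℕ) ≠ 0 by positivity)
      (show (5 ^ 9 : ℕ) ≠ 0 by positivity),
    Nat.factorization_mul (show (2 ^ 46 : ℕ) ≠ 0 by positivity)
      (show (3 ^ 20 : ℕ) ≠ 0 by positivity),
    Nat.factorization_pow, q2.factorization, q3.factorization, q5.factorization, q7.factorization, q11.factorization, q13.factorization, q17.factorization, q19.factorization, q23.factorization, q29.factorization, q31.factorization, q41.factorization, q47.factorization, q59.factorization, q71.factorization,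
    Finsupp.add_apply, Finsupp.smul_apply, Finsupp.single_apply, smul_eq_mul] at h3
  have hn2 : ¬ (2 = p) := fun h => hodd h.symm
  by_cases h_3 : p = 3
  · subst h_3; norm_num at h3
  have hn3 : ¬ (3 = p) := fun h => h_3 h.symm
  by_cases h_5 : p = 5
  · subst h_5; norm_num at h3
  have hn5 : ¬ (5 = p) := fun h => h_5 h.symm
  by_cases h_7 : p = 7
  · subst h_7; norm_num at h3
  have hn7 : ¬ (7 = p) := fun h => h_7 h.symm
  by_cases h_11 : p = 11
  · subst h_11; norm_num at h3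
  have hn11 : ¬ (11 = p) := fun h => h_11 h.symm
  by_cases h_13 : p = 13
  · subst h_13; norm_num
  have hn13 : ¬ (13 = p) := fun h => h_13 h.symm
  by_cases h_17 : p = 17
  · subst h_17; norm_num at h3
  have hn17 : ¬ (17 = p) := fun h => h_17 h.symm
  by_cases h_19 : p = 19
  · subst h_19; norm_num at h3
  have hn19 : ¬ (19 = p) := fun h => h_19 h.symm
  by_cases h_23 : p = 23
  · subst h_23; norm_num at h3
  have hn23 : ¬ (23 = p) := fun h => h_23 h.symm
  by_cases h_29 : p = 29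
  · subst h_29; norm_num at h3
  have hn29 : ¬ (29 = p) := fun h => h_29 h.symm
  by_cases h_31 : p = 31
  · subst h_31; norm_num at h3
  have hn31 : ¬ (31 = p) := fun h => h_31 h.symm
  by_cases h_41 : p = 41
  · subst h_41; norm_num at h3
  have hn41 : ¬ (41 = p) := fun h => h_41 h.symm
  by_cases h_47 : p = 47
  · subst h_47; norm_num at h3
  have hn47 : ¬ (47 = p) := fun h => h_47 h.symm
  by_cases h_59 : p = 59
  · subst h_59; norm_num at h3
  have hn59 : ¬ (59 = p) := fun h => h_59 h.symm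
  by_cases h_71 : p = 71
  · subst h_71; norm_num at h3
  have hn71 : ¬ (71 = p) := fun h => h_71 h.symm
  exfalso
  simp [hn2, hn3, hn5, hn7, hn11, hn13, hn17, hn19, hn23, hn29, hn31, hn41, hn47, hn59, hn71] at h3

end Cfsg.Agent.Lib.Helper1
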