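import Mathlib

set_option autoImplicit false

namespace Cfsg.Agent.Lib.Helper1

section SSI

variable {F V : Type*} [Field F] [AddCommGroup V] [Module F V] [FiniteDimensional F V]

theorem ssi_step (f : V →ₗ[F] V) (X B W : Submodule F V)
    (hX : X.map f ≤ X) (hB : B.map f ≤ B) (hW : W.map f ≤ W)
    (hirr : ∀ W' : Submodule F V, W' ≤ B → W'.map f ≤ W' → W' = ⊥ ∨ W' = B)
    (hdis : Disjoint X B) :
    Module.finrank F ↥(W ⊓ (X ⊔ B)) = Module.finrank F ↥(W ⊓ X) ∨
    Module.finrank F ↥(W ⊓ (X ⊔ B)) = Module.finrank F ↥(W ⊓ X) + Module.finrank F ↥B := by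
  obtain ⟨Z, hZ⟩ : ∃ Z : Submodule F V, Z = W ⊓ (X ⊔ B) := ⟨_, rfl⟩
  rw [← hZ]
  have hZX : Z ⊓ X = W ⊓ X := by
    rw [hZ, inf_assoc, inf_eq_right.mpr (le_sup_left : X ≤ X ⊔ B)]
  have hZinv : Z.map f ≤ Z := by
    rw [hZ]
    refine le_inf ((Submodule.map_mono inf_le_left).trans hW) ?_
    refine (Submodule.map_mono inf_le_right).trans ?_
    rw [Submodule.map_sup]
    exact sup_le_sup hX hB
  have hYinv : (Z ⊔ X).map f ≤ Z ⊔ X := by
    rw [Submodule.map_sup]
    exact sup_le_sup hZinv hX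
  have hYB : ((Z ⊔ X) ⊓ B).map f ≤ (Z ⊔ X) ⊓ B :=
    le_inf ((Submodule.map_mono inf_le_left).trans hYinv)
      ((Submodule.map_mono inf_le_right).trans hB)
  have hdim := Submodule.finrank_sup_add_finrank_inf_eq Z X
  rw [hZX] at hdim
  have hYle : Z ⊔ X ≤ X ⊔ B := by
    rw [hZ]
    exact sup_le inf_le_right le_sup_left
  have hmod : (X ⊔ B) ⊓ (Z ⊔ X) = X ⊔ B ⊓ (Z ⊔ X) :=
    sup_inf_assoc_of_le B (le_sup_right : X ≤ Z ⊔ X)
  have hY : Z ⊔ X = X ⊔ B ⊓ (Z ⊔ X) := by
    rw [← hmod]; exact (inf_eq_right.mpr hYle).symm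
  rcases hirr _ inf_le_right hYB with h | h
  · left
    have h' : B ⊓ (Z ⊔ X) = ⊥ := by rw [inf_comm]; exact h
    rw [h', sup_bot_eq] at hY
    rw [hY] at hdim
    omega
  · right
    have h' : B ⊓ (Z ⊔ X) = B := by rw [inf_comm]; exact h
    rw [h'] at hY
    rw [hY] at hdim
    have hd2 := Submodule.finrank_sup_add_finrank_inf_eq X B
    rw [hdis.eq_bot, finrank_bot] at hd2
    omega

def ssiT {s : ℕ} (U : Fin s → Submodule F V) (W₀ : Submodule F V) (k : ℕ) : Submodule F V :=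
  W₀ ⊔ ⨆ (j : Fin s) (_ : (j : ℕ) < k), U j

theorem ssiT_zero {s : ℕ} (U : Fin s → Submodule F V) (W₀ : Submodule F V) :
    ssiT U W₀ 0 = W₀ := by
  unfold ssiT
  simp

theorem ssiT_succ {s : ℕ} (U : Fin s → Submodule F V) (W₀ : Submodule F V) (k : ℕ)
    (hk : k < s) : ssiT U W₀ (k + 1) = ssiT U W₀ k ⊔ U ⟨k, hk⟩ := by
  unfold ssiT
  rw [sup_assoc]
  congr 1
  apply le_antisymm
  · refine iSup₂_le (fun j hj => ?_)
    by_cases h : (j : ℕ) < k
    · exact le_sup_of_le_left (le_iSup₂_of_le j h le_rfl)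
    · have hj' : j = ⟨k, hk⟩ := Fin.ext (by show (j : ℕ) = k; omega)
      rw [hj']
      exact le_sup_right
  · refine sup_le (iSup₂_le (fun j hj => le_iSup₂_of_le j (by omega) le_rfl)) ?_
    exact le_iSup₂_of_le (⟨k, hk⟩ : Fin s) (Nat.lt_succ_self k) le_rfl

theorem ssiT_inv {s : ℕ} (f : V →ₗ[F] V) (U : Fin s → Submodule F V)
    (hUinv : ∀ j, (U j).map f ≤ U j) (W₀ : Submodule F V) (hW₀ : W₀.map f ≤ W₀) (k : ℕ) :
    (ssiT U W₀ k).map f ≤ ssiT U W₀ k := by
  unfold ssiT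
  rw [Submodule.map_sup]
  refine sup_le_sup hW₀ ?_
  rw [Submodule.map_iSup]
  refine iSup_mono (fun j => ?_)
  rw [Submodule.map_iSup]
  exact iSup_mono (fun _ => hUinv j)

theorem ssiT_disj {s : ℕ} (f : V →ₗ[F] V) (U : Fin s → Submodule F V)
    (hdec : DirectSum.IsInternal
      (fun o : Option (Fin s) => o.elim (Module.End.eigenspace f 1) U))
    (W₀ : Submodule F V) (hW₀ : W₀ ≤ Module.End.eigenspace f 1) (k : ℕ) (hk : k < s) :
    Disjoint (ssiT U W₀ k) (U ⟨k, hk⟩) := by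
  have hind := hdec.submodule_iSupIndep (some ⟨k, hk⟩)
  refine Disjoint.mono_left ?_ hind.symm
  unfold ssiT
  refine sup_le ?_ (iSup₂_le (fun j hj => ?_))
  · exact le_iSup₂_of_le (none : Option (Fin s)) (by simp) hW₀
  · refine le_iSup₂_of_le (some j) ?_ le_rfl
    intro h
    have h1 := Option.some.inj h
    exact absurd hj (by rw [h1]; exact lt_irrefl k)

theorem ssiT_top {s : ℕ} (f : V →ₗ[F] V) (U : Fin s → Submodule F V)
    (hdec : DirectSum.IsInternal
      (fun o : Option (Fin s) => o.elim (Module.End.eigenspace f 1) U)) :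
    ssiT U (Module.End.eigenspace f 1) s = ⊤ := by
  rw [eq_top_iff, ← hdec.submodule_iSup_eq_top]
  unfold ssiT
  refine iSup_le (fun o => ?_)
  cases o with
  | none => exact le_sup_left
  | some j => exact le_sup_of_le_right (le_iSup₂_of_le j j.isLt le_rfl)

theorem ssiT_finrank {s a : ℕ} (f : V →ₗ[F] V) (U : Fin s → Submodule F V)
    (hUdim : ∀ j, Module.finrank F ↥(U j) = a)
    (hdec : DirectSum.IsInternal
      (fun o : Option (Fin s) => o.elim (Module.End.eigenspace f 1) U))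
    (W₀ : Submodule F V) (hW₀ : W₀ ≤ Module.End.eigenspace f 1) :
    ∀ k : ℕ, k ≤ s → Module.finrank F ↥(ssiT U W₀ k) = Module.finrank F ↥W₀ + a * k := by
  intro k
  induction k with
  | zero => intro _; rw [ssiT_zero]; simp
  | succ k ih =>
    intro hk
    have hk' : k < s := hk
    rw [ssiT_succ U W₀ k hk']
    have hd := Submodule.finrank_sup_add_finrank_inf_eq (ssiT U W₀ k) (U ⟨k, hk'⟩)
    rw [(ssiT_disj f U hdec W₀ hW₀ k hk').eq_bot, finrank_bot, hUdim, ih (by omega)] at hd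
    rw [mul_add, mul_one]
    omega

theorem ssi_forward {s a : ℕ} (f : V →ₗ[F] V) (U : Fin s → Submodule F V)
    (hUinv : ∀ j, (U j).map f ≤ U j) (hUdim : ∀ j, Module.finrank F ↥(U j) = a)
    (hUirr : ∀ j, ∀ W : Submodule F V, W ≤ U j → W.map f ≤ W → W = ⊥ ∨ W = U j)
    (hdec : DirectSum.IsInternal
      (fun o : Option (Fin s) => o.elim (Module.End.eigenspace f 1) U))
    (W : Submodule F V) (hW : W.map f ≤ W) :
    ∃ c t : ℕ, c ≤ Module.finrank F ↥(Module.End.eigenspace f 1) ∧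
      Module.finrank F ↥W = c + a * t := by
  have hEinv : (Module.End.eigenspace f 1).map f ≤ Module.End.eigenspace f 1 := by
    rintro _ ⟨x, hx, rfl⟩
    have hx' : f x = x := by
      have h := Module.End.mem_eigenspace_iff.mp hx
      rwa [one_smul] at h
    rw [hx']; exact hx
  have key : ∀ k : ℕ, k ≤ s → ∃ t : ℕ,
      Module.finrank F ↥(W ⊓ ssiT U (Module.End.eigenspace f 1) k) =
        Module.finrank F ↥(W ⊓ Module.End.eigenspace f 1) + a * t := by
    intro k
    induction k with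
    | zero => intro _; exact ⟨0, by rw [ssiT_zero]; simp⟩
    | succ k ih =>
      intro hk
      have hk' : k < s := hk
      obtain ⟨t, ht⟩ := ih (by omega)
      rw [ssiT_succ U _ k hk']
      rcases ssi_step f (ssiT U (Module.End.eigenspace f 1) k) (U ⟨k, hk'⟩) W
        (ssiT_inv f U hUinv _ hEinv k) (hUinv _) hW (hUirr _)
        (ssiT_disj f U hdec _ le_rfl k hk') with h | h
      · exact ⟨t, by rw [h, ht]⟩
      · exact ⟨t + 1, by rw [h, ht, hUdim]; ring⟩
  obtain ⟨t, ht⟩ := key s le_rfl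
  rw [ssiT_top f U hdec, inf_top_eq] at ht
  exact ⟨_, t, Submodule.finrank_mono inf_le_right, ht⟩

theorem ssi_exists_sub (E : Submodule F V) (c : ℕ) (hc : c ≤ Module.finrank F ↥E) :
    ∃ W₀ : Submodule F V, W₀ ≤ E ∧ Module.finrank F ↥W₀ = c := by
  have hli : LinearIndependent F (fun i : Fin c => Module.finBasis F ↥E (Fin.castLE hc i)) :=
    (Module.finBasis F ↥E).linearIndependent.comp _ (Fin.castLE_injective hc)
  refine ⟨(Submodule.span F (Set.range
    (fun i : Fin c => Module.finBasis F ↥E (Fin.castLE hc i)))).map E.subtype, ?_, ?_⟩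
  · rintro _ ⟨x, _, rfl⟩
    exact x.2
  · rw [Submodule.finrank_map_subtype_eq, finrank_span_eq_card hli, Fintype.card_fin]

theorem ssi_main (f : V →ₗ[F] V)
    {s a : ℕ} (U : Fin s → Submodule F V)
    (hUinv : ∀ j, (U j).map f ≤ U j) (hUdim : ∀ j, Module.finrank F ↥(U j) = a)
    (hUirr : ∀ j, ∀ W : Submodule F V, W ≤ U j → W.map f ≤ W → W = ⊥ ∨ W = U j)
    (hdec : DirectSum.IsInternal
      (fun o : Option (Fin s) => o.elim (Module.End.eigenspace f 1) U))
    (m : ℕ) (hmV : m < Module.finrank F V) :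
    (∃ W : Submodule F V, Module.finrank F ↥W = m ∧ W.map f ≤ W) ↔
    (m ≤ Module.finrank F ↥(Module.End.eigenspace f 1) ∨
      (a ≤ m ∧ m % a ≤ Module.finrank F ↥(Module.End.eigenspace f 1))) := by
  have hEsub : ∀ W₀ : Submodule F V, W₀ ≤ Module.End.eigenspace f 1 → W₀.map f ≤ W₀ := by
    intro W₀ hW₀
    rintro _ ⟨x, hx, rfl⟩
    have hx' : f x = x := by
      have h := Module.End.mem_eigenspace_iff.mp (hW₀ hx)
      rwa [one_smul] at h
    rw [hx']; exact hx
  have hV : Module.finrank F V = Module.finrank F ↥(Module.End.eigenspace f 1) + a * s := by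
    have h1 := ssiT_finrank f U hUdim hdec (Module.End.eigenspace f 1) le_rfl s le_rfl
    rw [ssiT_top f U hdec, finrank_top] at h1
    exact h1
  constructor
  · rintro ⟨W, hWm, hW⟩
    obtain ⟨c, t, hc, hWc⟩ := ssi_forward f U hUinv hUdim hUirr hdec W hW
    rw [hWm] at hWc
    rcases Nat.eq_zero_or_pos t with ht | ht
    · left
      rw [ht, mul_zero, add_zero] at hWc
      omega
    · right
      have h1 : a ≤ a * t := Nat.le_mul_of_pos_right a ht
      have h2 : m % a ≤ c := by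
        rw [hWc, Nat.add_mul_mod_self_left]
        exact Nat.mod_le c a
      exact ⟨by omega, by omega⟩
  · intro h
    have hcd : ∃ c d : ℕ, c ≤ Module.finrank F ↥(Module.End.eigenspace f 1) ∧ d ≤ s ∧
        m = c + a * d := by
      rcases h with h | ⟨h1, h2⟩
      · exact ⟨m, 0, h, Nat.zero_le s, by simp⟩
      · by_cases hq : m / a ≤ s
        · exact ⟨m % a, m / a, h2, hq, by rw [add_comm]; exact (Nat.div_add_mod m a).symm⟩
        · have h3 : a * s ≤ a * (m / a) := Nat.mul_le_mul_left a (by omega)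
          have h4 : a * (m / a) ≤ m := Nat.mul_div_le m a
          refine ⟨m - a * s, s, ?_, le_rfl, ?_⟩
          · omega
          · omega
    obtain ⟨c, d, hc, hd, hmcd⟩ := hcd
    obtain ⟨W₀, hW₀E, hW₀c⟩ := ssi_exists_sub (Module.End.eigenspace f 1) c hc
    refine ⟨ssiT U W₀ d, ?_, ssiT_inv f U hUinv W₀ (hEsub W₀ hW₀E) d⟩
    rw [ssiT_finrank f U hUdim hdec W₀ hW₀E d hd, hW₀c, hmcd]

end SSI

end Cfsg.Agent.Lib.Helper1
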