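import Mathlib
import Cfsg.Agent.Lib.Helper1.Subnormal2

/-!
# A relative normalizing lemma with subnormality only for the family (helper1)
-/

set_option autoImplicit false
open Pointwise

namespace Cfsg.Agent.Lib.Helper1

universe u

theorem exists_normalizing_rel' {G : Type u} [Group G] [Finite G] (P : Subgroup G)
    (S S₀ : Set (Subgroup G)) (hSP : ∀ X ∈ S, X ≤ P)
    (hsub : ∀ X ∈ S, (X.subgroupOf P).IsSubnormal)
    (hconj : ∀ X ∈ S, ∀ a ∈ P, MulAut.conj a • X ∈ S) (h₀ : S₀ ⊂ S) :
    ∃ X ∈ S, X ∉ S₀ ∧ X ≤ Subgroup.normalizer ((sSup S₀ : Subgroup G) : Set G) := by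
  obtain ⟨S', hS'⟩ : ∃ S' : Set (Subgroup P), S' = {U | U.map P.subtype ∈ S} := ⟨_, rfl⟩
  obtain ⟨S₀', hS₀'⟩ : ∃ S₀' : Set (Subgroup P), S₀' = {U | U.map P.subtype ∈ S₀} := ⟨_, rfl⟩
  have hconj' : ∀ U ∈ S', ∀ a : P, MulAut.conj a • U ∈ S' := by
    intro U hU a
    rw [hS'] at hU ⊢
    show (MulAut.conj a • U).map P.subtype ∈ S
    rw [Cfsg.Agent.Lib.Lead.map_conj_smul]
    exact hconj _ hU _ a.2
  have hsub' : ∀ U ∈ S', U.IsSubnormal := by
    intro U hU
    rw [hS'] at hU
    have h1 := hsub _ hU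
    have h2 : (U.map P.subtype).subgroupOf P = U :=
      Subgroup.comap_map_eq_self_of_injective P.subtype_injective U
    rwa [h2] at h1
  have h₀' : S₀' ⊂ S' := by
    refine ⟨?_, ?_⟩
    · intro U hU
      rw [hS₀'] at hU; rw [hS']
      exact h₀.subset hU
    · intro hsub
      obtain ⟨X, hXS, hX⟩ := Set.exists_of_ssubset h₀
      have h1 : (X.subgroupOf P).map P.subtype = X := Subgroup.map_subgroupOf_eq_of_le (hSP X hXS)
      have h2 : X.subgroupOf P ∈ S' := by
        rw [hS']; show (X.subgroupOf P).map P.subtype ∈ S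
        rw [h1]; exact hXS
      have h3 := hsub h2
      rw [hS₀'] at h3
      have h4 : (X.subgroupOf P).map P.subtype ∈ S₀ := h3
      rw [h1] at h4
      exact hX h4
  obtain ⟨U, hUS, hU₀, hUn⟩ := exists_normalizing S' S₀' hsub' hconj' h₀'
  refine ⟨U.map P.subtype, ?_, ?_, ?_⟩
  · rw [hS'] at hUS; exact hUS
  · intro h; apply hU₀; rw [hS₀']; exact h
  · have hmap : (sSup S₀' : Subgroup P).map P.subtype = sSup S₀ := by
      apply le_antisymm
      · rw [Subgroup.map_le_iff_le_comap]
        apply sSup_le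
        intro U' hU'
        rw [← Subgroup.map_le_iff_le_comap]
        rw [hS₀'] at hU'
        exact le_sSup hU'
      · apply sSup_le
        intro X hX
        have h1 : (X.subgroupOf P).map P.subtype = X :=
          Subgroup.map_subgroupOf_eq_of_le (hSP X (h₀.subset hX))
        have h2 : X.subgroupOf P ∈ S₀' := by
          rw [hS₀']; show (X.subgroupOf P).map P.subtype ∈ S₀
          rw [h1]; exact hX
        rw [← h1]
        exact Subgroup.map_mono (le_sSup h2)
    rw [← hmap]
    exact (Subgroup.map_mono hUn).trans (Subgroup.le_normalizer_map P.subtype)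

/-- conjugating inside `V` commutes with `subgroupOf V` -/
theorem conj_smul_subgroupOf {G : Type*} [Group G] (V B : Subgroup G) (a : V) :
    (MulAut.conj (a : G) • B).subgroupOf V = MulAut.conj a • (B.subgroupOf V) := by
  ext x
  rw [Subgroup.mem_subgroupOf, Cfsg.Agent.Lib.Lead.mem_conj_smul, Cfsg.Agent.Lib.Lead.mem_conj_smul,
    Subgroup.mem_subgroupOf]
  rfl

/-- a conjugation-closed family generates a subgroup normalized by the conjugating group -/
theorem le_normalizer_sSup {G : Type*} [Group G] [Finite G] (V : Subgroup G)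
    (S : Set (Subgroup G)) (hconj : ∀ X ∈ S, ∀ a ∈ V, MulAut.conj a • X ∈ S) :
    V ≤ Subgroup.normalizer ((sSup S : Subgroup G) : Set G) := by
  intro v hv
  apply Cfsg.Agent.Lib.Helper6.mem_normalizer_of_conj_mem
  intro d hd
  have h1 : sSup S ≤ MulAut.conj v⁻¹ • sSup S := by
    apply sSup_le
    intro B hB b hb
    rw [Cfsg.Agent.Lib.Lead.mem_conj_smul, inv_inv]
    exact (le_sSup (hconj B hB v hv) : MulAut.conj v • B ≤ sSup S)
      (Cfsg.Agent.Lib.Lead.conj_mem_conj_smul hb)
  have h2 := h1 hd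
  rwa [Cfsg.Agent.Lib.Lead.mem_conj_smul, inv_inv] at h2

end Cfsg.Agent.Lib.Helper1
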