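import Mathlib
import Cfsg.Prelude.Def_SolvableStructure
import Cfsg.Agent.Lib.Helper1.Supersolvable
import Cfsg.Agent.Lib.Helper1.Supersolvable2
import Cfsg.Agent.Lib.Lead.Basic
import Cfsg.Agent.Lib.Lead.Hall

set_option autoImplicit false

namespace Cfsg.Agent.Lib.Helper1

universe u

/-- a group with a nontrivial `p`-subgroup of index two has a normal subgroup of order `p` -/
theorem exists_normal_prime_of_index_two {G : Type*} [Group G] [Finite G] (p : ℕ)
    [Fact p.Prime] (K : Subgroup G) (hK : K.index = 2) (hKp : IsPGroup p K) (hK1 : K ≠ ⊥) :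
    ∃ C : Subgroup G, C.Normal ∧ Nat.card C = p := by
  have hKn : K.Normal := Subgroup.normal_of_index_eq_two hK
  have : Nontrivial K := (Subgroup.nontrivial_iff_ne_bot K).mpr hK1
  have := hKp.center_nontrivial
  have hZp : IsPGroup p (Subgroup.center K) := hKp.to_subgroup _
  have hdvd : p ∣ Nat.card (Subgroup.center K) := by
    rcases hZp.card_eq_or_dvd with h | h
    · exact absurd h (Finite.one_lt_card).ne'
    · exact h
  obtain ⟨z, hz⟩ := exists_prime_orderOf_dvd_card' p hdvd
  obtain ⟨v, hv⟩ : ∃ v : G, v = ((z : K) : G) := ⟨_, rfl⟩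
  have hvo : orderOf v = p := by rw [hv, Subgroup.orderOf_coe, Subgroup.orderOf_coe, hz]
  have hvK : v ∈ K := by rw [hv]; exact (z : K).2
  have hvc : ∀ k ∈ K, k * v = v * k := by
    intro k hk
    have := Subgroup.mem_center_iff.mp z.2 ⟨k, hk⟩
    rw [hv]
    exact congrArg Subtype.val this
  have hvp : v ^ p = 1 := by
    have := pow_orderOf_eq_one v
    rwa [hvo] at this
  obtain ⟨t, ht⟩ : ∃ t, t ∉ K := by
    by_contra hcon
    push Not at hcon
    have : K = ⊤ := (Subgroup.eq_top_iff' K).mpr hcon
    rw [this, Subgroup.index_top] at hK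
    omega
  obtain ⟨u, hu⟩ : ∃ u : G, u = t * v * t⁻¹ := ⟨_, rfl⟩
  have huK : u ∈ K := by rw [hu]; exact hKn.conj_mem v hvK t
  have htt : t * t ∈ K := Subgroup.mul_self_mem_of_index_two hK t
  have hcoset : ∀ x, x ∉ K → t⁻¹ * x ∈ K := by
    intro x hx
    rw [Subgroup.mul_mem_iff_of_index_two hK]
    constructor
    · intro h; exact absurd (K.inv_mem_iff.mp h) ht
    · intro h; exact absurd h hx
  have huc : ∀ k ∈ K, k * u = u * k := by
    intro k hk
    have hk' : t⁻¹ * k * t ∈ K := by
      have := hKn.conj_mem k hk t⁻¹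
      simpa using this
    have h1 := hvc _ hk'
    calc k * u = t * (t⁻¹ * k * t * v) * t⁻¹ := by rw [hu]; group
      _ = t * (v * (t⁻¹ * k * t)) * t⁻¹ := by rw [h1]
      _ = u * k := by rw [hu]; group
  have htu : t * u * t⁻¹ = v := by
    have h1 := hvc _ htt
    calc t * u * t⁻¹ = (t * t * v) * t⁻¹ * t⁻¹ := by rw [hu]; group
      _ = v * (t * t) * t⁻¹ * t⁻¹ := by rw [h1]
      _ = v := by group
  have hvu : v * u = u * v := (hvc u huK).symm
  have hconj : ∀ x, (x * v * x⁻¹ = v ∧ x * u * x⁻¹ = u) ∨ (x * v * x⁻¹ = u ∧ x * u * x⁻¹ = v) := by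
    intro x
    by_cases hx : x ∈ K
    · left
      constructor
      · rw [hvc x hx]; group
      · rw [huc x hx]; group
    · right
      have hk := hcoset x hx
      have h1 := hvc _ hk
      have h2 := huc _ hk
      constructor
      · calc x * v * x⁻¹ = t * (t⁻¹ * x * v) * x⁻¹ := by group
          _ = t * (v * (t⁻¹ * x)) * x⁻¹ := by rw [h1]
          _ = u := by rw [hu]; group
      · calc x * u * x⁻¹ = t * (t⁻¹ * x * u) * x⁻¹ := by group
          _ = t * (u * (t⁻¹ * x)) * x⁻¹ := by rw [h2]
          _ = t * u * t⁻¹ := by group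
          _ = v := htu
  by_cases hw : v * u = 1
  · refine ⟨Subgroup.zpowers v, zpowers_normal_of_conj_mem v ?_, by rw [Nat.card_zpowers, hvo]⟩
    intro x
    rcases hconj x with ⟨h, -⟩ | ⟨h, -⟩
    · rw [h]; exact Subgroup.mem_zpowers v
    · rw [h, ← inv_eq_of_mul_eq_one_right hw]
      exact Subgroup.inv_mem _ (Subgroup.mem_zpowers v)
  · refine ⟨Subgroup.zpowers (v * u), zpowers_normal_of_conj_mem _ ?_, ?_⟩
    · intro x
      have h0 : x * (v * u) * x⁻¹ = (x * v * x⁻¹) * (x * u * x⁻¹) := by group
      rw [h0]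
      rcases hconj x with ⟨h, h'⟩ | ⟨h, h'⟩
      · rw [h, h']; exact Subgroup.mem_zpowers _
      · rw [h, h', ← hvu]; exact Subgroup.mem_zpowers _
    · rw [Nat.card_zpowers]
      apply orderOf_eq_prime _ hw
      have hc : Commute v u := hvu
      have hup : u ^ p = 1 := by rw [hu, conj_pow, hvp]; group
      rw [hc.mul_pow, hvp, hup, one_mul]

theorem isSupersolvable_of_card_two_mul_prime_pow_aux (p : ℕ) (hp : p.Prime) :
    ∀ (n : ℕ) (G : Type u) [Group G] [Finite G], Nat.card G = 2 * p ^ n →
      Cfsg.IsSupersolvable G := by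
  intro n
  induction n with
  | zero =>
    intro G _ _ hG
    rw [pow_zero, mul_one] at hG
    have : Fact (Nat.Prime 2) := ⟨Nat.prime_two⟩
    have : IsCyclic G := isCyclic_of_prime_card hG
    exact isSupersolvable_of_isCyclic
  | succ n ih =>
    intro G _ _ hG
    have : Fact p.Prime := ⟨hp⟩
    obtain ⟨K, hK⟩ := Sylow.exists_subgroup_card_pow_prime p
      (show p ^ (n + 1) ∣ Nat.card G from by rw [hG]; exact dvd_mul_left _ _)
    have hidx : K.index = 2 := by
      have := Subgroup.card_mul_index K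
      rw [hK, hG, mul_comm] at this
      exact Nat.eq_of_mul_eq_mul_right (pow_pos hp.pos _) this
    have hKp : IsPGroup p K := IsPGroup.of_card hK
    have hK1 : K ≠ ⊥ := by
      intro h
      rw [h, Subgroup.card_bot] at hK
      have := Nat.one_lt_pow (n := n + 1) (by omega) hp.one_lt
      omega
    obtain ⟨C, hCn, hCp⟩ := exists_normal_prime_of_index_two p K hidx hKp hK1
    have := hCn
    have : IsCyclic C := isCyclic_of_prime_card hCp
    have hq : Nat.card (G ⧸ C) = 2 * p ^ n := by
      have := Subgroup.card_eq_card_quotient_mul_card_subgroup C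
      rw [hG, hCp, pow_succ, ← mul_assoc] at this
      exact (Nat.eq_of_mul_eq_mul_right hp.pos this).symm
    exact isSupersolvable_of_quotient_cyclic C (ih (G ⧸ C) hq)

theorem hasSubgroupOfEveryOrder_aux : ∀ (n : ℕ) (G : Type u) [Group G] [Finite G],
    Nat.card G ≤ n → Cfsg.IsSupersolvable G → ∀ d, d ∣ Nat.card G →
      ∃ H : Subgroup G, Nat.card H = d := by
  intro n
  induction n with
  | zero =>
    intro G _ _ hn
    exact absurd hn (by have := Nat.card_pos (α := G); omega)
  | succ n ih =>
    intro G _ _ hn hG d hd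
    by_cases hnt : Nontrivial G
    · obtain ⟨C, hCn, hCp⟩ := exists_normal_prime_of_isSupersolvable hG
      have := hCn
      have hcard := Subgroup.card_eq_card_quotient_mul_card_subgroup C
      have hlt : Nat.card (G ⧸ C) ≤ n := by
        have h2 := hCp.two_le
        have hpos := Nat.card_pos (α := G ⧸ C)
        nlinarith
      have hQ := isSupersolvable_quotient C hG
      by_cases hpd : Nat.card C ∣ d
      · obtain ⟨e, rfl⟩ := hpd
        have he : e ∣ Nat.card (G ⧸ C) := by
          rw [hcard, mul_comm] at hd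
          exact Nat.dvd_of_mul_dvd_mul_right hCp.pos hd
        obtain ⟨Hb, hHb⟩ := ih (G ⧸ C) hlt hQ e he
        exact ⟨Hb.comap (QuotientGroup.mk' C), by rw [Cfsg.Agent.Lib.Lead.card_comap_mk, hHb]⟩
      · have hcop : Nat.Coprime d (Nat.card C) :=
          (Nat.Coprime.symm ((Nat.Prime.coprime_iff_not_dvd hCp).mpr hpd))
        have he : d ∣ Nat.card (G ⧸ C) := by
          rw [hcard] at hd
          exact hcop.dvd_of_dvd_mul_right hd
        obtain ⟨Hb, hHb⟩ := ih (G ⧸ C) hlt hQ d he
        obtain ⟨L, hL⟩ : ∃ L : Subgroup G, L = Hb.comap (QuotientGroup.mk' C) := ⟨_, rfl⟩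
        have hLcard : Nat.card L = Nat.card C * d := by
          rw [hL, Cfsg.Agent.Lib.Lead.card_comap_mk, hHb]
        have hCL : C ≤ L := by
          intro c hc
          rw [hL, Subgroup.mem_comap]
          have : (QuotientGroup.mk' C) c = 1 := by
            rw [QuotientGroup.mk'_apply, QuotientGroup.eq_one_iff]; exact hc
          rw [this]; exact Subgroup.one_mem _
        have hc1 : Nat.card (C.subgroupOf L) = Nat.card C :=
          Cfsg.Agent.Lib.Lead.card_subgroupOf_of_le hCL
        have hi1 : (C.subgroupOf L).index = d := by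
          have := Subgroup.card_mul_index (C.subgroupOf L)
          rw [hc1, hLcard] at this
          exact Nat.eq_of_mul_eq_mul_left hCp.pos this
        obtain ⟨H', hH'⟩ := Subgroup.exists_right_complement'_of_coprime
          (N := C.subgroupOf L) (by rw [hc1, hi1]; exact hcop.symm)
        have h3 := hH'.card_mul_card
        rw [hc1, hLcard] at h3
        refine ⟨H'.map L.subtype, ?_⟩
        rw [Subgroup.card_map_of_injective L.subtype_injective]
        exact Nat.eq_of_mul_eq_mul_left hCp.pos h3
    · rw [not_nontrivial_iff_subsingleton] at hnt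
      have h1 : Nat.card G = 1 := Nat.card_eq_one_iff_unique.mpr ⟨hnt, ⟨1⟩⟩
      rw [h1, Nat.dvd_one] at hd
      exact ⟨⊥, by rw [Subgroup.card_bot, hd]⟩

end Cfsg.Agent.Lib.Helper1
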