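import Mathlib
import Cfsg.Prelude.Def_ClassicalGeometry

set_option autoImplicit false
open Cfsg Matrix

namespace Cfsg.Agent.Lib.Helper1

variable {F : Type*} [CommRing F] (m : ℕ)

theorem dot_J_self (v : Fin m ⊕ Fin m → F) : v ⬝ᵥ (Matrix.J (Fin m) F *ᵥ v) = 0 := by
  have hv : v = Sum.elim (v ∘ Sum.inl) (v ∘ Sum.inr) := by ext (i | i) <;> rfl
  rw [hv, Matrix.J, Matrix.fromBlocks_mulVec]
  simp only [dotProduct, Fintype.sum_sum_type, Sum.elim_inl, Sum.elim_inr, Matrix.zero_mulVec,
    Matrix.neg_mulVec, Matrix.one_mulVec, zero_add, add_zero, Pi.neg_apply, Function.comp_apply]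
  rw [← Finset.sum_add_distrib]
  apply Finset.sum_eq_zero
  intro i _
  ring

theorem sympForm_self (v : Fin m ⊕ Fin m → F) : sympForm m F v v = 0 := dot_J_self m v

theorem J_mulVec_J_mulVec (v : Fin m ⊕ Fin m → F) :
    Matrix.J (Fin m) F *ᵥ (Matrix.J (Fin m) F *ᵥ v) = -v := by
  rw [Matrix.mulVec_mulVec, Matrix.J_squared, Matrix.neg_mulVec, Matrix.one_mulVec]

theorem J_mulVec_vecMul_J (v : Fin m ⊕ Fin m → F) :
    (Matrix.J (Fin m) F *ᵥ v) ᵥ* Matrix.J (Fin m) F = v := by
  have h : Matrix.J (Fin m) F *ᵥ v = v ᵥ* (-Matrix.J (Fin m) F) := by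
    rw [← Matrix.J_transpose, Matrix.vecMul_transpose]
  rw [h, Matrix.vecMul_vecMul, Matrix.neg_mul, Matrix.J_squared, neg_neg, Matrix.vecMul_one]

theorem J_mulVec_dot (v x : Fin m ⊕ Fin m → F) :
    (Matrix.J (Fin m) F *ᵥ v) ⬝ᵥ x = sympForm m F x v := by
  unfold sympForm
  rw [dotProduct_comm]

theorem sympForm_swap (u v : Fin m ⊕ Fin m → F) : sympForm m F u v = - sympForm m F v u := by
  unfold sympForm
  rw [Matrix.dotProduct_mulVec, ← Matrix.mulVec_transpose, Matrix.J_transpose, Matrix.neg_mulVec,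
    neg_dotProduct, dotProduct_comm]

theorem sympForm_add_left (u u' v : Fin m ⊕ Fin m → F) :
    sympForm m F (u + u') v = sympForm m F u v + sympForm m F u' v := by
  unfold sympForm; rw [add_dotProduct]

theorem sympForm_add_right (u v v' : Fin m ⊕ Fin m → F) :
    sympForm m F u (v + v') = sympForm m F u v + sympForm m F u v' := by
  unfold sympForm; rw [Matrix.mulVec_add, dotProduct_add]

theorem sympForm_smul_left (a : F) (u v : Fin m ⊕ Fin m → F) :
    sympForm m F (a • u) v = a * sympForm m F u v := by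
  unfold sympForm; rw [smul_dotProduct, smul_eq_mul]

theorem sympForm_smul_right (a : F) (u v : Fin m ⊕ Fin m → F) :
    sympForm m F u (a • v) = a * sympForm m F u v := by
  unfold sympForm; rw [Matrix.mulVec_smul, dotProduct_smul, smul_eq_mul]

theorem sympForm_neg_right (u v : Fin m ⊕ Fin m → F) :
    sympForm m F u (-v) = - sympForm m F u v := by
  unfold sympForm; rw [Matrix.mulVec_neg, dotProduct_neg]

theorem sympForm_sub_right (u v v' : Fin m ⊕ Fin m → F) :
    sympForm m F u (v - v') = sympForm m F u v - sympForm m F u v' := by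
  rw [sub_eq_add_neg, sympForm_add_right, sympForm_neg_right, sub_eq_add_neg]

theorem sympTransvection_mulVec (v : Fin m ⊕ Fin m → F) (c : F) (x : Fin m ⊕ Fin m → F) :
    sympTransvection m v c *ᵥ x = x + (c * sympForm m F x v) • v := by
  unfold sympTransvection
  rw [Matrix.add_mulVec, Matrix.one_mulVec, Matrix.smul_mulVec, Matrix.vecMulVec_mulVec,
    op_smul_eq_smul, J_mulVec_dot, smul_smul]

theorem sympTransvection_mul (v : Fin m ⊕ Fin m → F) (c d : F) :
    sympTransvection m v c * sympTransvection m v d = sympTransvection m v (c + d) := by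
  unfold sympTransvection
  have hN : Matrix.vecMulVec v (Matrix.J (Fin m) F *ᵥ v) * Matrix.vecMulVec v (Matrix.J (Fin m) F *ᵥ v)
      = 0 := by
    rw [Matrix.vecMulVec_mul_vecMulVec, dotProduct_comm, dot_J_self, zero_smul,
      Matrix.vecMulVec_zero]
  rw [add_mul, mul_add, mul_add, one_mul, mul_one, one_mul, Matrix.smul_mul, Matrix.mul_smul, hN,
    smul_zero, smul_zero, add_zero, add_smul, add_assoc, add_comm (d • _) (c • _)]

theorem sympTransvection_mem (v : Fin m ⊕ Fin m → F) (c : F) :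
    sympTransvection m v c ∈ Matrix.symplecticGroup (Fin m) F := by
  rw [SymplecticGroup.mem_iff]
  unfold sympTransvection
  rw [Matrix.transpose_add, Matrix.transpose_one, Matrix.transpose_smul,
    Matrix.transpose_vecMulVec]
  have h1 : Matrix.vecMulVec v (Matrix.J (Fin m) F *ᵥ v) * Matrix.J (Fin m) F
      = Matrix.vecMulVec v v := by
    rw [Matrix.vecMulVec_mul, J_mulVec_vecMul_J]
  have h2 : Matrix.J (Fin m) F * Matrix.vecMulVec (Matrix.J (Fin m) F *ᵥ v) v
      = - Matrix.vecMulVec v v := by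
    rw [Matrix.mul_vecMulVec, J_mulVec_J_mulVec, Matrix.neg_vecMulVec]
  have h3 : Matrix.vecMulVec v v * Matrix.vecMulVec (Matrix.J (Fin m) F *ᵥ v) v = 0 := by
    rw [Matrix.vecMulVec_mul_vecMulVec, dot_J_self, zero_smul, Matrix.vecMulVec_zero]
  rw [add_mul, one_mul, Matrix.smul_mul, h1, mul_add, mul_one, add_mul, Matrix.mul_smul, h2,
    Matrix.smul_mul, Matrix.mul_smul, h3, smul_zero, smul_zero, add_zero, smul_neg]
  abel

theorem sympForm_map {A : Matrix (Fin m ⊕ Fin m) (Fin m ⊕ Fin m) F}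
    (hA : A ∈ Matrix.symplecticGroup (Fin m) F) (x y : Fin m ⊕ Fin m → F) :
    sympForm m F (A *ᵥ x) (A *ᵥ y) = sympForm m F x y := by
  unfold sympForm
  rw [← Matrix.vecMul_transpose A x, ← Matrix.dotProduct_mulVec, Matrix.mulVec_mulVec,
    Matrix.mulVec_mulVec, SymplecticGroup.mem_iff'.mp hA]

end Cfsg.Agent.Lib.Helper1
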