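import Mathlib

set_option autoImplicit false

namespace Cfsg.Agent.Lib.Helper1

open Polynomial Module

/-- the difference operator on functions on `ZMod p` -/
noncomputable def tiN (p : ℕ) (K : Type*) [Field K] : (ZMod p → K) →ₗ[K] (ZMod p → K) where
  toFun f := fun j => f (j - 1) - f j
  map_add' f g := by funext j; simp only [Pi.add_apply]; ring
  map_smul' c f := by funext j; simp only [Pi.smul_apply, smul_eq_mul, RingHom.id_apply]; ring

/-- evaluation of polynomials at the points of `ZMod p` -/
noncomputable def tiE (p : ℕ) (K : Type*) [Field K] : K[X] →ₗ[K] (ZMod p → K) where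
  toFun P := fun j => P.eval (ZMod.cast j : K)
  map_add' P Q := by funext j; simp
  map_smul' c P := by funext j; simp

theorem ti_lower {p : ℕ} [Fact p.Prime] {K : Type*} [Field K] [CharP K p] (P : K[X]) (r : ℕ)
    (hP : P.degree < ((r + 1 : ℕ) : WithBot ℕ)) :
    ∃ Q : K[X], Q.degree < ((r : ℕ) : WithBot ℕ) ∧ tiN p K (tiE p K P) = tiE p K Q := by
  refine ⟨P.comp (X - C 1) - P, ?_, ?_⟩
  · by_cases h0 : P = 0
    · rw [h0]; simp
    · have hnd : (P.comp (X - C 1)).natDegree = P.natDegree := by
        rw [natDegree_comp, natDegree_X_sub_C, mul_one]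
      have hlc : (P.comp (X - C 1)).leadingCoeff = P.leadingCoeff := by
        rw [leadingCoeff_comp (by rw [natDegree_X_sub_C]; exact one_ne_zero),
          leadingCoeff_X_sub_C, one_pow, mul_one]
      have hc0 : P.comp (X - C 1) ≠ 0 := by
        intro h
        rw [h, leadingCoeff_zero] at hlc
        exact h0 (leadingCoeff_eq_zero.mp hlc.symm)
      have hd : (P.comp (X - C 1)).degree = P.degree := by
        rw [degree_eq_natDegree hc0, degree_eq_natDegree h0, hnd]
      have h1 := degree_sub_lt_left hd hc0 hlc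
      rw [hd] at h1
      rw [degree_eq_natDegree h0] at h1 hP
      have h2 : P.natDegree < r + 1 := by exact_mod_cast hP
      refine lt_of_lt_of_le h1 ?_
      exact_mod_cast Nat.lt_succ_iff.mp h2
  · funext j
    change P.eval (ZMod.cast (j - 1) : K) - P.eval (ZMod.cast j : K) =
      (P.comp (X - C 1) - P).eval (ZMod.cast j : K)
    rw [eval_sub, eval_comp, eval_sub, eval_X, eval_C, ZMod.cast_sub (dvd_refl p),
      ZMod.cast_one (dvd_refl p)]

theorem ti_inj {p : ℕ} [Fact p.Prime] {K : Type*} [Field K] [CharP K p] (P : K[X])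
    (hP : P.degree < ((p : ℕ) : WithBot ℕ)) (h : tiE p K P = 0) : P = 0 := by
  haveI : NeZero p := ⟨(Fact.out : p.Prime).ne_zero⟩
  by_contra h0
  apply h0
  have hinj : Function.Injective (ZMod.castHom (dvd_refl p) K) :=
    (ZMod.castHom (dvd_refl p) K).injective
  refine eq_zero_of_natDegree_lt_card_of_eval_eq_zero P
    (f := fun j : ZMod p => (ZMod.cast j : K)) ?_ ?_ ?_
  · intro a b hab
    exact hinj (show ZMod.castHom (dvd_refl p) K a = ZMod.castHom (dvd_refl p) K b from hab)
  · intro j
    exact congrFun h j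
  · rw [ZMod.card]
    rw [degree_eq_natDegree h0] at hP
    exact_mod_cast hP

/-- polynomial functions of degree less than `r` -/
noncomputable def tiPol (p : ℕ) (K : Type*) [Field K] (r : ℕ) : Submodule K (ZMod p → K) :=
  (degreeLT K r).map (tiE p K)

theorem ti_mem_pol {p : ℕ} {K : Type*} [Field K] (r : ℕ) (f : ZMod p → K) :
    f ∈ tiPol p K r ↔ ∃ P : K[X], P.degree < ((r : ℕ) : WithBot ℕ) ∧
      ∀ j : ZMod p, f j = P.eval (ZMod.cast j : K) := by
  unfold tiPol
  rw [Submodule.mem_map]
  constructor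
  · rintro ⟨P, hP, rfl⟩
    exact ⟨P, mem_degreeLT.mp hP, fun j => rfl⟩
  · rintro ⟨P, hP, h⟩
    exact ⟨P, mem_degreeLT.mpr hP, by funext j; exact (h j).symm⟩

theorem ti_finrank_pol {p : ℕ} [Fact p.Prime] {K : Type*} [Field K] [CharP K p] (r : ℕ)
    (hr : r ≤ p) : finrank K (tiPol p K r) = r := by
  unfold tiPol
  rw [← LinearMap.range_domRestrict]
  have hinj : Function.Injective ((tiE p K).domRestrict (degreeLT K r)) := by
    rw [← LinearMap.ker_eq_bot, LinearMap.ker_eq_bot']
    intro P hP
    apply Subtype.ext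
    apply ti_inj (p := p) P.1
    · exact lt_of_lt_of_le (mem_degreeLT.mp P.2) (by exact_mod_cast hr)
    · exact hP
  rw [LinearMap.finrank_range_of_inj hinj, (degreeLTEquiv K r).finrank_eq, Module.finrank_fin_fun]

theorem ti_pol_le_ker {p : ℕ} [Fact p.Prime] {K : Type*} [Field K] [CharP K p] (r : ℕ) :
    tiPol p K r ≤ LinearMap.ker ((tiN p K) ^ r) := by
  induction r with
  | zero =>
    intro f hf
    rw [ti_mem_pol] at hf
    obtain ⟨P, hP, h⟩ := hf
    have hP0 : P = 0 := by
      by_contra hne
      rw [degree_eq_natDegree hne] at hP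
      have h3 : P.natDegree < 0 := by exact_mod_cast hP
      omega
    rw [pow_zero, LinearMap.mem_ker]
    change f = 0
    funext j
    rw [h j, hP0, eval_zero]; rfl
  | succ r ih =>
    intro f hf
    rw [ti_mem_pol] at hf
    obtain ⟨P, hP, h⟩ := hf
    have hf' : f = tiE p K P := by funext j; exact h j
    obtain ⟨Q, hQ, hQe⟩ := ti_lower (p := p) P r hP
    have h1 : tiN p K f ∈ tiPol p K r := by
      rw [hf', hQe, ti_mem_pol]
      exact ⟨Q, hQ, fun j => rfl⟩
    have h2 := ih h1
    rw [LinearMap.mem_ker] at h2 ⊢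
    rw [pow_succ, Module.End.mul_apply]
    exact h2

theorem ti_ker_one {p : ℕ} [Fact p.Prime] {K : Type*} [Field K] :
    finrank K (LinearMap.ker (tiN p K)) ≤ 1 := by
  haveI : NeZero p := ⟨(Fact.out : p.Prime).ne_zero⟩
  have hle : LinearMap.ker (tiN p K) ≤ Submodule.span K {(fun _ => (1 : K) : ZMod p → K)} := by
    intro f hf
    rw [LinearMap.mem_ker] at hf
    have h1 : ∀ j : ZMod p, f (j - 1) = f j := by
      intro j
      have h3 : f (j - 1) - f j = 0 := congrFun hf j
      exact sub_eq_zero.mp h3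
    have h2 : ∀ n : ℕ, f (n : ZMod p) = f 0 := by
      intro n
      induction n with
      | zero => simp
      | succ n ih =>
        have h4 := h1 ((n : ZMod p) + 1)
        rw [add_sub_cancel_right] at h4
        rw [Nat.cast_succ, ← h4, ih]
    rw [Submodule.mem_span_singleton]
    refine ⟨f 0, ?_⟩
    funext j
    rw [Pi.smul_apply, smul_eq_mul, mul_one, ← h2 j.val, ZMod.natCast_zmod_val]
  have hne : (fun _ => (1 : K) : ZMod p → K) ≠ 0 := by
    intro h
    have h5 := congrFun h 0
    simp at h5
  have h6 : finrank K (LinearMap.ker (tiN p K)) ≤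
      finrank K (Submodule.span K {(fun _ => (1 : K) : ZMod p → K)}) := Submodule.finrank_mono hle
  rw [finrank_span_singleton hne] at h6
  exact h6

theorem ti_ker_pow {p : ℕ} [Fact p.Prime] {K : Type*} [Field K] (r : ℕ) :
    finrank K (LinearMap.ker ((tiN p K) ^ r)) ≤ r := by
  haveI : NeZero p := ⟨(Fact.out : p.Prime).ne_zero⟩
  induction r with
  | zero =>
    have h0 : LinearMap.ker ((tiN p K) ^ 0) = ⊥ := by
      rw [pow_zero]
      exact LinearMap.ker_id
    rw [h0, finrank_bot]
  | succ r ih =>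
    have h1 := LinearMap.finrank_range_add_finrank_ker
      ((tiN p K).domRestrict (LinearMap.ker ((tiN p K) ^ (r + 1))))
    have h2 : LinearMap.range ((tiN p K).domRestrict (LinearMap.ker ((tiN p K) ^ (r + 1)))) ≤
        LinearMap.ker ((tiN p K) ^ r) := by
      rintro _ ⟨a, rfl⟩
      rw [LinearMap.mem_ker]
      have ha : ((tiN p K) ^ (r + 1)) (a : ZMod p → K) = 0 := LinearMap.mem_ker.mp a.2
      have e : (tiN p K) ^ r * tiN p K = (tiN p K) ^ (r + 1) := (pow_succ _ _).symm
      have ha2 : ((tiN p K) ^ r * tiN p K) (a : ZMod p → K) = 0 := by rw [e]; exact ha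
      exact ha2
    have h3 : finrank K (LinearMap.ker ((tiN p K).domRestrict
        (LinearMap.ker ((tiN p K) ^ (r + 1))))) ≤ finrank K (LinearMap.ker (tiN p K)) := by
      let ι : LinearMap.ker ((tiN p K).domRestrict (LinearMap.ker ((tiN p K) ^ (r + 1)))) →ₗ[K]
          LinearMap.ker (tiN p K) :=
        { toFun := fun a => ⟨((a : LinearMap.ker ((tiN p K) ^ (r + 1))) : ZMod p → K), by
            have h := a.2
            rw [LinearMap.mem_ker] at h ⊢
            exact h⟩
          map_add' := fun a b => rfl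
          map_smul' := fun c a => rfl }
      apply LinearMap.finrank_le_finrank_of_injective (f := ι)
      intro a b hab
      apply Subtype.ext
      apply Subtype.ext
      have h7 : ((ι a : LinearMap.ker (tiN p K)) : ZMod p → K) =
          ((ι b : LinearMap.ker (tiN p K)) : ZMod p → K) := by rw [hab]
      exact h7
    have h4 : finrank K (LinearMap.range ((tiN p K).domRestrict
        (LinearMap.ker ((tiN p K) ^ (r + 1))))) ≤ finrank K (LinearMap.ker ((tiN p K) ^ r)) :=
      Submodule.finrank_mono h2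
    have h5 := ti_ker_one (p := p) (K := K)
    omega

theorem ti_inv_le_ker {p : ℕ} [Fact p.Prime] {K : Type*} [Field K] [CharP K p] :
    ∀ (n : ℕ) (W : Submodule K (ZMod p → K)), (∀ f ∈ W, tiN p K f ∈ W) → finrank K W = n →
      W ≤ LinearMap.ker ((tiN p K) ^ n) := by
  haveI : NeZero p := ⟨(Fact.out : p.Prime).ne_zero⟩
  have hnil : ∀ f : ZMod p → K, ((tiN p K) ^ p) f = 0 := by
    intro f
    have h1 : tiPol p K p = ⊤ := by
      apply Submodule.eq_top_of_finrank_eq
      rw [ti_finrank_pol p le_rfl, Module.finrank_fintype_fun_eq_card, ZMod.card]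
    have h2 : f ∈ tiPol p K p := by rw [h1]; exact Submodule.mem_top
    exact LinearMap.mem_ker.mp (ti_pol_le_ker p h2)
  intro n
  induction n using Nat.strong_induction_on with
  | _ n ih =>
    intro W hW hn
    by_cases hW0 : W = ⊥
    · rw [hW0]; exact bot_le
    · have hW'le : W.map (tiN p K) ≤ W := by
        rintro _ ⟨f, hf, rfl⟩
        exact hW f hf
      have hW'ne : W.map (tiN p K) ≠ W := by
        intro heq
        have hk : ∀ k : ℕ, W.map ((tiN p K) ^ k) = W := by
          intro k
          induction k with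
          | zero => rw [pow_zero]; exact Submodule.map_id W
          | succ k ihk =>
            rw [pow_succ, Module.End.mul_eq_comp, Submodule.map_comp, heq, ihk]
        have h0 : W.map ((tiN p K) ^ p) = ⊥ := by
          rw [eq_bot_iff]
          rintro _ ⟨f, hf, rfl⟩
          rw [Submodule.mem_bot]
          exact hnil f
        rw [hk p] at h0
        exact hW0 h0
      have hlt : finrank K (W.map (tiN p K)) < finrank K W :=
        Submodule.finrank_lt_finrank_of_lt (lt_of_le_of_ne hW'le hW'ne)
      have hinv' : ∀ f ∈ W.map (tiN p K), tiN p K f ∈ W.map (tiN p K) := by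
        rintro _ ⟨f, hf, rfl⟩
        exact ⟨tiN p K f, hW f hf, rfl⟩
      have h1 := ih (finrank K (W.map (tiN p K))) (by rw [← hn]; exact hlt)
        (W.map (tiN p K)) hinv' rfl
      intro f hf
      rw [LinearMap.mem_ker]
      have h2 : tiN p K f ∈ W.map (tiN p K) := ⟨f, hf, rfl⟩
      have h3 := h1 h2
      rw [LinearMap.mem_ker] at h3
      obtain ⟨d, hd⟩ : ∃ d, n = d + (finrank K (W.map (tiN p K)) + 1) :=
        ⟨n - (finrank K (W.map (tiN p K)) + 1), by omega⟩
      rw [hd, pow_add, pow_succ, Module.End.mul_apply, Module.End.mul_apply, h3, map_zero]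

theorem ti_main {p : ℕ} [Fact p.Prime] {K : Type*} [Field K] [CharP K p]
    (W : Submodule K (ZMod p → K)) (hW : ∀ f ∈ W, (fun j => f (j - 1)) ∈ W) :
    ∃ r : ℕ, r ≤ p ∧ finrank K W = r ∧ ∀ f : ZMod p → K, f ∈ W ↔
      ∃ P : K[X], P.degree < ((r : ℕ) : WithBot ℕ) ∧
        ∀ j : ZMod p, f j = P.eval (ZMod.cast j : K) := by
  haveI : NeZero p := ⟨(Fact.out : p.Prime).ne_zero⟩
  have hN : ∀ f ∈ W, tiN p K f ∈ W := by
    intro f hf
    have h1 : tiN p K f = (fun j => f (j - 1)) - f := by funext j; rfl
    rw [h1]; exact W.sub_mem (hW f hf) hf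
  have hrp : finrank K W ≤ p := by
    have h := Submodule.finrank_le W
    rw [Module.finrank_fintype_fun_eq_card, ZMod.card] at h
    exact h
  refine ⟨finrank K W, hrp, rfl, ?_⟩
  have h1 : W ≤ LinearMap.ker ((tiN p K) ^ (finrank K W)) := ti_inv_le_ker _ W hN rfl
  have h2 : tiPol p K (finrank K W) ≤ LinearMap.ker ((tiN p K) ^ (finrank K W)) :=
    ti_pol_le_ker _
  have h3 : finrank K (LinearMap.ker ((tiN p K) ^ (finrank K W))) ≤ finrank K W := ti_ker_pow _
  have e1 : W = LinearMap.ker ((tiN p K) ^ (finrank K W)) :=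
    Submodule.eq_of_le_of_finrank_le h1 h3
  have e2 : tiPol p K (finrank K W) = LinearMap.ker ((tiN p K) ^ (finrank K W)) :=
    Submodule.eq_of_le_of_finrank_le h2 (by rw [ti_finrank_pol _ hrp]; exact h3)
  intro f
  rw [← ti_mem_pol, e2, ← e1]

end Cfsg.Agent.Lib.Helper1
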