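import Mathlib
import Cfsg.Prelude.Def_PLocal
import Cfsg.Agent.Lib.Helper1.TReplace2
import Cfsg.Agent.Lib.Helper6.Comm
import Cfsg.Agent.Lib.Lead.Basic

/-!
# Uniserial actions of `p`-groups (helper1)
-/

set_option autoImplicit false
open Pointwise
open scoped commutatorElement

namespace Cfsg.Agent.Lib.Helper1

variable {L : Type*} [Group L]

theorem iter_zero (N G : Subgroup L) : Cfsg.iterCommutator N G 0 = N := rfl

theorem iter_succ (N G : Subgroup L) (i : ℕ) :
    Cfsg.iterCommutator N G (i + 1) = ⁅Cfsg.iterCommutator N G i, G⁆ := rfl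

theorem iter_normalized (N G : Subgroup L) (hGN : G ≤ Subgroup.normalizer (N : Set L)) :
    ∀ i, G ≤ Subgroup.normalizer (Cfsg.iterCommutator N G i : Set L)
  | 0 => hGN
  | _ + 1 => Subgroup.normalizer_commutator_ge_right _ _

theorem iter_succ_le (N G : Subgroup L) (hGN : G ≤ Subgroup.normalizer (N : Set L)) (i : ℕ) :
    Cfsg.iterCommutator N G (i + 1) ≤ Cfsg.iterCommutator N G i :=
  commutator_le_of_le_normalizer' (iter_normalized N G hGN i) le_rfl

theorem iter_antitone (N G : Subgroup L) (hGN : G ≤ Subgroup.normalizer (N : Set L)) {i j : ℕ}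
    (hij : i ≤ j) : Cfsg.iterCommutator N G j ≤ Cfsg.iterCommutator N G i := by
  induction j, hij using Nat.le_induction with
  | base => exact le_rfl
  | succ j _ ih => exact (iter_succ_le N G hGN j).trans ih

theorem iter_le (N G : Subgroup L) (hGN : G ≤ Subgroup.normalizer (N : Set L)) (i : ℕ) :
    Cfsg.iterCommutator N G i ≤ N :=
  iter_antitone N G hGN (Nat.zero_le i)

/-- `G` normalizes `[A,B]` when it normalizes `A` and `B` -/
theorem le_normalizer_commutator [Finite L] {A B G : Subgroup L}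
    (hA : G ≤ Subgroup.normalizer (A : Set L)) (hB : G ≤ Subgroup.normalizer (B : Set L)) :
    G ≤ Subgroup.normalizer ((⁅A, B⁆ : Subgroup L) : Set L) := by
  intro g hg
  apply Cfsg.Agent.Lib.Helper6.mem_normalizer_of_conj_mem
  have hle : ⁅A, B⁆ ≤ (⁅A, B⁆ : Subgroup L).comap (MulAut.conj g).toMonoidHom := by
    rw [Subgroup.commutator_le]
    intro a ha b hb
    rw [Subgroup.mem_comap]
    show (MulAut.conj g) ⁅a, b⁆ ∈ ⁅A, B⁆
    rw [MulAut.conj_apply, conjugate_commutatorElement]
    exact Subgroup.commutator_mem_commutator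
      ((Subgroup.mem_normalizer_iff.mp (hA hg) a).mp ha)
      ((Subgroup.mem_normalizer_iff.mp (hB hg) b).mp hb)
  intro d hd
  have h1 := hle hd
  rw [Subgroup.mem_comap] at h1
  exact h1

section

variable [Finite L] {p : ℕ} [Fact p.Prime] (N G : Subgroup L)

/-- the chain condition: `|N_i| = p^(n-i)` -/
def ChainCond (p : ℕ) (N G : Subgroup L) (n : ℕ) : Prop :=
  ∀ i ≤ n, Nat.card ↥(Cfsg.iterCommutator N G i) = p ^ (n - i)

theorem chain_of_unis (hGN : G ≤ Subgroup.normalizer (N : Set L)) (n : ℕ)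
    (hn : Nat.card N = p ^ n)
    (hU : ∀ H : Subgroup L, H ≤ N → G ≤ Subgroup.normalizer (H : Set L) → H ≠ ⊥ →
      (⁅H, G⁆).relIndex H = p) : ChainCond p N G n := by
  have hp : p.Prime := Fact.out
  intro i
  induction i with
  | zero => intro _; exact hn
  | succ i ih =>
    intro hi
    have h1 := ih (by omega)
    have hne : Cfsg.iterCommutator N G i ≠ ⊥ := by
      intro h0
      rw [h0, Subgroup.card_bot] at h1
      have : 1 < p ^ (n - i) := Nat.one_lt_pow (by omega) hp.one_lt
      omega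
    have h2 := hU _ (iter_le N G hGN i) (iter_normalized N G hGN i) hne
    have h3 := Cfsg.Agent.Lib.Helper5.card_mul_relIndex_of_le (iter_succ_le N G hGN i)
    rw [iter_succ] at h3 ⊢
    have e : n - i = (n - (i + 1)) + 1 := by omega
    rw [h2, h1, e, pow_succ] at h3
    exact Nat.eq_of_mul_eq_mul_right hp.pos h3

theorem iter_ne_of_ne_bot (hN : IsPGroup p N) (hG : IsPGroup p G)
    (hGN : G ≤ Subgroup.normalizer (N : Set L)) (i : ℕ)
    (hne : Cfsg.iterCommutator N G i ≠ ⊥) :
    Cfsg.iterCommutator N G (i + 1) < Cfsg.iterCommutator N G i := by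
  refine lt_of_le_of_ne (iter_succ_le N G hGN i) ?_
  rw [iter_succ]
  exact commutator_ne_self_of_pgroup _ G (hN.to_le (iter_le N G hGN i)) hG
    (iter_normalized N G hGN i) hne

theorem chain_of_ne_bot (hN : IsPGroup p N) (hG : IsPGroup p G)
    (hGN : G ≤ Subgroup.normalizer (N : Set L)) (n : ℕ) (hn : Nat.card N = p ^ n)
    (h : Cfsg.iterCommutator N G (n - 1) ≠ ⊥ ∨ n = 0) : ChainCond p N G n := by
  have hp : p.Prime := Fact.out
  rcases Nat.eq_zero_or_pos n with h0 | hpos
  · intro i hi
    have hi0 : i = 0 := by omega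
    rw [hi0]; exact hn
  · have hne1 : Cfsg.iterCommutator N G (n - 1) ≠ ⊥ := by
      rcases h with h | h
      · exact h
      · omega
    have hne : ∀ i ≤ n - 1, Cfsg.iterCommutator N G i ≠ ⊥ := by
      intro i hi h0
      apply hne1
      rw [← le_bot_iff, ← h0]
      exact iter_antitone N G hGN hi
    have hlt : ∀ i ≤ n - 1, Nat.card ↥(Cfsg.iterCommutator N G (i + 1)) <
        Nat.card ↥(Cfsg.iterCommutator N G i) := fun i hi =>
      Cfsg.Agent.Lib.Lead.card_lt_of_lt (iter_ne_of_ne_bot N G hN hG hGN i (hne i hi))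
    have hpow : ∀ i, ∃ e, Nat.card ↥(Cfsg.iterCommutator N G i) = p ^ e := fun i =>
      IsPGroup.iff_card.mp (hN.to_le (iter_le N G hGN i))
    have upper : ∀ i ≤ n, Nat.card ↥(Cfsg.iterCommutator N G i) ≤ p ^ (n - i) := by
      intro i
      induction i with
      | zero => intro _; rw [iter_zero, hn]; exact le_rfl
      | succ i ih =>
        intro hi
        have h1 := ih (by omega)
        have h2 := hlt i (by omega)
        obtain ⟨e, he⟩ := hpow (i + 1)
        rw [he] at h2 ⊢
        have h3 : p ^ e < p ^ (n - i) := lt_of_lt_of_le h2 h1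
        have h4 : e < n - i := (Nat.pow_lt_pow_iff_right hp.one_lt).mp h3
        exact Nat.pow_le_pow_right hp.pos (by omega)
    have lower : ∀ d ≤ n - 1, p ^ (d + 1) ≤ Nat.card ↥(Cfsg.iterCommutator N G (n - 1 - d)) := by
      intro d
      induction d with
      | zero =>
        intro _
        obtain ⟨e, he⟩ := hpow (n - 1)
        have he0 : e ≠ 0 := by
          intro h0
          rw [h0, pow_zero] at he
          exact hne1 (Subgroup.card_eq_one.mp he)
        show p ^ (0 + 1) ≤ Nat.card ↥(Cfsg.iterCommutator N G (n - 1 - 0))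
        rw [Nat.sub_zero, he]
        exact Nat.pow_le_pow_right hp.pos (by omega)
      | succ d ih =>
        intro hd
        have h1 := ih (by omega)
        have h2 := hlt (n - 1 - (d + 1)) (by omega)
        have e1 : n - 1 - (d + 1) + 1 = n - 1 - d := by omega
        rw [e1] at h2
        obtain ⟨e, he⟩ := hpow (n - 1 - (d + 1))
        rw [he] at h2 ⊢
        have h3 : p ^ (d + 1) < p ^ e := lt_of_le_of_lt h1 h2
        have h4 : d + 1 < e := (Nat.pow_lt_pow_iff_right hp.one_lt).mp h3
        exact Nat.pow_le_pow_right hp.pos (by omega)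
    intro i hi
    rcases Nat.lt_or_ge i n with hlt' | hge
    · have h1 := lower (n - 1 - i) (by omega)
      have e1 : n - 1 - (n - 1 - i) = i := by omega
      have e2 : n - 1 - i + 1 = n - i := by omega
      rw [e1, e2] at h1
      exact le_antisymm (upper i hi) h1
    · have hin : i = n := by omega
      have h1 := upper i hi
      rw [hin] at h1 ⊢
      rw [Nat.sub_self, pow_zero] at h1 ⊢
      have h2 : 0 < Nat.card ↥(Cfsg.iterCommutator N G n) := Nat.card_pos
      omega

theorem chain_inv_aux (hN : IsPGroup p N) (hG : IsPGroup p G)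
    (hGN : G ≤ Subgroup.normalizer (N : Set L)) (n : ℕ) (hcc : ChainCond p N G n) :
    ∀ d ≤ n, ∀ H : Subgroup L, G ≤ Subgroup.normalizer (H : Set L) →
      H ≤ Cfsg.iterCommutator N G (n - d) →
      ∃ j, n - d ≤ j ∧ j ≤ n ∧ H = Cfsg.iterCommutator N G j := by
  have hp : p.Prime := Fact.out
  intro d
  induction d with
  | zero =>
    intro _ H _ hH
    rw [Nat.sub_zero] at hH ⊢
    have h1 := hcc n le_rfl
    rw [Nat.sub_self, pow_zero] at h1
    have h2 : Cfsg.iterCommutator N G n = ⊥ := Subgroup.card_eq_one.mp h1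
    refine ⟨n, le_rfl, le_rfl, ?_⟩
    rw [h2] at hH ⊢
    exact le_bot_iff.mp hH
  | succ d ih =>
    intro hd H hGH hH
    obtain ⟨i, hi⟩ : ∃ i, i = n - (d + 1) := ⟨_, rfl⟩
    have hi1 : i + 1 = n - d := by omega
    rw [← hi] at hH ⊢
    have ihd := ih (by omega)
    rw [← hi1] at ihd
    by_cases hHM : H ≤ Cfsg.iterCommutator N G (i + 1)
    · obtain ⟨j, hj1, hj2, hj3⟩ := ihd H hGH hHM
      exact ⟨j, by omega, hj2, hj3⟩
    · refine ⟨i, le_rfl, by omega, ?_⟩
      obtain ⟨T, hT⟩ : ∃ T : Subgroup L, T = Cfsg.iterCommutator N G i := ⟨_, rfl⟩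
      obtain ⟨M, hM⟩ : ∃ M : Subgroup L, M = Cfsg.iterCommutator N G (i + 1) := ⟨_, rfl⟩
      have hMT' : M = ⁅T, G⁆ := by rw [hM, hT]; rfl
      rw [← hT] at hH ⊢
      rw [← hM] at hHM ihd
      have hMT : M ≤ T := by rw [hM, hT]; exact iter_succ_le N G hGN i
      have hTnM : T ≤ Subgroup.normalizer (M : Set L) := by
        rw [hMT']; exact Subgroup.normalizer_commutator_ge_left T G
      have hcT : Nat.card T = p ^ (n - i) := by rw [hT]; exact hcc i (by omega)
      have hcM : Nat.card M = p ^ (n - (i + 1)) := by rw [hM]; exact hcc (i + 1) (by omega)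
      have hcTM : Nat.card T = Nat.card M * p := by
        rw [hcT, hcM, ← pow_succ]; congr 1; omega
      -- H ⊔ M = T
      have hsup : H ⊔ M = T := by
        apply Subgroup.eq_of_le_of_card_ge (sup_le hH hMT)
        have hlt : M < H ⊔ M := by
          refine lt_of_le_of_ne le_sup_right ?_
          intro heq
          apply hHM
          rw [heq]; exact le_sup_left
        have h1 := Cfsg.Agent.Lib.Lead.card_lt_of_lt hlt
        obtain ⟨q, hq⟩ := Subgroup.card_dvd_of_le (le_sup_right : M ≤ H ⊔ M)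
        have h2 : Nat.card ↥(H ⊔ M) ∣ Nat.card T := Subgroup.card_dvd_of_le (sup_le hH hMT)
        rw [hq, hcTM] at h2
        have h3 : q ∣ p := Nat.dvd_of_mul_dvd_mul_left Nat.card_pos h2
        rcases (Nat.dvd_prime hp).mp h3 with h4 | h4
        · rw [hq, h4, mul_one] at h1; omega
        · rw [hcTM, hq, h4]
      -- [H,G] = iter k
      have hHG : ⁅H, G⁆ ≤ M := by rw [hMT']; exact Subgroup.commutator_mono hH le_rfl
      obtain ⟨k, hk1, hk2, hk3⟩ := ihd ⁅H, G⁆ (Subgroup.normalizer_commutator_ge_right H G) hHG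
      have hHGH : ⁅H, G⁆ ≤ H := commutator_le_of_le_normalizer' hGH le_rfl
      rcases Nat.eq_or_lt_of_le hk1 with hk | hk
      · -- k = i+1
        have h1 : M ≤ H := by rw [hM, hk, ← hk3]; exact hHGH
        rw [← hsup]
        exact (sup_eq_left.mpr h1).symm
      · exfalso
        obtain ⟨K, hK⟩ : ∃ K : Subgroup L, K = Cfsg.iterCommutator N G (i + 2) := ⟨_, rfl⟩
        have hKM : K = ⁅M, G⁆ := by rw [hK, hM]; rfl
        have hHGK : ⁅H, G⁆ ≤ K := by
          rw [hk3, hK]; exact iter_antitone N G hGN (by omega)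
        have hMK : M ≤ K := by
          nth_rewrite 1 [hMT']
          rw [Subgroup.commutator_le]
          intro t ht g hg
          have ht' : t ∈ ((M ⊔ H : Subgroup L) : Set L) := by
            rw [sup_comm, hsup]; exact ht
          rw [Subgroup.coe_mul_of_right_le_normalizer_left M H (hH.trans hTnM)] at ht'
          obtain ⟨m, hm, h', hh', rfl⟩ := Set.mem_mul.mp ht'
          rw [commutatorElement_mul_left_eq_conj_mul]
          have h1 : ⁅h', g⁆ ∈ K := hHGK (Subgroup.commutator_mem_commutator hh' hg)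
          have h2 : m ∈ Subgroup.normalizer (K : Set L) := by
            rw [hKM]; exact Subgroup.normalizer_commutator_ge_left M G hm
          have h3 : ⁅m, g⁆ ∈ K := by
            rw [hKM]; exact Subgroup.commutator_mem_commutator hm hg
          exact K.mul_mem ((Subgroup.mem_normalizer_iff.mp h2 _).mp h1) h3
        have hMne : M ≠ ⊥ := by
          intro h0
          rw [h0, Subgroup.card_bot] at hcM
          have : 1 < p ^ (n - (i + 1)) := Nat.one_lt_pow (by omega) hp.one_lt
          omega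
        have h4 := iter_ne_of_ne_bot N G hN hG hGN (i + 1) (by rw [← hM]; exact hMne)
        rw [← hM] at h4
        have h5 : Cfsg.iterCommutator N G (i + 1 + 1) = K := by rw [hK]
        rw [h5] at h4
        exact (not_le_of_gt h4) hMK

theorem chain_inv (hN : IsPGroup p N) (hG : IsPGroup p G)
    (hGN : G ≤ Subgroup.normalizer (N : Set L)) (n : ℕ) (hcc : ChainCond p N G n)
    (i : ℕ) (hi : i ≤ n) (H : Subgroup L) (hGH : G ≤ Subgroup.normalizer (H : Set L))
    (hH : H ≤ Cfsg.iterCommutator N G i) :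
    ∃ j, i ≤ j ∧ j ≤ n ∧ H = Cfsg.iterCommutator N G j := by
  have h1 := chain_inv_aux N G hN hG hGN n hcc (n - i) (by omega) H hGH
  have e : n - (n - i) = i := by omega
  rw [e] at h1
  exact h1 hH

theorem unis_of_chain (hN : IsPGroup p N) (hG : IsPGroup p G)
    (hGN : G ≤ Subgroup.normalizer (N : Set L)) (n : ℕ) (hcc : ChainCond p N G n) :
    ∀ H : Subgroup L, H ≤ N → G ≤ Subgroup.normalizer (H : Set L) → H ≠ ⊥ →
      (⁅H, G⁆).relIndex H = p := by
  have hp : p.Prime := Fact.out
  intro H hHN hGH hne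
  obtain ⟨j, -, hj2, hj3⟩ := chain_inv N G hN hG hGN n hcc 0 (Nat.zero_le n) H hGH hHN
  have hjn : j ≠ n := by
    intro h0
    apply hne
    rw [hj3, h0]
    have h1 := hcc n le_rfl
    rw [Nat.sub_self, pow_zero] at h1
    exact Subgroup.card_eq_one.mp h1
  have h1 := hcc j hj2
  have h2 := hcc (j + 1) (by omega)
  have h3 := Cfsg.Agent.Lib.Helper5.card_mul_relIndex_of_le (iter_succ_le N G hGN j)
  rw [hj3]
  rw [iter_succ] at h2 h3
  have e : n - j = (n - (j + 1)) + 1 := by omega
  rw [h1, h2, e, pow_succ] at h3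
  exact Nat.eq_of_mul_eq_mul_left (pow_pos hp.pos _) h3

theorem chain_normal (hN : IsPGroup p N) (hG : IsPGroup p G)
    (hGN : G ≤ Subgroup.normalizer (N : Set L)) (n : ℕ) (hcc : ChainCond p N G n) :
    ∀ i ≤ n, N ≤ Subgroup.normalizer (Cfsg.iterCommutator N G i : Set L) := by
  have hp : p.Prime := Fact.out
  intro i
  induction i with
  | zero => intro _; exact Subgroup.le_normalizer
  | succ i ih =>
    intro hi
    have ihN := ih (by omega)
    obtain ⟨T, hT⟩ : ∃ T : Subgroup L, T = Cfsg.iterCommutator N G i := ⟨_, rfl⟩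
    rw [← hT] at ihN
    have hcT : Nat.card T = p ^ (n - i) := by rw [hT]; exact hcc i (by omega)
    have hTne : T ≠ ⊥ := by
      intro h0
      rw [h0, Subgroup.card_bot] at hcT
      have : 1 < p ^ (n - i) := Nat.one_lt_pow (by omega) hp.one_lt
      omega
    have hCT : ⁅T, N⁆ ≤ T := commutator_le_of_le_normalizer' ihN le_rfl
    have hCne : ⁅T, N⁆ ≠ T :=
      commutator_ne_self_of_pgroup T N (hN.to_le (by rw [hT]; exact iter_le N G hGN i)) hN ihN hTne
    have hGC : G ≤ Subgroup.normalizer ((⁅T, N⁆ : Subgroup L) : Set L) :=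
      le_normalizer_commutator (by rw [hT]; exact iter_normalized N G hGN i) hGN
    obtain ⟨j, hj1, hj2, hj3⟩ := chain_inv N G hN hG hGN n hcc i (by omega) ⁅T, N⁆ hGC
      (by rw [← hT]; exact hCT)
    have hji : j ≠ i := by
      intro h0
      apply hCne
      rw [hj3, h0, hT]
    have hC1 : ⁅T, N⁆ ≤ Cfsg.iterCommutator N G (i + 1) := by
      rw [hj3]; exact iter_antitone N G hGN (by omega)
    intro x hx
    apply Cfsg.Agent.Lib.Helper6.mem_normalizer_of_conj_mem
    intro a ha
    have haT : a ∈ T := by rw [hT]; exact iter_succ_le N G hGN i ha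
    have e : x * a * x⁻¹ = (⁅a, x⁆)⁻¹ * a := by rw [commutatorElement_def]; group
    rw [e]
    exact Subgroup.mul_mem _ (Subgroup.inv_mem _ (hC1 (Subgroup.commutator_mem_commutator haT hx)))
      ha

end

end Cfsg.Agent.Lib.Helper1
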